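import Mathlib

set_option autoImplicit false

namespace Cfsg.Agent.Lib.Helper74.TG

/-- the automorphism group of a group of prime order is cyclic -/
theorem isCyclic_mulAut_of_prime_card {Z : Type*} [Group Z] (p : ℕ) [hp : Fact p.Prime]
    (hZ : Nat.card Z = p) : IsCyclic (MulAut Z) := by
  haveI : IsCyclic Z := isCyclic_of_prime_card hZ
  have hpr : Fact (Nat.card Z).Prime := ⟨by rw [hZ]; exact hp.out⟩
  haveI : NeZero (Nat.card Z) := ⟨hpr.out.ne_zero⟩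
  have e := IsCyclic.mulAutMulEquiv Z
  exact isCyclic_of_surjective e.symm e.symm.surjective

/-- PIECE GRP -/
theorem hall_normalizer {G : Type*} [Group G] [Fintype G] (p : ℕ) [Fact p.Prime] (z : G)
    (hz : orderOf z = p) (hp2 : ¬ p ^ 2 ∣ Nat.card G)
    (K : Subgroup G) (hK : ∀ y : G, y ∈ K ↔ (y * z = z * y ∧ ¬ p ∣ orderOf y)) :
    ∃ N₀ : Subgroup G,
      N₀ ≤ Subgroup.normalizer ((Subgroup.zpowers z : Subgroup G) : Set G) ∧ K ≤ N₀ ∧
      ¬ p ∣ Nat.card N₀ ∧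
      (∀ n ∈ Subgroup.normalizer ((Subgroup.zpowers z : Subgroup G) : Set G),
        ∃ (i : ℕ), ∃ n₀ ∈ N₀, n = z ^ i * n₀) ∧
      (∃ g ∈ N₀, ∀ h ∈ N₀, ∃ (i : ℕ), ∃ y ∈ K, h = g ^ i * y) ∧
      (∀ h ∈ Subgroup.normalizer ((Subgroup.zpowers z : Subgroup G) : Set G),
        ∀ y ∈ K, h * y * h⁻¹ ∈ K) := by
  classical
  have hp : p.Prime := Fact.out
  obtain ⟨Nn, hNn⟩ : ∃ Nn : Subgroup G,
      Nn = Subgroup.normalizer ((Subgroup.zpowers z : Subgroup G) : Set G) := ⟨_, rfl⟩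
  rw [← hNn]
  have hZle : Subgroup.zpowers z ≤ Nn := by
    rw [hNn]
    exact Subgroup.le_normalizer
  obtain ⟨Z', hZ'⟩ : ∃ Z' : Subgroup Nn, Z' = (Subgroup.zpowers z).subgroupOf Nn := ⟨_, rfl⟩
  haveI hZ'n : Z'.Normal := by
    rw [hZ', hNn]
    exact Subgroup.normal_in_normalizer
  have hZ'card : Nat.card Z' = p := by
    rw [hZ', Nat.card_congr (Subgroup.subgroupOfEquivOfLe hZle).toEquiv, Nat.card_zpowers, hz]
  have hNndvd : Nat.card Nn ∣ Nat.card G := Subgroup.card_subgroup_dvd_card Nn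
  have hcop : Nat.Coprime (Nat.card Z') Z'.index := by
    rw [hZ'card, Nat.Prime.coprime_iff_not_dvd hp]
    intro hdvd
    apply hp2
    have h1 : Z'.index * Nat.card Z' = Nat.card Nn := Subgroup.index_mul_card Z'
    rw [hZ'card] at h1
    obtain ⟨c, hc⟩ := hdvd
    exact dvd_trans ⟨c, by rw [← h1, hc]; ring⟩ hNndvd
  obtain ⟨H, hH⟩ := Subgroup.exists_right_complement'_of_coprime hcop
  have hHcard : Nat.card Z' * Nat.card H = Nat.card Nn := hH.card_mul_card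
  have hpH : ¬ p ∣ Nat.card H := by
    intro hdvd
    apply hp2
    rw [hZ'card] at hHcard
    obtain ⟨c, hc⟩ := hdvd
    exact dvd_trans ⟨c, by rw [← hHcard, hc]; ring⟩ hNndvd
  have hmapcard : Nat.card (H.map Nn.subtype) = Nat.card H :=
    Subgroup.card_map_of_injective Nn.subtype_injective
  -- membership of `z`
  have hzNn : z ∈ Nn := hZle (Subgroup.mem_zpowers z)
  have hpow : ∀ a : Nn, a ∈ Z' → ∃ i : ℕ, z ^ i = (a : G) := by
    intro a ha
    rw [hZ', Subgroup.mem_subgroupOf] at ha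
    have ha' := (mem_powers_iff_mem_zpowers (x := z)).2 ha
    exact (Submonoid.mem_powers_iff _ _).1 ha'
  -- decomposition
  have hdec : ∀ n ∈ Nn, ∃ (i : ℕ), ∃ n₀ ∈ H.map Nn.subtype, n = z ^ i * n₀ := by
    intro n hn
    obtain ⟨⟨⟨a, ha⟩, ⟨b, hb⟩⟩, hab, _⟩ := hH.existsUnique (⟨n, hn⟩ : Nn)
    obtain ⟨i, hi⟩ := hpow a ha
    refine ⟨i, (b : G), Subgroup.mem_map.2 ⟨b, hb, rfl⟩, ?_⟩
    have := congrArg (fun t : Nn => (t : G)) hab
    simp only [Subgroup.coe_mul] at this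
    rw [hi]
    exact this.symm
  -- orders in `N₀`
  have hord : ∀ x ∈ H.map Nn.subtype, ¬ p ∣ orderOf x := by
    intro x hx hdvd
    apply hpH
    rw [← hmapcard]
    exact dvd_trans hdvd (Subgroup.orderOf_dvd_natCard _ hx)
  -- `K ≤ Nn`
  have hcomm_pow : ∀ y : G, y * z = z * y → ∀ k : ℤ, y * z ^ k = z ^ k * y := by
    intro y hy k
    exact (Commute.zpow_right (show Commute y z from hy) k).eq
  have hKNn : ∀ y ∈ K, y ∈ Nn := by
    intro y hy
    rw [hNn, Subgroup.mem_normalizer_iff]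
    have hyz := ((hK y).1 hy).1
    intro h
    constructor
    · rintro ⟨k, rfl⟩
      refine ⟨k, ?_⟩
      show z ^ k = y * z ^ k * y⁻¹
      rw [hcomm_pow y hyz k, mul_inv_cancel_right]
    · rintro ⟨k, hk⟩
      refine ⟨k, ?_⟩
      have hk' : z ^ k = y * h * y⁻¹ := hk
      have : y * z ^ k * y⁻¹ = y * h * y⁻¹ := by
        rw [hcomm_pow y hyz k, mul_inv_cancel_right]
        exact hk'
      exact mul_left_cancel (mul_right_cancel this)
  refine ⟨H.map Nn.subtype, Subgroup.map_subtype_le H, ?_, ?_, hdec, ?_, ?_⟩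
  · -- `K ≤ N₀`
    intro y hy
    obtain ⟨hyz, hyp⟩ := (hK y).1 hy
    obtain ⟨i, n₀, hn₀, hyn⟩ := hdec y (hKNn y hy)
    have hn₀' : n₀ = (z ^ i)⁻¹ * y := by rw [hyn, inv_mul_cancel_left]
    have hcomm : Commute (z ^ i)⁻¹ y :=
      (Commute.pow_left (show Commute z y from hyz.symm) i).inv_left
    have hu : orderOf ((z ^ i)⁻¹) ∣ p := by
      rw [orderOf_inv, ← hz]
      exact orderOf_pow_dvd i
    rcases (Nat.dvd_prime hp).1 hu with h1 | h1
    · rw [orderOf_eq_one_iff, inv_eq_one] at h1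
      rw [hyn, h1, one_mul]
      exact hn₀
    · exfalso
      apply hord n₀ hn₀
      rw [hn₀', hcomm.orderOf_mul_eq_mul_orderOf_of_coprime
        (by rw [h1]; exact (Nat.Prime.coprime_iff_not_dvd hp).2 hyp), h1]
      exact dvd_mul_right _ _
  · -- `p ∤ |N₀|`
    rw [hmapcard]
    exact hpH
  · -- cyclic quotient
    haveI : IsCyclic (MulAut Z') := isCyclic_mulAut_of_prime_card p hZ'card
    obtain ⟨φ, hφ⟩ : ∃ φ : H →* MulAut Z', φ = (MulAut.conjNormal (H := Z')).comp H.subtype :=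
      ⟨_, rfl⟩
    haveI : IsCyclic φ.range := Subgroup.isCyclic _
    obtain ⟨⟨_, g₀, rfl⟩, hgen⟩ := IsCyclic.exists_monoid_generator (α := φ.range)
    refine ⟨((g₀ : Nn) : G), Subgroup.mem_map.2 ⟨g₀, g₀.2, rfl⟩, ?_⟩
    rintro _ ⟨h, hh, rfl⟩
    obtain ⟨i, hi⟩ := (Submonoid.mem_powers_iff _ _).1 (hgen ⟨φ ⟨h, hh⟩, ⟨h, hh⟩, rfl⟩)
    have hi' : φ g₀ ^ i = φ ⟨h, hh⟩ := by
      have := congrArg (fun t : φ.range => (t : MulAut Z')) hi
      simpa using this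
    obtain ⟨y, hy⟩ : ∃ y : H, y = (g₀ ^ i)⁻¹ * ⟨h, hh⟩ := ⟨_, rfl⟩
    have hφy : φ y = 1 := by
      rw [hy, map_mul, map_inv, map_pow, hi', inv_mul_cancel]
    have hyz : ((y : Nn) : G) * z = z * ((y : Nn) : G) := by
      have hzZ' : (⟨z, hzNn⟩ : Nn) ∈ Z' := by
        rw [hZ', Subgroup.mem_subgroupOf]
        exact Subgroup.mem_zpowers z
      have h1 : φ y ⟨⟨z, hzNn⟩, hzZ'⟩ = ⟨⟨z, hzNn⟩, hzZ'⟩ := by
        rw [hφy]
        rfl
      have h2 := congrArg (fun t : Z' => ((t : Nn) : G)) h1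
      rw [hφ] at h2
      simp only [MonoidHom.comp_apply, Subgroup.coe_subtype, MulAut.conjNormal_apply,
        Subgroup.coe_mul, Subgroup.coe_inv] at h2
      calc ((y : Nn) : G) * z = (((y : Nn) : G) * z * ((y : Nn) : G)⁻¹) * ((y : Nn) : G) := by
            group
        _ = z * ((y : Nn) : G) := by rw [h2]
    have hyN₀ : ((y : Nn) : G) ∈ H.map Nn.subtype := Subgroup.mem_map.2 ⟨y, y.2, rfl⟩
    refine ⟨i, ((y : Nn) : G), (hK _).2 ⟨hyz, hord _ hyN₀⟩, ?_⟩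
    rw [hy]
    simp
  · -- `Nn` normalizes `K`
    intro h hh y hy
    obtain ⟨hyz, hyp⟩ := (hK y).1 hy
    rw [hK]
    constructor
    · have hinv : h⁻¹ ∈ Nn := Nn.inv_mem hh
      rw [hNn, Subgroup.mem_normalizer_iff] at hinv
      obtain ⟨k, hk⟩ := (hinv z).1 (Subgroup.mem_zpowers z)
      have hk' : z ^ k = h⁻¹ * z * h := by simpa using hk
      have e1 : y * (h⁻¹ * z * h) = (h⁻¹ * z * h) * y := by
        rw [← hk']
        exact hcomm_pow y hyz k
      calc h * y * h⁻¹ * z = h * (y * (h⁻¹ * z * h)) * h⁻¹ := by group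
        _ = h * ((h⁻¹ * z * h) * y) * h⁻¹ := by rw [e1]
        _ = z * (h * y * h⁻¹) := by group
    · have e : h * y * h⁻¹ = MulAut.conj h y := by rw [MulAut.conj_apply]
      rw [e, MulEquiv.orderOf_eq]
      exact hyp

end Cfsg.Agent.Lib.Helper74.TG
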