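import Mathlib
import Cfsg.Prelude.Def_ChevE6
import Cfsg.Prelude.Def_ChevE7
import Cfsg.Prelude.Def_ChevE8
import Cfsg.Prelude.Def_ChevStructure

/-!
# Piece PM: the cokernel of the Cartan matrix of `E₆`, `E₇`, `E₈` on a finite cyclic group

An abstract criterion (`index_of_cert`) from integer certificates, and the certificates for the
three Cartan matrices.
-/

set_option autoImplicit false

namespace Cfsg.Agent.Lib.Helper74.ChevDynP

open Cfsg.Lie

/-- a power with exponent a finite sum -/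
theorem zpow_finset_sum {C : Type*} [CommGroup C] {ι : Type*} (x : C) (f : ι → ℤ) (s : Finset ι) :
    x ^ (∑ i ∈ s, f i) = ∏ i ∈ s, x ^ f i := by
  classical
  induction s using Finset.induction_on with
  | empty => simp
  | insert a s ha ih => rw [Finset.sum_insert ha, Finset.prod_insert ha, zpow_add, ih]

/-- the index of the image of an integer matrix acting on `Cⁿ`, `C` finite cyclic, from integer
certificates -/
theorem index_of_cert {C : Type*} [CommGroup C] [Finite C] [IsCyclic C] (n : ℕ)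
    (A : Fin n → Fin n → ℤ) (m : ℕ) (w u v z : Fin n → ℤ) (B : Fin n → Fin n → ℤ)
    (h1 : ∀ j, ∑ i, A j i * w i = m * u j)
    (h2 : ∀ i k, ∑ j, A j i * B j k = (if i = k then 1 else 0) - v i * w k)
    (h3 : ∀ i, ∑ j, A j i * z j = m * v i)
    (h4 : ∑ i, w i * v i = 1)
    (K : Subgroup (Fin n → C))
    (hK : ∀ d : Fin n → C, d ∈ K ↔ ∃ s : Fin n → C, ∀ i, d i = ∏ j, s j ^ A j i) :
    K.index = Nat.gcd m (Nat.card C) := by
  classical
  let Ψ : (Fin n → C) →* C :=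
    { toFun := fun d => ∏ i, d i ^ w i
      map_one' := by simp
      map_mul' := by
        intro a b
        simp [mul_zpow, Finset.prod_mul_distrib] }
  have hΨ : ∀ d, Ψ d = ∏ i, d i ^ w i := fun d => rfl
  have hsurj : Function.Surjective Ψ := by
    intro t
    refine ⟨fun i => t ^ v i, ?_⟩
    rw [hΨ]
    have : ∀ i, (t ^ v i) ^ w i = t ^ (w i * v i) := fun i => by rw [← zpow_mul, mul_comm]
    simp only [this]
    rw [← zpow_finset_sum, h4, zpow_one]
  have hK' : K = (powMonoidHom m : C →* C).range.comap Ψ := by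
    ext d
    rw [hK, Subgroup.mem_comap, MonoidHom.mem_range]
    constructor
    · rintro ⟨s, hs⟩
      refine ⟨∏ j, s j ^ u j, ?_⟩
      rw [powMonoidHom_apply, hΨ]
      have e1 : ∀ i, d i ^ w i = ∏ j, s j ^ (A j i * w i) := by
        intro i
        rw [hs i, ← Finset.prod_zpow]
        exact Finset.prod_congr rfl (fun j _ => (zpow_mul _ _ _).symm)
      simp only [e1]
      rw [Finset.prod_comm]
      have e2 : ∀ j, ∏ i, s j ^ (A j i * w i) = (s j ^ u j) ^ m := by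
        intro j
        rw [← zpow_finset_sum, h1 j, mul_comm, zpow_mul, zpow_natCast]
      simp only [e2]
      rw [Finset.prod_pow]
    · rintro ⟨e, he⟩
      rw [powMonoidHom_apply, hΨ] at he
      refine ⟨fun j => (∏ k, d k ^ B j k) * e ^ z j, fun i => ?_⟩
      have e1 : ∀ j, ((∏ k, d k ^ B j k) * e ^ z j) ^ A j i =
          (∏ k, d k ^ (A j i * B j k)) * e ^ (A j i * z j) := by
        intro j
        rw [mul_zpow, ← Finset.prod_zpow, ← zpow_mul, mul_comm (z j)]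
        congr 1
        exact Finset.prod_congr rfl (fun k _ => by rw [← zpow_mul, mul_comm])
      simp only [e1]
      rw [Finset.prod_mul_distrib, Finset.prod_comm, ← zpow_finset_sum, h3 i]
      have e2 : ∀ k, ∏ j, d k ^ (A j i * B j k) =
          (if i = k then d k else 1) * (d k ^ w k) ^ (-v i) := by
        intro k
        rw [← zpow_finset_sum, h2 i k, sub_eq_add_neg, zpow_add, ← zpow_mul]
        congr 1
        · split_ifs <;> simp
        · congr 1
          ring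
      simp only [e2]
      rw [Finset.prod_mul_distrib, Finset.prod_ite_eq, if_pos (Finset.mem_univ i),
        Finset.prod_zpow, ← he, mul_assoc]
      have e3 : (e ^ m) ^ (-v i) * e ^ ((m : ℤ) * v i) = 1 := by
        rw [← zpow_natCast e m, ← zpow_mul, ← zpow_add]
        have : (m : ℤ) * -v i + (m : ℤ) * v i = 0 := by ring
        rw [this, zpow_zero]
      rw [e3, mul_one]
  rw [hK', Subgroup.index_comap_of_surjective _ hsurj, IsCyclic.index_powMonoidHom_range,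
    Nat.gcd_comm]

/-- the certificate vectors for `E6` -/
def wE6 : Fin 6 → ℤ := ![1, 0, 2, 0, 1, 2]
/-- the certificate vectors for `E6` -/
def uE6 : Fin 6 → ℤ := ![0, 0, 1, -1, 0, 1]
/-- the certificate vectors for `E6` -/
def vE6 : Fin 6 → ℤ := ![-1, 0, 0, 0, 0, 1]
/-- the certificate vectors for `E6` -/
def zE6 : Fin 6 → ℤ := ![-2, 0, -1, 0, 1, 2]
/-- the certificate matrix for `E6` -/
def BE6 : Fin 6 → Fin 6 → ℤ := !![2, 1, 3, 2, 2, 2; 1, 2, 2, 3, 2, 1; 2, 2, 4, 4, 3, 2; 2, 3, 4, 6, 4, 2; 1, 2, 2, 4, 3, 1; 0, 1, 0, 2, 1, 0]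

theorem cert1_E6 : ∀ j : Fin 6, ∑ i : Fin 6, chevE6.cartan j (chevE6.simple i) * wE6 i =
    ((3 : ℕ) : ℤ) * uE6 j := by decide +kernel
theorem cert2_E6 : ∀ i k : Fin 6, ∑ j : Fin 6, chevE6.cartan j (chevE6.simple i) * BE6 j k =
    (if i = k then 1 else 0) - vE6 i * wE6 k := by decide +kernel
theorem cert3_E6 : ∀ i : Fin 6, ∑ j : Fin 6, chevE6.cartan j (chevE6.simple i) * zE6 j =
    ((3 : ℕ) : ℤ) * vE6 i := by decide +kernel
theorem cert4_E6 : ∑ i : Fin 6, wE6 i * vE6 i = 1 := by decide +kernel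

/-- the certificate vectors for `E7` -/
def wE7 : Fin 7 → ℤ := ![0, 1, 0, 0, 1, 0, 1]
/-- the certificate vectors for `E7` -/
def uE7 : Fin 7 → ℤ := ![0, 1, 0, -1, 1, -1, 1]
/-- the certificate vectors for `E7` -/
def vE7 : Fin 7 → ℤ := ![-1, 0, 0, 0, 0, 0, 1]
/-- the certificate vectors for `E7` -/
def zE7 : Fin 7 → ℤ := ![-2, -1, -2, -2, -1, 0, 1]
/-- the certificate matrix for `E7` -/
def BE7 : Fin 7 → Fin 7 → ℤ := !![2, 3, 3, 4, 4, 2, 2; 2, 4, 4, 6, 5, 3, 2; 3, 5, 6, 8, 7, 4, 3; 4, 7, 8, 12, 10, 6, 4; 3, 5, 6, 9, 8, 5, 3; 2, 3, 4, 6, 5, 4, 2; 1, 1, 2, 3, 2, 2, 1]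

theorem cert1_E7 : ∀ j : Fin 7, ∑ i : Fin 7, chevE7.cartan j (chevE7.simple i) * wE7 i =
    ((2 : ℕ) : ℤ) * uE7 j := by decide +kernel
theorem cert2_E7 : ∀ i k : Fin 7, ∑ j : Fin 7, chevE7.cartan j (chevE7.simple i) * BE7 j k =
    (if i = k then 1 else 0) - vE7 i * wE7 k := by decide +kernel
theorem cert3_E7 : ∀ i : Fin 7, ∑ j : Fin 7, chevE7.cartan j (chevE7.simple i) * zE7 j =
    ((2 : ℕ) : ℤ) * vE7 i := by decide +kernel
theorem cert4_E7 : ∑ i : Fin 7, wE7 i * vE7 i = 1 := by decide +kernel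

/-- the certificate vectors for `E8` -/
def wE8 : Fin 8 → ℤ := ![1, 0, 0, 0, 0, 0, 0, 0]
/-- the certificate vectors for `E8` -/
def uE8 : Fin 8 → ℤ := ![2, 0, -1, 0, 0, 0, 0, 0]
/-- the certificate vectors for `E8` -/
def vE8 : Fin 8 → ℤ := ![1, -1, 0, 0, 0, 0, 0, 0]
/-- the certificate vectors for `E8` -/
def zE8 : Fin 8 → ℤ := ![-1, -3, -3, -5, -4, -3, -2, -1]
/-- the certificate matrix for `E8` -/
def BE8 : Fin 8 → Fin 8 → ℤ := !![5, 5, 7, 10, 8, 6, 4, 2; 8, 8, 10, 15, 12, 9, 6, 3; 10, 10, 14, 20, 16, 12, 8, 4; 15, 15, 20, 30, 24, 18, 12, 6; 12, 12, 16, 24, 20, 15, 10, 5; 9, 9, 12, 18, 15, 12, 8, 4; 6, 6, 8, 12, 10, 8, 6, 3; 3, 3, 4, 6, 5, 4, 3, 2]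

theorem cert1_E8 : ∀ j : Fin 8, ∑ i : Fin 8, chevE8.cartan j (chevE8.simple i) * wE8 i =
    ((1 : ℕ) : ℤ) * uE8 j := by decide +kernel
theorem cert2_E8 : ∀ i k : Fin 8, ∑ j : Fin 8, chevE8.cartan j (chevE8.simple i) * BE8 j k =
    (if i = k then 1 else 0) - vE8 i * wE8 k := by decide +kernel
theorem cert3_E8 : ∀ i : Fin 8, ∑ j : Fin 8, chevE8.cartan j (chevE8.simple i) * zE8 j =
    ((1 : ℕ) : ℤ) * vE8 i := by decide +kernel
theorem cert4_E8 : ∑ i : Fin 8, wE8 i * vE8 i = 1 := by decide +kernel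

/-- PM (Mathlib + Prelude only): the cokernel of the Cartan matrix of `E₆`, `E₇`, `E₈` on a
finite cyclic group -/
theorem pieceM {C : Type*} [CommGroup C] [Finite C] [IsCyclic C] (D : ChevalleyDatum) (m : ℕ)
    (hDm : (D, m) ∈ [(chevE6, 3), (chevE7, 2), (chevE8, 1)]) (K : Subgroup (Fin D.rank → C))
    (hK : ∀ d : Fin D.rank → C, d ∈ K ↔
      ∃ s : Fin D.rank → C, ∀ i : Fin D.rank, d i = ∏ j : Fin D.rank, s j ^ D.cartan j (D.simple i)) :
    K.index = Nat.gcd m (Nat.card C) := by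
  simp only [List.mem_cons, Prod.mk.injEq, List.not_mem_nil, or_false] at hDm
  rcases hDm with ⟨rfl, rfl⟩ | ⟨rfl, rfl⟩ | ⟨rfl, rfl⟩
  · exact index_of_cert 6 (fun j i => chevE6.cartan j (chevE6.simple i)) 3 wE6 uE6 vE6 zE6 BE6
      cert1_E6 cert2_E6 cert3_E6 cert4_E6 K hK
  · exact index_of_cert 7 (fun j i => chevE7.cartan j (chevE7.simple i)) 2 wE7 uE7 vE7 zE7 BE7
      cert1_E7 cert2_E7 cert3_E7 cert4_E7 K hK
  · exact index_of_cert 8 (fun j i => chevE8.cartan j (chevE8.simple i)) 1 wE8 uE8 vE8 zE8 BE8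
      cert1_E8 cert2_E8 cert3_E8 cert4_E8 K hK

end Cfsg.Agent.Lib.Helper74.ChevDynP
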