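import Cfsg.Agent.Lib.Helper27.ChevDyn
import Cfsg.Agent.Lib.Helper24.CommFAll

/-!
# Piece PD of the Chevalley instance of `DynOut.OkD`

Simple root elements `x_i`, `y_j` (`i ≠ j`) commute; `x_i`, `x_j` commute when the nodes are not
joined, and `x_i(1)`, `x_j(1)` do not commute when they are joined.
-/

set_option autoImplicit false

namespace Cfsg.Agent.Lib.Helper74.ChevDynP

open Cfsg.Lie Matrix Cfsg.Agent.Lib.Helper24 Cfsg.Agent.Lib.Helper27.ChevDyn

variable {F : Type*} [Field F]

/-- the first-term check for a bonded pair of roots -/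
def ncChk (D : ChevalleyDatum) (r s : ℕ) : Bool :=
  match cent D r s with
  | [] => false
  | e :: tl => decide (e.1 < D.nroots) && decide (e.1 ≠ D.neg s) && decide (e.1 ≠ s) &&
      decide (e.1 ≠ r) && (decide (e.2.2 = 1) || decide (e.2.2 = -1)) &&
      tl.all (fun e' => decide (e'.1 ≠ e.1))

/-- the table facts about pairs of distinct simple roots -/
def pdChk (D : ChevalleyDatum) : Bool :=
  (List.range D.rank).all fun i => (List.range D.rank).all fun j =>
    decide (i = j) ||
      (decide (D.simple i < D.nroots) && decide (D.neg (D.simple j) < D.nroots) &&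
       decide (D.neg (D.simple j) ≠ D.simple i) &&
       decide (D.neg (D.simple j) ≠ D.neg (D.simple i)) &&
       decide (D.simple j ≠ D.simple i) && decide (D.simple j ≠ D.neg (D.simple i)) &&
       decide (D.neg (D.simple j) ≠ D.simple j) &&
       (D.commTerms (D.simple i) (D.neg (D.simple j))).isEmpty &&
       (cent D (D.simple i) (D.neg (D.simple j))).isEmpty &&
       (if (D.bonds i j).toNat = 0 then (D.commTerms (D.simple i) (D.simple j)).isEmpty
        else ncChk D (D.simple i) (D.simple j)))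

theorem pdChk_G2 : pdChk chevG2 = true := by decide +kernel
theorem pdChk_B2 : pdChk chevB2 = true := by decide +kernel
theorem pdChk_D4 : pdChk chevD4 = true := by decide +kernel
theorem pdChk_F4 : pdChk chevF4 = true := by decide +kernel
theorem pdChk_E6 : pdChk chevE6 = true := by decide +kernel
theorem pdChk_E7 : pdChk chevE7 = true := by decide +kernel
theorem pdChk_E8 : pdChk chevE8 = true := by decide +kernel

theorem pdChk_spec (D : ChevalleyDatum) (h : pdChk D = true) (i j : ℕ) (hi : i < D.rank)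
    (hj : j < D.rank) (hij : i ≠ j) :
    D.simple i < D.nroots ∧ D.neg (D.simple j) < D.nroots ∧
    D.neg (D.simple j) ≠ D.simple i ∧ D.neg (D.simple j) ≠ D.neg (D.simple i) ∧
    D.simple j ≠ D.simple i ∧ D.simple j ≠ D.neg (D.simple i) ∧
    D.neg (D.simple j) ≠ D.simple j ∧
    D.commTerms (D.simple i) (D.neg (D.simple j)) = [] ∧
    cent D (D.simple i) (D.neg (D.simple j)) = [] ∧
    ((D.bonds i j).toNat = 0 → D.commTerms (D.simple i) (D.simple j) = []) ∧
    ((D.bonds i j).toNat ≠ 0 → ncChk D (D.simple i) (D.simple j) = true) := by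
  unfold pdChk at h
  simp only [List.all_eq_true, List.mem_range, Bool.or_eq_true, Bool.and_eq_true,
    decide_eq_true_eq, List.isEmpty_iff] at h
  rcases h i hi j hj with h | h
  · exact absurd h hij
  · obtain ⟨⟨⟨⟨⟨⟨⟨⟨⟨h1, h2⟩, h3⟩, h4⟩, h5⟩, h6⟩, h7⟩, h8⟩, h9⟩, h10⟩ := h
    refine ⟨h1, h2, h3, h4, h5, h6, h7, h8, h9, ?_, ?_⟩
    · intro hb
      rw [if_pos hb] at h10
      simpa using h10
    · intro hb
      rw [if_neg hb] at h10
      exact h10

/-- a vector supported on the `h`-coordinates is sent by `x_r` to a vector vanishing at every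
root coordinate other than `r` -/
theorem x_mulVec_hsum_apply (D : ChevalleyDatum) (r : ℕ) (hr : r < D.nroots) (t : F) (c : ℕ → F)
    (w : Fin D.nroots) (hw : w.val ≠ r) (l : List ℕ) (hl : ∀ i ∈ l, i < D.rank) :
    (D.x F r t *ᵥ (l.map fun i => c i • hv F D i).sum) (Sum.inr w) = 0 := by
  induction l with
  | nil => simp
  | cons i l ih =>
    rw [List.map_cons, List.sum_cons, Matrix.mulVec_add, Pi.add_apply,
      ih (fun k hk => hl k (List.mem_cons_of_mem _ hk)), Matrix.mulVec_smul,
      x_mulVec_hv D r hr t i (hl i List.mem_cons_self)]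
    simp [hv, rv, hw]

/-- two root elements whose roots add up to a root (first chain term with coefficient `± 1`)
do not commute -/
theorem x_not_comm (D : ChevalleyDatum) (r s : ℕ) (hr : r < D.nroots) (hs : s < D.nroots)
    (hn : D.neg s < D.nroots) (hne : D.neg s ≠ s) (h1 : D.neg s ≠ r) (h2 : D.neg s ≠ D.neg r)
    (h3 : s ≠ r) (h4 : s ≠ D.neg r) (hc : cent D r (D.neg s) = [])
    (hnc : ncChk D r s = true) :
    D.x F r 1 * D.x F s 1 ≠ D.x F s 1 * D.x F r 1 := by
  intro h
  unfold ncChk at hnc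
  rcases hcs : cent D r s with _ | ⟨e, tl⟩
  · rw [hcs] at hnc
    exact absurd hnc (by simp)
  rw [hcs] at hnc
  simp only [Bool.and_eq_true, decide_eq_true_eq, Bool.or_eq_true, List.all_eq_true] at hnc
  obtain ⟨⟨⟨⟨⟨hw, hwn⟩, hws⟩, hwr⟩, hm⟩, htl⟩ := hnc
  have key := congrFun (congrArg (fun M => M *ᵥ rv F D (D.neg s)) h) (Sum.inr ⟨e.1, hw⟩)
  beta_reduce at key
  rw [← Matrix.mulVec_mulVec, ← Matrix.mulVec_mulVec] at key
  have e1 : D.x F r 1 *ᵥ rv F D (D.neg s) = rv F D (D.neg s) := by
    rw [x_mulVec_rv D r hr 1 (D.neg s) hn h1 h2, hc]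
    simp
  have e2 := x_mulVec_rv_neg D s hs (1 : F) hn hne
  rw [e1, e2, Matrix.mulVec_sub, Matrix.mulVec_add, e1, Matrix.mulVec_smul,
    x_mulVec_rv D r hr 1 s hs h3 h4, hcs] at key
  have e3 := x_mulVec_hsum_apply (F := F) D r hr 1 (fun i => ((corootC D s i : ℤ) : F) * 1)
    ⟨e.1, hw⟩ hwr (List.range D.rank) (fun i hi => List.mem_range.1 hi)
  have e4 := sum_range_hv (F := F) D (fun i => ((corootC D s i : ℤ) : F) * 1) D.rank
    (Sum.inr ⟨e.1, hw⟩)
  have e5 := sum_rv_apply (F := F) D (e :: tl) 1 ⟨e.1, hw⟩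
  have e6 : ((tl.map fun e' : ℕ × ℕ × ℤ =>
      (((e'.2.2 : ℤ) : F) * 1 ^ e'.2.1) * (if e.1 = e'.1 then 1 else 0)).sum) = 0 := by
    apply List.sum_eq_zero
    intro x hx
    rw [List.mem_map] at hx
    obtain ⟨e', he', rfl⟩ := hx
    have := htl e' he'
    rw [if_neg (fun hh => this hh.symm), mul_zero]
  simp only [Pi.sub_apply, Pi.add_apply, Pi.smul_apply, smul_eq_mul] at key
  rw [e3, e4, e5] at key
  simp only [List.map_cons, List.sum_cons, e6, rv, hwn, hws, if_false, if_true] at key
  rcases hm with hm | hm <;> rw [hm] at key <;> simp at key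

theorem pdChk_of_mem (D : ChevalleyDatum) (hD : D ∈ chevList) : pdChk D = true := by
  simp only [chevList, List.mem_cons, List.not_mem_nil, or_false] at hD
  rcases hD with rfl | rfl | rfl | rfl | rfl | rfl | rfl
  · exact pdChk_G2
  · exact pdChk_B2
  · exact pdChk_D4
  · exact pdChk_F4
  · exact pdChk_E6
  · exact pdChk_E7
  · exact pdChk_E8

/-- the matrix of the chosen root element (the `dif_pos` branch of `xg`) -/
theorem xg_val_pd (D : ChevalleyDatum) (hD : D ∈ chevList) (r : ℕ) (a : F) :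
    ((xg D r a : GL D.Idx F) : Matrix D.Idx D.Idx F) = D.x F r a := by
  have h : ∃ g : ↥(D.group F), ((g : GL D.Idx F) : Matrix D.Idx D.Idx F) = D.x F r a :=
    ⟨⟨xGL D hD r a, xGL_mem_group D hD r a⟩, rfl⟩
  unfold xg
  rw [dif_pos h]
  exact h.choose_spec

/-- two root elements commute when the commutator formula has no terms -/
theorem x_comm_of_nil (D : ChevalleyDatum) (hD : D ∈ chevList) (r s : ℕ) (hr : r < D.nroots)
    (hs : s < D.nroots) (hrs : s ≠ r) (hneg : s ≠ D.neg r) (h : D.commTerms r s = [])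
    (t u : F) : D.x F r t * D.x F s u = D.x F s u * D.x F r t := by
  have hc := comm_formula (F := F) D hD r s hr hs hrs hneg t u
  have hw : D.commWord F r s t u = [] := by
    unfold ChevalleyDatum.commWord
    rw [h]
    rfl
  rw [hw, wordMat_nil, mul_one] at hc
  exact hc.symm

/-- equality of two elements of the group from equality of matrices -/
theorem eq_of_val_pd (D : ChevalleyDatum) (g g' : ↥(D.group F))
    (h : ((g : GL D.Idx F) : Matrix D.Idx D.Idx F) = ((g' : GL D.Idx F) : Matrix D.Idx D.Idx F)) :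
    g = g' := Subtype.ext (Units.ext h)

/-- PD -/
theorem pieceD (D : ChevalleyDatum) (hD : D ∈ lst) :
    (∀ (i j : Fin D.rank) (a b : F), i ≠ j → xs D i a * ys D j b = ys D j b * xs D i a) ∧
    (∀ (i j : Fin D.rank) (a b : F), i ≠ j → bondD D i j = 0 → xs D i a * xs D j b = xs D j b * xs D i a) ∧
    (∀ i j : Fin D.rank, i ≠ j → bondD D i j ≠ 0 →
      xs D i (1 : F) * xs D j 1 ≠ xs D j 1 * xs D i 1) := by
  have hD' : D ∈ chevList := hD
  have hchk := pdChk_of_mem D hD'
  refine ⟨?_, ?_, ?_⟩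
  · intro i j a b hij
    have hij' : i.val ≠ j.val := fun h => hij (Fin.ext h)
    obtain ⟨h1, h2, h3, h4, h5, h6, h7, h8, h9, h10, h11⟩ :=
      pdChk_spec D hchk i.val j.val i.isLt j.isLt hij'
    apply eq_of_val_pd
    rw [Subgroup.coe_mul, Units.val_mul, Subgroup.coe_mul, Units.val_mul]
    unfold xs ys
    rw [xg_val_pd D hD', xg_val_pd D hD']
    exact x_comm_of_nil D hD' _ _ h1 h2 h3 h4 h8 a b
  · intro i j a b hij hb
    have hij' : i.val ≠ j.val := fun h => hij (Fin.ext h)
    obtain ⟨h1, h2, h3, h4, h5, h6, h7, h8, h9, h10, h11⟩ :=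
      pdChk_spec D hchk i.val j.val i.isLt j.isLt hij'
    obtain ⟨k1, -⟩ := pdChk_spec D hchk j.val i.val j.isLt i.isLt (Ne.symm hij')
    have hb' : (D.bonds i.val j.val).toNat = 0 := by
      unfold bondD at hb
      rwa [if_neg hij] at hb
    apply eq_of_val_pd
    rw [Subgroup.coe_mul, Units.val_mul, Subgroup.coe_mul, Units.val_mul]
    unfold xs
    rw [xg_val_pd D hD', xg_val_pd D hD']
    exact x_comm_of_nil D hD' _ _ h1 k1 h5 h6 (h10 hb') a b
  · intro i j hij hb heq
    have hij' : i.val ≠ j.val := fun h => hij (Fin.ext h)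
    obtain ⟨h1, h2, h3, h4, h5, h6, h7, h8, h9, h10, h11⟩ :=
      pdChk_spec D hchk i.val j.val i.isLt j.isLt hij'
    obtain ⟨k1, -⟩ := pdChk_spec D hchk j.val i.val j.isLt i.isLt (Ne.symm hij')
    have hb' : (D.bonds i.val j.val).toNat ≠ 0 := by
      unfold bondD at hb
      rwa [if_neg hij] at hb
    have hm := congrArg (fun g : ↥(D.group F) => ((g : GL D.Idx F) : Matrix D.Idx D.Idx F)) heq
    beta_reduce at hm
    rw [Subgroup.coe_mul, Units.val_mul, Subgroup.coe_mul, Units.val_mul] at hm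
    unfold xs at hm
    rw [xg_val_pd D hD', xg_val_pd D hD'] at hm
    exact x_not_comm D _ _ h1 k1 h2 h7 h3 h4 h5 h6 h9 (h11 hb') hm

end Cfsg.Agent.Lib.Helper74.ChevDynP
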