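import Mathlib
import Cfsg.Prelude.Def_GeometricClasses
import Cfsg.Prelude.Def_LieClassical
import Cfsg.Agent.Lib.Helper71.Asch5
import Cfsg.Agent.Lib.Helper44.BADDefs

/-! Project BAD (helper44; sub-project of SUG = S5663), piece `SSPAN` (helper74, insurance copy):
`bS` spans the 3 x 3 matrices over the field with 4 elements.
`- E_mm * Y^k = ∑ d : Fˣ, d^(3-m) • (diag(1, d, d²) * Y^k)` (`FiniteField.sum_pow_units`), and every
matrix unit is some `E_mm * Y^k`. -/

set_option autoImplicit false
set_option linter.unusedSimpArgs false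

namespace Cfsg.Agent.Lib.Helper44.BAD

open Matrix Cfsg.Geo Cfsg.Agent.Lib.Helper71.Asch
open scoped Kronecker

variable {n : ℕ} {F : Type*} [Field F] [Fintype F] {q : ℕ}

omit [Fintype F] in
theorem SSPAN_single (a b : Fin 3) : ∃ k : ℕ,
    Matrix.single a b (1 : F) = Matrix.diagonal (Pi.single a (1 : F)) * bY F ^ k := by
  fin_cases a <;> fin_cases b
  · exact ⟨0, by
      ext i j
      fin_cases i <;> fin_cases j <;>
        simp [bY, pow_succ, Matrix.mul_apply, Fin.sum_univ_three, Matrix.single_apply,
          Matrix.diagonal_apply, Pi.single_apply]⟩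
  · exact ⟨2, by
      ext i j
      fin_cases i <;> fin_cases j <;>
        simp [bY, pow_succ, Matrix.mul_apply, Fin.sum_univ_three, Matrix.single_apply,
          Matrix.diagonal_apply, Pi.single_apply]⟩
  · exact ⟨1, by
      ext i j
      fin_cases i <;> fin_cases j <;>
        simp [bY, pow_succ, Matrix.mul_apply, Fin.sum_univ_three, Matrix.single_apply,
          Matrix.diagonal_apply, Pi.single_apply]⟩
  · exact ⟨1, by
      ext i j
      fin_cases i <;> fin_cases j <;>
        simp [bY, pow_succ, Matrix.mul_apply, Fin.sum_univ_three, Matrix.single_apply,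
          Matrix.diagonal_apply, Pi.single_apply]⟩
  · exact ⟨0, by
      ext i j
      fin_cases i <;> fin_cases j <;>
        simp [bY, pow_succ, Matrix.mul_apply, Fin.sum_univ_three, Matrix.single_apply,
          Matrix.diagonal_apply, Pi.single_apply]⟩
  · exact ⟨2, by
      ext i j
      fin_cases i <;> fin_cases j <;>
        simp [bY, pow_succ, Matrix.mul_apply, Fin.sum_univ_three, Matrix.single_apply,
          Matrix.diagonal_apply, Pi.single_apply]⟩
  · exact ⟨2, by
      ext i j
      fin_cases i <;> fin_cases j <;>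
        simp [bY, pow_succ, Matrix.mul_apply, Fin.sum_univ_three, Matrix.single_apply,
          Matrix.diagonal_apply, Pi.single_apply]⟩
  · exact ⟨1, by
      ext i j
      fin_cases i <;> fin_cases j <;>
        simp [bY, pow_succ, Matrix.mul_apply, Fin.sum_univ_three, Matrix.single_apply,
          Matrix.diagonal_apply, Pi.single_apply]⟩
  · exact ⟨0, by
      ext i j
      fin_cases i <;> fin_cases j <;>
        simp [bY, pow_succ, Matrix.mul_apply, Fin.sum_univ_three, Matrix.single_apply,
          Matrix.diagonal_apply, Pi.single_apply]⟩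

theorem SSPAN_diag (hF : Fintype.card F = 4) (m : Fin 3) (k : ℕ) :
    Matrix.diagonal (Pi.single m (1 : F)) * bY F ^ k ∈ Submodule.span F (bS F) := by
  classical
  have hsum : ∑ d : Fˣ, ((d : F) ^ (3 - m.val)) •
      (Matrix.diagonal ![1, (d : F), (d : F) ^ 2] * bY F ^ k) =
      -(Matrix.diagonal (Pi.single m (1 : F)) * bY F ^ k) := by
    have h1 : ∀ d : Fˣ, ((d : F) ^ (3 - m.val)) •
        (Matrix.diagonal ![1, (d : F), (d : F) ^ 2] * bY F ^ k) =
        (Matrix.diagonal (fun r : Fin 3 => (d : F) ^ (3 - m.val + r.val))) * bY F ^ k := by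
      intro d
      rw [← Matrix.smul_mul]
      congr 1
      ext i j
      fin_cases i <;> fin_cases j <;> simp [Matrix.diagonal_apply, pow_add, pow_succ]
    simp_rw [h1]
    rw [← Finset.sum_mul, ← Matrix.neg_mul]
    congr 1
    ext i j
    rw [Matrix.sum_apply, Matrix.neg_apply]
    by_cases hij : i = j
    · subst hij
      simp only [Matrix.diagonal_apply_eq]
      rw [FiniteField.sum_pow_units, hF]
      fin_cases m <;> fin_cases i <;> simp
    · simp [Matrix.diagonal_apply_ne _ hij]
  have hmem : ∑ d : Fˣ, ((d : F) ^ (3 - m.val)) •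
      (Matrix.diagonal ![1, (d : F), (d : F) ^ 2] * bY F ^ k) ∈ Submodule.span F (bS F) := by
    apply Submodule.sum_mem
    intro d _
    apply Submodule.subset_span
    exact ⟨(d : F) ^ (3 - m.val), (d : F), k, pow_ne_zero _ d.ne_zero, d.ne_zero, rfl⟩
  rw [hsum] at hmem
  exact (Submodule.neg_mem_iff _).mp hmem

/-- SSPAN: `bS` spans the matrix algebra. -/
theorem SSPAN (hF : Fintype.card F = 4) : Submodule.span F (bS F) = ⊤ := by
  rw [eq_top_iff]
  intro M _
  rw [Matrix.matrix_eq_sum_single M]
  apply Submodule.sum_mem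
  intro a _
  apply Submodule.sum_mem
  intro b _
  obtain ⟨k, hk⟩ := SSPAN_single (F := F) a b
  have e : Matrix.single a b (M a b) = M a b • Matrix.single a b (1 : F) := by
    rw [Matrix.smul_single, smul_eq_mul, mul_one]
  rw [e, hk]
  exact Submodule.smul_mem _ _ (SSPAN_diag hF a k)

end Cfsg.Agent.Lib.Helper44.BAD
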