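import Cfsg.Agent.Lib.Helper50.QpFinal
import Cfsg.Agent.Lib.Helper50.QsBase
import Cfsg.Agent.Lib.Helper74.QsLowAux

set_option autoImplicit false

namespace Cfsg.Agent.Lib.Helper74.QuSl2Aux

open Polynomial Cfsg Cfsg.Agent.Lib.Helper50.QR Cfsg.Agent.Lib.Helper50.QP Cfsg.Agent.Lib.Helper50
open Cfsg.Agent.Lib.Helper50.QP.Final

universe u v w

variable {k : Type u} [Field k] {M : Type v} [AddCommGroup M] [Module k M]

section Abs

variable {K : Type w} [Field K] [Algebra k K]

/-- the nilpotent part of `ψ (uK t)` -/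
noncomputable def Xu (A : Module.End k M) (act : K →ₐ[k] Module.End k (LinearMap.range A))
    (t : K) : Module.End k M :=
  (LinearMap.range A).subtype ∘ₗ act t ∘ₗ Qm A

/-- the nilpotent part of `ψ (lK t)` -/
noncomputable def Yl (A B : Module.End k M) (lam : K)
    (act : K →ₐ[k] Module.End k (LinearMap.range A)) (t : K) : Module.End k M :=
  B ∘ₗ (LinearMap.range A).subtype ∘ₗ act lam⁻¹ ∘ₗ act t ∘ₗ Pj A B lam act

variable {A B : Module.End k M} {lam : K} {act : K →ₐ[k] Module.End k (LinearMap.range A)}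

theorem Xu_apply (t : K) (m : M) :
    Xu A act t m = ((act t (Qm A m) : LinearMap.range A) : M) := rfl

theorem Yl_apply (t : K) (m : M) :
    Yl A B lam act t m =
      B ((act lam⁻¹ (act t (Pj A B lam act m)) : LinearMap.range A) : M) := rfl

theorem psiSL_uK_gen (H : Hyp A B lam act) (t : K) :
    ((psiSL H (AG.uK t) : LinearMap.GeneralLinearGroup k M) : Module.End k M) =
      1 + Xu A act t := by
  apply LinearMap.ext
  intro m
  rw [psiSL_val, psiM_apply, AG.uK00, AG.uK01, AG.uK10, AG.uK11, Psi_apply, Psi_apply]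
  simp only [map_zero, LinearMap.zero_apply, add_zero, zero_add, map_one, Module.End.one_apply,
    Submodule.coe_add, LinearMap.add_apply, Xu_apply]
  abel

theorem psiSL_lK_gen (H : Hyp A B lam act) (t : K) :
    ((psiSL H (AG.lK t) : LinearMap.GeneralLinearGroup k M) : Module.End k M) =
      1 + Yl A B lam act t := by
  apply LinearMap.ext
  intro m
  rw [psiSL_val, psiM_apply, AG.lK00, AG.lK01, AG.lK10, AG.lK11, Psi_apply, Psi_apply]
  simp only [map_zero, LinearMap.zero_apply, add_zero, zero_add, map_one, Module.End.one_apply,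
    map_add, Submodule.coe_add, LinearMap.add_apply, Yl_apply]
  abel

theorem nl_uK (H : Hyp A B lam act) (t : K) : nl (psiSL H (AG.uK t)) = Xu A act t := by
  rw [nl_def, psiSL_uK_gen H t]
  abel

theorem nl_lK (H : Hyp A B lam act) (t : K) : nl (psiSL H (AG.lK t)) = Yl A B lam act t := by
  rw [nl_def, psiSL_lK_gen H t]
  abel

theorem inN_Xu (t : K) : InN (LinearMap.ker A) (LinearMap.range A) (Xu A act t) := by
  constructor
  · rintro _ ⟨m, rfl⟩
    rw [Xu_apply]
    exact Submodule.coe_mem _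
  · intro m hm
    rw [LinearMap.mem_ker] at hm ⊢
    have e : Qm A m = 0 := by
      apply Subtype.ext
      exact hm
    rw [Xu_apply, e, map_zero, ZeroMemClass.coe_zero]

theorem inN_Yl (t : K) : InN (LinearMap.ker B) (LinearMap.range B) (Yl A B lam act t) := by
  constructor
  · rintro _ ⟨m, rfl⟩
    rw [Yl_apply]
    exact ⟨_, rfl⟩
  · intro m hm
    rw [LinearMap.mem_ker] at hm ⊢
    have e0 : (A * B).codRestrict (LinearMap.range A) (fun m => ⟨B m, rfl⟩) m = 0 := by
      apply Subtype.ext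
      show A (B m) = 0
      rw [hm, map_zero]
    have e : Pj A B lam act m = 0 := by
      show act lam⁻¹ ((A * B).codRestrict (LinearMap.range A) (fun m => ⟨B m, rfl⟩) m) = 0
      rw [e0, map_zero]
    rw [Yl_apply, e, map_zero, map_zero, ZeroMemClass.coe_zero, map_zero]

theorem Xu_smul (c : k) (t : K) : Xu A act (algebraMap k K c * t) = c • Xu A act t := by
  apply LinearMap.ext
  intro m
  rw [LinearMap.smul_apply, Xu_apply, Xu_apply, map_mul, Module.End.mul_apply, act_alg,
    Submodule.coe_smul]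

theorem Yl_smul (c : k) (t : K) :
    Yl A B lam act (algebraMap k K c * t) = c • Yl A B lam act t := by
  apply LinearMap.ext
  intro m
  rw [LinearMap.smul_apply, Yl_apply, Yl_apply, map_mul, Module.End.mul_apply, act_alg,
    map_smul, Submodule.coe_smul, map_smul]

end Abs

variable [FiniteDimensional k M]

/-- U-PSL (S5062): the exact statement of `QU.exists_sl2` -/
theorem exists_sl2_aux (hk2 : ringChar k ≠ 2) (hk3 : Nat.card k ≠ 3) {A B : Module.End k M}
    (hA : A * A = 0) (hB : B * B = 0) (hA0 : A ≠ 0)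
    (h1 : ∀ m, A (B (A m)) = 0 → A m = 0) (h2 : ∀ m, B (A (B m)) = 0 → B m = 0)
    (h3 : ∀ g : k[X], (∀ m, aeval (A * B) g (A m) = 0) ∨
      (∀ m, aeval (A * B) g (A m) = 0 → A m = 0)) :
    ∃ (K : Type v) (_ : Field K) (_ : Algebra k K)
      (φ : Matrix.SpecialLinearGroup (Fin 2) K →* LinearMap.GeneralLinearGroup k M),
      Function.Injective φ ∧ φ.range = genH A B ∧
      (∀ t : K, InN (LinearMap.ker A) (LinearMap.range A) (nl (φ (AG.uK t)))) ∧
      (∀ t : K, InN (LinearMap.ker B) (LinearMap.range B) (nl (φ (AG.lK t)))) ∧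
      (∀ (c : k) (t : K), nl (φ (AG.uK (algebraMap k K c * t))) = c • nl (φ (AG.uK t))) ∧
      (∀ (c : k) (t : K), nl (φ (AG.lK (algebraMap k K c * t))) = c • nl (φ (AG.lK t))) := by
  obtain ⟨K, fK, aK, lam, act, H, halg, htop⟩ :=
    Cfsg.Agent.Lib.Helper74.QsLowAux.exists_hyp hA hB hA0 h1 h2 h3
  refine ⟨K, fK, aK, psiSL H, psiSL_injective H, psiSL_range H hk2 hk3 halg htop, ?_, ?_, ?_, ?_⟩
  · intro t
    rw [nl_uK H t]
    exact inN_Xu t
  · intro t
    rw [nl_lK H t]
    exact inN_Yl t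
  · intro c t
    rw [nl_uK H, nl_uK H, Xu_smul]
  · intro c t
    rw [nl_lK H, nl_lK H, Yl_smul]

end Cfsg.Agent.Lib.Helper74.QuSl2Aux
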