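import Mathlib
import Cfsg.Agent.Lib.Helper51.GFDefs2
import Cfsg.Agent.Lib.Helper52.LangPlus
import Cfsg.Agent.Lib.Helper53.MFCENTO
import Cfsg.Agent.Lib.Helper53.OddFE
import Cfsg.Agent.Lib.Helper54.OrthInnPlus

/-!
# S2717 piece GF-RAT (poster helper51): rational similarities of sign one with square multiplier
are inner over the big field
-/

set_option autoImplicit false
set_option linter.unusedSectionVars false
set_option linter.unusedVariables false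

namespace Cfsg.Agent.Lib.Helper74.GFRAT

open Module QuadraticMap Matrix
open Cfsg Cfsg.Agent.Lib.Helper51 Cfsg.Agent.Lib.Helper51.GammaO Cfsg.Agent.Lib.Helper52
  Cfsg.Agent.Lib.Helper52.OU Cfsg.Agent.Lib.Helper53.OddF
  Cfsg.Agent.Lib.Helper53.MinusF Cfsg.Agent.Lib.Helper54 Cfsg.Agent.Lib.Helper51.GF
  Cfsg.Agent.Lib.Helper53.MFCENTO

universe u v

theorem rat_inner {F₀ : Type v} [Field F₀] [Fintype F₀] {F : Type u} [Field F] [Fintype F]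
    (h2 : (2 : F) ≠ 0) (e : F₀ →+* F) (k : ℕ) (hk : 3 ≤ k) (a₀ b₀ : F₀)
    (hab₀ : ∀ z₁ z₂ : F₀, z₁ ^ 2 + a₀ * z₁ * z₂ + b₀ * z₂ ^ 2 = 0 → z₁ = 0 ∧ z₂ = 0)
    (hD : e a₀ ^ 2 - 4 * e b₀ ≠ 0)
    (hsq : ∀ c : F₀, IsSquare (e c))
    (g₀ : ↥(Geo.quadSimilarityGroup (F := F₀) ⇑(QMinus k F₀ a₀ b₀)))
    (hg₀ : simSgn (QMinus k F₀ a₀ b₀) (hv_minus a₀ b₀) (k + 1) g₀ = 1)
    (hmul : IsSquare (simMul (QMinus k F₀ a₀ b₀) (hv_minus a₀ b₀) g₀)) :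
    iotaO (QMinus k F (e a₀) (e b₀)) (sm e k a₀ b₀ g₀) ∈
      Inn (POmega F ⇑(QMinus k F (e a₀) (e b₀))) := by
  have h2₀ : (2 : F₀) ≠ 0 := two_ne_zero_down e h2
  have hsep₀ : PolarSep (QMinus k F₀ a₀ b₀) := polarSep_minus h2₀ a₀ b₀ hab₀
  have hsep : PolarSep (QMinus k F (e a₀) (e b₀)) := polarSep_minus' (e a₀) (e b₀) hD
  obtain ⟨c₀, hc₀⟩ := hmul
  -- the isometry `s₀ = c₀⁻¹ g₀`
  obtain ⟨s₀, hs₀⟩ : ∃ s₀ : ↥(Geo.quadSimilarityGroup (F := F₀) ⇑(QMinus k F₀ a₀ b₀)),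
      s₀ = (scalarSim (QMinus k F₀ a₀ b₀) c₀)⁻¹ * g₀ := ⟨_, rfl⟩
  have hsc : simMul (QMinus k F₀ a₀ b₀) (hv_minus a₀ b₀) (scalarSim (QMinus k F₀ a₀ b₀) c₀)
      = c₀ * c₀ :=
    Units.ext (by
      rw [simMul_of_scalar (QMinus k F₀ a₀ b₀) (hv_minus a₀ b₀) _ (c₀ : F₀)
        (coe_scalarSim (QMinus k F₀ a₀ b₀) c₀), Units.val_mul])
  have hmul1 : simMul (QMinus k F₀ a₀ b₀) (hv_minus a₀ b₀) s₀ = 1 := by
    rw [hs₀, map_mul, map_inv, hsc, hc₀, inv_mul_cancel]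
  have hiso : (s₀ : GL ((Fin k ⊕ Fin k) ⊕ Fin 2) F₀) ∈ isometryGroup F₀ ⇑(QMinus k F₀ a₀ b₀) := by
    rw [Cfsg.Agent.Lib.Helper51.mem_isometryGroup_iff]
    intro x
    rw [simMul_spec (QMinus k F₀ a₀ b₀) (hv_minus a₀ b₀) s₀ x, hmul1, Units.val_one, one_mul]
  obtain ⟨t₀, ht₀⟩ : ∃ t₀ : ↥(isometryGroup F₀ ⇑(QMinus k F₀ a₀ b₀)),
      isoSim (QMinus k F₀ a₀ b₀) t₀ = s₀ := ⟨⟨(s₀ : GL ((Fin k ⊕ Fin k) ⊕ Fin 2) F₀), hiso⟩, rfl⟩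
  have hdet₀ : detO (QMinus k F₀ a₀ b₀) t₀ = 1 := by
    have h1 : simSgn (QMinus k F₀ a₀ b₀) (hv_minus a₀ b₀) (k + 1) s₀ = 1 := by
      rw [hs₀, map_mul, map_inv,
        simSgn_of_scalar (QMinus k F₀ a₀ b₀) (hv_minus a₀ b₀) (k + 1) card_minus _ (c₀ : F₀)
          (coe_scalarSim (QMinus k F₀ a₀ b₀) c₀), hg₀, inv_one, one_mul]
    have h3 := simSgn_isoSim (QMinus k F₀ a₀ b₀) (hv_minus a₀ b₀) (k + 1) t₀
    rw [ht₀, h1] at h3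
    exact h3.symm
  -- `t₀` is a product of an even number of reflections
  obtain ⟨vs, hvs, hrefl⟩ :=
    Cfsg.Agent.Lib.Helper54.exists_reflList (QMinus k F₀ a₀ b₀) h2₀ hsep₀ t₀
  have heven : Even vs.length := by
    have hd := detO_reflList (QMinus k F₀ a₀ b₀) vs hvs
    rw [← hrefl, hdet₀] at hd
    by_contra hodd
    rw [(Nat.not_even_iff_odd.1 hodd).neg_one_pow] at hd
    exact neg_one_ne_one_units h2₀ hd.symm
  -- base change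
  have hvs' : ∀ w ∈ vs.map (fun v : (Fin k ⊕ Fin k) ⊕ Fin 2 → F₀ => (fun i => e (v i))),
      QMinus k F (e a₀) (e b₀) w ≠ 0 := by
    intro w hw
    obtain ⟨v, hv, rfl⟩ := List.mem_map.1 hw
    rw [QMinus_map]
    intro h0
    exact hvs v hv (e.injective (by rw [h0, map_zero]))
  have hH : (((reflList (QMinus k F (e a₀) (e b₀)) _ hvs' :
        ↥(isometryGroup F ⇑(QMinus k F (e a₀) (e b₀)))) :
        Matrix.GeneralLinearGroup ((Fin k ⊕ Fin k) ⊕ Fin 2) F) : Matrix ((Fin k ⊕ Fin k) ⊕ Fin 2) ((Fin k ⊕ Fin k) ⊕ Fin 2) F) =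
      (((t₀ : Matrix.GeneralLinearGroup ((Fin k ⊕ Fin k) ⊕ Fin 2) F₀) : Matrix ((Fin k ⊕ Fin k) ⊕ Fin 2) ((Fin k ⊕ Fin k) ⊕ Fin 2) F₀)).map e := by
    rw [coe_reflList, hrefl, coe_reflList,
      refl_prod_mapG e (QMinus k F₀ a₀ b₀) (QMinus k F (e a₀) (e b₀)) (QMinus_map e k a₀ b₀)]
  have hmem : reflList (QMinus k F (e a₀) (e b₀)) _ hvs' ∈
      commutator ↥(isometryGroup F ⇑(QMinus k F (e a₀) (e b₀))) := by
    rw [reflList_mem_commutator_iff (QMinus k F (e a₀) (e b₀)) h2]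
    refine ⟨by rw [List.length_map]; exact heven, ?_⟩
    have h5 : ((vs.map (fun v : (Fin k ⊕ Fin k) ⊕ Fin 2 → F₀ => (fun i => e (v i)))).map
        (fun v => QMinus k F (e a₀) (e b₀) v)).prod
          = e ((vs.map (fun v => QMinus k F₀ a₀ b₀ v)).prod) := by
      rw [List.map_map, map_list_prod, List.map_map]
      congr 1
      apply List.map_congr_left
      intro v _
      exact QMinus_map e k a₀ b₀ v
    rw [h5]
    exact hsq _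
  -- proportionality
  have hec₀ : e (c₀ : F₀) ≠ 0 := by
    intro h0
    exact c₀.ne_zero (e.injective (by rw [h0, map_zero]))
  have hg₀s : ((g₀ : GL ((Fin k ⊕ Fin k) ⊕ Fin 2) F₀) : Matrix ((Fin k ⊕ Fin k) ⊕ Fin 2) ((Fin k ⊕ Fin k) ⊕ Fin 2) F₀) =
      (c₀ : F₀) • ((s₀ : GL ((Fin k ⊕ Fin k) ⊕ Fin 2) F₀) : Matrix ((Fin k ⊕ Fin k) ⊕ Fin 2) ((Fin k ⊕ Fin k) ⊕ Fin 2) F₀) := by
    have e1 : g₀ = scalarSim (QMinus k F₀ a₀ b₀) c₀ * s₀ := by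
      rw [hs₀]
      group
    conv_lhs => rw [e1]
    rw [Subgroup.coe_mul, Units.val_mul, coe_scalarSim, Matrix.smul_mul, Matrix.one_mul]
  have hprop : (((sm e k a₀ b₀ g₀ : ↥(Geo.quadSimilarityGroup (F := F)
        ⇑(QMinus k F (e a₀) (e b₀)))) : Matrix.GeneralLinearGroup ((Fin k ⊕ Fin k) ⊕ Fin 2) F) :
        Matrix ((Fin k ⊕ Fin k) ⊕ Fin 2) ((Fin k ⊕ Fin k) ⊕ Fin 2) F) =
      e (c₀ : F₀) • (((isoSim (QMinus k F (e a₀) (e b₀))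
        (reflList (QMinus k F (e a₀) (e b₀)) _ hvs') :
          ↥(Geo.quadSimilarityGroup (F := F) ⇑(QMinus k F (e a₀) (e b₀)))) :
          Matrix.GeneralLinearGroup ((Fin k ⊕ Fin k) ⊕ Fin 2) F) : Matrix ((Fin k ⊕ Fin k) ⊕ Fin 2) ((Fin k ⊕ Fin k) ⊕ Fin 2) F) := by
    rw [sm_coe, coe_isoSim, hH, hg₀s, ← ht₀, coe_isoSim]
    ext i j
    simp
  have hnd : (polarBilin (QMinus k F (e a₀) (e b₀))).Nondegenerate :=
    nondeg_of_polarSep (QMinus k F (e a₀) (e b₀)) hsep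
  have hn7 : 7 ≤ Fintype.card ((Fin k ⊕ Fin k) ⊕ Fin 2) := by
    rw [card_minus]
    omega
  rw [iotaO_eq_of_smul (QMinus k F (e a₀) (e b₀)) hnd hn7
    (isoSim (QMinus k F (e a₀) (e b₀)) (reflList (QMinus k F (e a₀) (e b₀)) _ hvs'))
    (sm e k a₀ b₀ g₀) (e (c₀ : F₀)) hec₀ hprop, iotaO_eq_simAut, inn_eq]
  refine ⟨isoSim (QMinus k F (e a₀) (e b₀)) (reflList (QMinus k F (e a₀) (e b₀)) _ hvs'), ?_, rfl⟩
  exact (mem_omega_sub_iff (QMinus k F (e a₀) (e b₀)) _).mpr ⟨_, rfl, hmem⟩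

end Cfsg.Agent.Lib.Helper74.GFRAT
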