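import Mathlib
import Cfsg.Prelude.Def_GeometricClasses
import Cfsg.Agent.Lib.Helper97.Transv
import Cfsg.Agent.Lib.Helper97.TransvM
import Cfsg.Agent.Lib.Helper71.TP0
import Cfsg.Agent.Lib.Helper71.TP1

/-!
# S5637 piece KK: `kk x w ≤ a`, and `1 ≤ kk x w` if `x` fixes a non-zero pure tensor `u ⊗ w`
-/

set_option autoImplicit false

namespace Cfsg.Agent.Lib.Helper74.TPKK

open Matrix Cfsg.Agent.Lib.Helper71.TP Cfsg.Agent.Lib.Helper97
open scoped Kronecker

variable {a b : ℕ} {F : Type*} [Field F]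

/-- KK -/
theorem kk_le (x : GL (Fin a × Fin b) F) (w : Fin b → F) : kk x w ≤ a := by
  unfold kk
  have h1 : Module.finrank F ↥(fib (a := a) w ⊓ (fib (a := a) w).map (Matrix.toLin' x.1))
      ≤ Module.finrank F ↥(fib (a := a) w) := Submodule.finrank_mono inf_le_left
  have h2 : Module.finrank F ↥(fib (a := a) w) ≤ Module.finrank F (Fin a → F) := by
    unfold fib
    exact LinearMap.finrank_range_le _
  have h3 : Module.finrank F (Fin a → F) = a := by simp
  omega

/-- KK -/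
theorem kk_pos_of_fix (x : GL (Fin a × Fin b) F) (u : Fin a → F) (w : Fin b → F) (hu : u ≠ 0)
    (hw : w ≠ 0) (h : act x (pt u w) = pt u w) : 1 ≤ kk x w := by
  unfold kk
  have hne : pt u w ≠ 0 := by
    obtain ⟨i, hi⟩ := Function.ne_iff.mp hu
    obtain ⟨j, hj⟩ := Function.ne_iff.mp hw
    intro h0
    have h1 := congrFun h0 (i, j)
    rw [pt_apply] at h1
    exact mul_ne_zero hi hj h1
  have hmem : pt u w ∈ fib (a := a) w ⊓ (fib (a := a) w).map (Matrix.toLin' x.1) :=
    ⟨pt_mem_fib u w, mem_map_fib.mpr ⟨u, h.symm⟩⟩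
  by_contra hlt
  have h0 : Module.finrank F ↥(fib (a := a) w ⊓ (fib (a := a) w).map (Matrix.toLin' x.1)) = 0 := by
    omega
  rw [Submodule.finrank_eq_zero] at h0
  rw [h0, Submodule.mem_bot] at hmem
  exact hne hmem

end Cfsg.Agent.Lib.Helper74.TPKK
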