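import Mathlib
import Cfsg.Agent.Lib.Helper10.BWDefs
import Cfsg.Agent.Lib.Helper74.BTP4
import Cfsg.Agent.Lib.Helper85.BRX8
import Cfsg.Agent.Lib.Helper4.BRX7
import Cfsg.Agent.Lib.Helper83.Ortho

/-!
# S0997 case B2 (project BW), piece BW-TAB (helper74)

The character-table data `VTab` from the block data `DOut` (case `ε = -1`, `p = 2e + 1`).
-/

set_option autoImplicit false

namespace Cfsg.Agent.Lib.Helper10.BW

open Cfsg
open Cfsg.Agent.Lib.Helper83 (trivIrr)
open Cfsg.Agent.Lib.Helper10.BR (psum DOut)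
open scoped ComplexConjugate

universe u

variable {G : Type u} [Group G] [Fintype G]

private theorem tab_order (p : ℕ) (hp : p.Prime) (P : Subgroup G) (hP : Nat.card P = p) (x : G)
    (hx : x ∈ P) (hx1 : x ≠ 1) : orderOf x = p := by
  have hdvd : orderOf x ∣ p := by
    have := Subgroup.orderOf_dvd_natCard P hx
    rwa [hP] at this
  have hne : orderOf x ≠ 1 := by rwa [Ne, orderOf_eq_one_iff]
  rcases (Nat.dvd_prime hp).1 hdvd with h1 | h1
  · exact absurd h1 hne
  · exact h1

private theorem tab_cent (p : ℕ) (hp : p.Prime) (P : Subgroup G) (hP : Nat.card P = p)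
    (hcent : Subgroup.centralizer (P : Set G) = P) (x : G) (hx : x ∈ P) (hx1 : x ≠ 1) :
    Nat.card (Subgroup.centralizer ({x} : Set G)) = p := by
  have hz : Subgroup.zpowers x = P := by
    apply Subgroup.eq_of_le_of_card_ge
    · rw [Subgroup.zpowers_le]
      exact hx
    · rw [hP, Nat.card_zpowers, tab_order p hp P hP x hx hx1]
  have hc : Subgroup.centralizer ({x} : Set G) = Subgroup.centralizer (P : Set G) := by
    ext g
    rw [Subgroup.mem_centralizer_iff, Subgroup.mem_centralizer_iff]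
    constructor
    · intro hg v hv
      rw [SetLike.mem_coe, ← hz] at hv
      obtain ⟨k, rfl⟩ := Subgroup.mem_zpowers_iff.1 hv
      have hcomm : Commute x g := hg x rfl
      exact hcomm.zpow_left k
    · intro hg v hv
      rw [Set.mem_singleton_iff] at hv
      rw [hv]
      exact hg x hx
  rw [hc, hcent, hP]

/-- BW-TAB -/
theorem exists_vtab [IsSimpleGroup G] (hG : ¬ IsCyclic G) (p b e : ℕ) [Fact p.Prime]
    (M : Ideal AlgInt) (hM : IsPModular p M) (P : Sylow p G) (hP : Nat.card P = p)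
    (X Y : Set (IrrCharacter G)) (εX : IrrCharacter G → ℤ)
    (hD : DOut G p M (P : Subgroup G) e X Y εX (-1))
    (he2 : 2 ≤ e) (heven : Even e) (hpe : p = 2 * e + 1)
    (hdegY : ∀ θ ∈ Y, charDegree (θ : G → ℂ) = e + 1)
    (hcard : Nat.card G = p * 2 ^ b * (e + 1))
    (hcent : Subgroup.centralizer ((P : Subgroup G) : Set G) = (P : Subgroup G))
    (hN : Nat.card (Subgroup.normalizer ((P : Subgroup G) : Set G)) = e * p)
    (hinv : ∀ x ∈ (P : Subgroup G), ∃ n ∈ Subgroup.normalizer ((P : Subgroup G) : Set G),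
      n * x * n⁻¹ = x⁻¹) :
    ∃ (θ θ' : IrrCharacter G) (Xp Xm D : Finset (IrrCharacter G)),
      VTab G p e (P : Subgroup G) θ θ' Xp Xm D := by
  classical
  haveI : Finite (IrrCharacter G) := Cfsg.Agent.Lib.Helper82.finite_irrCharacter G
  letI : Fintype (IrrCharacter G) := Fintype.ofFinite _
  have hp : p.Prime := Fact.out
  have hP' : Nat.card (P : Subgroup G) = p := hP
  have hcY : Nat.card Y = 2 := by
    rw [hD.cardY, hpe]
    have h1 : 2 * e + 1 - 1 = 2 * e := by omega
    rw [h1]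
    exact Nat.mul_div_cancel 2 (by omega)
  obtain ⟨⟨θ, hθ⟩, ⟨θ', hθ'⟩, hne, huniv⟩ := Nat.card_eq_two_iff.1 hcY
  have hne' : θ ≠ θ' := fun h => hne (Subtype.ext h)
  have hYmem : ∀ ψ : IrrCharacter G, ψ ∈ Y → ψ = θ ∨ ψ = θ' := by
    intro ψ hψ
    have h1 : (⟨ψ, hψ⟩ : Y) ∈ ({⟨θ, hθ⟩, ⟨θ', hθ'⟩} : Set Y) := by
      rw [huniv]
      trivial
    rcases h1 with h | h
    · left
      exact congrArg Subtype.val h
    · right
      exact congrArg Subtype.val h
  have hYeq : Y = {θ, θ'} := by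
    ext ψ
    constructor
    · intro hψ
      rcases hYmem ψ hψ with h | h
      · left; exact h
      · right; exact h
    · rintro (rfl | rfl) <;> assumption
  have hone : ¬ p ∣ orderOf (1 : G) := by
    rw [orderOf_one]
    exact fun h3 => hp.one_lt.ne' (Nat.dvd_one.mp h3)
  have h1mem : (1 : G) ∈ Subgroup.centralizer ((P : Subgroup G) : Set G) := Subgroup.one_mem _
  have hXθ : θ ∉ X := fun h => Set.disjoint_left.1 hD.disj h hθ
  have hXθ' : θ' ∉ X := fun h => Set.disjoint_left.1 hD.disj h hθ'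
  have hnonpr : ∀ ψ : IrrCharacter G, ψ ∉ X → ψ ≠ θ → ψ ≠ θ' →
      p ∣ charDegree (ψ : G → ℂ) := by
    intro ψ h1 h2 h3
    by_contra hnd
    have h4 := Cfsg.Agent.Lib.Helper10.BR.mem_principal_of_self_centralizing p M hM P hP hcent
      ψ hnd
    rw [hD.block] at h4
    rcases h4 with h4 | h4
    · exact h1 h4
    · rcases hYmem ψ h4 with h5 | h5
      · exact h2 h5
      · exact h3 h5
  have hvalX : ∀ χ ∈ X, ∀ x ∈ (P : Subgroup G), x ≠ 1 → (χ : G → ℂ) x = (εX χ : ℂ) := by
    intro χ hχ x hx hx1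
    have := hD.valX χ hχ x hx hx1 1 h1mem hone
    rwa [mul_one] at this
  have hvan : ∀ ψ : IrrCharacter G, p ∣ charDegree (ψ : G → ℂ) → ∀ x ∈ (P : Subgroup G),
      x ≠ 1 → (ψ : G → ℂ) x = 0 := by
    intro ψ hψ x hx hx1
    apply Cfsg.Agent.Lib.Helper10.BR.vanish_of_dvd p P hP ψ hψ x
    rw [tab_order p hp (P : Subgroup G) hP' x hx hx1]
  have hsum : ∀ x ∈ (P : Subgroup G), x ≠ 1 → (θ : G → ℂ) x + (θ' : G → ℂ) x = 1 := by
    intro x hx hx1
    have hY1 : 1 ≤ (p - 1) / e := by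
      rw [← hD.cardY, hcY]
      norm_num
    have h1 := Cfsg.Agent.Lib.Helper10.BT.exc_sum p M hM (P : Subgroup G) hP' e X Y εX (-1)
      hD hY1 x hx hx1
    rw [hYeq, finsum_mem_pair hne'] at h1
    rw [h1]
    push_cast
    ring
  have hreal : ∀ ψ : IrrCharacter G, ∀ x ∈ (P : Subgroup G),
      conj ((ψ : G → ℂ) x) = (ψ : G → ℂ) x := by
    intro ψ x hx
    obtain ⟨n, -, hn⟩ := hinv x hx
    rw [← Cfsg.Agent.Lib.Helper83.irr_inv ψ.2 x, ← hn,
      Cfsg.Agent.Lib.Helper83.irr_classFunction ψ.2 x n]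
  have hcardX : (Finset.univ.filter (fun ψ : IrrCharacter G => ψ ∈ X)).card = e := by
    rw [← hD.cardX, Nat.card_eq_fintype_card, Fintype.card_subtype]
  have hsq : ∀ x ∈ (P : Subgroup G), x ≠ 1 → (2 * (θ : G → ℂ) x - 1) ^ 2 = (p : ℂ) := by
    intro x hx hx1
    have hco := Cfsg.Agent.Lib.Helper83.column_orthogonality_conj (G := G) (IsConj.refl x)
    rw [tab_cent p hp (P : Subgroup G) hP' hcent x hx hx1] at hco
    have hterm : ∀ ψ : IrrCharacter G, (ψ : G → ℂ) x * conj ((ψ : G → ℂ) x)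
        = (if ψ ∈ X then (1 : ℂ) else 0)
          + (if ψ = θ then (θ : G → ℂ) x * (θ : G → ℂ) x else 0)
          + (if ψ = θ' then (θ' : G → ℂ) x * (θ' : G → ℂ) x else 0) := by
      intro ψ
      by_cases h1 : ψ ∈ X
      · have h2 : ψ ≠ θ := fun h => hXθ (h ▸ h1)
        have h3 : ψ ≠ θ' := fun h => hXθ' (h ▸ h1)
        rw [if_pos h1, if_neg h2, if_neg h3, hvalX ψ h1 x hx hx1]
        rcases hD.signX ψ h1 with h4 | h4
        · rw [h4]; simp
        · rw [h4]; simp
      · by_cases h2 : ψ = θ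
        · subst h2
          rw [if_neg h1, if_pos rfl, if_neg hne', hreal ψ x hx]
          ring
        · by_cases h3 : ψ = θ'
          · subst h3
            rw [if_neg h1, if_neg h2, if_pos rfl, hreal ψ x hx]
            ring
          · rw [if_neg h1, if_neg h2, if_neg h3, hvan ψ (hnonpr ψ h1 h2 h3) x hx hx1]
            simp
    rw [Finset.sum_congr rfl (fun ψ _ => hterm ψ), Finset.sum_add_distrib,
      Finset.sum_add_distrib, Finset.sum_ite_eq' Finset.univ θ, Finset.sum_ite_eq' Finset.univ θ',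
      if_pos (Finset.mem_univ _), if_pos (Finset.mem_univ _), ← Finset.sum_filter,
      Finset.sum_const, hcardX] at hco
    have h5 : (θ' : G → ℂ) x = 1 - (θ : G → ℂ) x := by
      have := hsum x hx hx1
      linear_combination this
    rw [h5] at hco
    have hpe' : (p : ℂ) = 2 * (e : ℂ) + 1 := by
      rw [hpe]
      push_cast
      ring
    simp only [nsmul_eq_mul, mul_one] at hco
    linear_combination 2 * hco + hpe'
  have hdeg : ∀ ψ ∈ Y, (ψ : G → ℂ) 1 = (e : ℂ) + 1 := by
    intro ψ hψ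
    have h1 := (Cfsg.Agent.Lib.Helper82.irr_charDegree ψ).1
    rw [hdegY ψ hψ] at h1
    rw [← h1]
    push_cast
    ring
  refine ⟨θ, θ', Finset.univ.filter (fun ψ : IrrCharacter G => ψ ∈ X ∧ εX ψ = 1),
    Finset.univ.filter (fun ψ : IrrCharacter G => ψ ∈ X ∧ εX ψ = -1),
    Finset.univ.filter (fun ψ : IrrCharacter G => p ∣ charDegree (ψ : G → ℂ)), ?_⟩
  refine
    { hp := hp
      hpe := hpe
      he2 := he2
      heven := heven
      cardP := hP
      cent := hcent
      cardN := hN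
      cardG := ⟨b, hcard⟩
      ne := hne'
      part := ?_
      valXp := ?_
      valXm := ?_
      valD := ?_
      degθ := hdeg θ hθ
      degθ' := hdeg θ' hθ'
      reg := fun g hg => hD.regY θ hθ θ' hθ' g hg
      sumθ := hsum
      sq := hsq }
  · intro ψ
    by_cases h1 : ψ ∈ X
    · rcases hD.signX ψ h1 with h4 | h4
      · exact Or.inr (Or.inr (Or.inl (by simp [h1, h4])))
      · exact Or.inr (Or.inr (Or.inr (Or.inl (by simp [h1, h4]))))
    · by_cases h2 : ψ = θ
      · exact Or.inl h2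
      · by_cases h3 : ψ = θ'
        · exact Or.inr (Or.inl h3)
        · exact Or.inr (Or.inr (Or.inr (Or.inr (by simp [hnonpr ψ h1 h2 h3]))))
  · intro χ hχ x hx hx1
    rw [Finset.mem_filter] at hχ
    rw [hvalX χ hχ.2.1 x hx hx1, hχ.2.2]
    simp
  · intro χ hχ x hx hx1
    rw [Finset.mem_filter] at hχ
    rw [hvalX χ hχ.2.1 x hx hx1, hχ.2.2]
    simp
  · intro ψ hψ x hx hx1
    rw [Finset.mem_filter] at hψ
    exact hvan ψ hψ.2 x hx hx1

end Cfsg.Agent.Lib.Helper10.BW
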