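import Mathlib
import Cfsg.Prelude.Def_Blocks

/-!
# S4427 (Brauer: `|G| = p^a q^b r^c` with exactly `q^b r^c` `p`-regular elements has a normal
`p`-complement), project FC (helper74): foundation definitions

All matrices are indexed by the group `G` itself (regular representation).
* `Lm g` : left translation by `g` (`(Lm g) x y = 1` iff `x = g * y`);
* `Bm H` : the integer matrix `(Bm H) x y = 1` iff `x⁻¹ * y ∈ H` (right multiplication by the sum
  of the elements of the subgroup `H`); `Bc H` its complex version, `Em H = |H|⁻¹ • Bc H` the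
  idempotent;
* `Am Q R = Bm Q * Bm R * Bm Q` (symmetric integer matrix commuting with all `Lm g`);
* `Wsp P1 P2` : the space of matrices `X` commuting with all `Lm g` with `P2 * X * P1 = X`.
-/

set_option autoImplicit false

namespace Cfsg.Agent.Lib.Helper74.FC

open Cfsg
open Classical

noncomputable section

variable {G : Type*} [Group G] [Fintype G]

/-- left translation matrix: `(Lm g) x y = 1` iff `x = g * y`. -/
def Lm (g : G) : Matrix G G ℂ := fun x y => if x = g * y then 1 else 0

/-- integer indicator matrix of a subgroup: `(Bm H) x y = 1` iff `x⁻¹ * y ∈ H`. -/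
def Bm (H : Subgroup G) : Matrix G G ℤ := fun x y => if x⁻¹ * y ∈ H then 1 else 0

/-- complex version of `Bm`. -/
def Bc (H : Subgroup G) : Matrix G G ℂ := (Bm H).map (Int.cast : ℤ → ℂ)

/-- the idempotent `|H|⁻¹ • Bc H`. -/
def Em (H : Subgroup G) : Matrix G G ℂ := ((Nat.card H : ℂ))⁻¹ • Bc H

/-- The symmetric integer matrix `B_Q B_R B_Q`. -/
def Am (Q R : Subgroup G) : Matrix G G ℤ := Bm Q * Bm R * Bm Q

/-- The space of matrices `X` commuting with all `Lm g` with `P2 * X * P1 = X`. -/
def Wsp (P1 P2 : Matrix G G ℂ) : Submodule ℂ (Matrix G G ℂ) where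
  carrier := {X | (∀ g : G, Lm g * X = X * Lm g) ∧ P2 * X * P1 = X}
  add_mem' := by
    rintro X Y ⟨hX1, hX2⟩ ⟨hY1, hY2⟩
    refine ⟨fun g => ?_, ?_⟩
    · rw [mul_add, add_mul, hX1 g, hY1 g]
    · rw [mul_add, add_mul, hX2, hY2]
  zero_mem' := by
    refine ⟨fun g => ?_, ?_⟩
    · rw [mul_zero, zero_mul]
    · rw [mul_zero, zero_mul]
  smul_mem' := by
    rintro c X ⟨hX1, hX2⟩
    refine ⟨fun g => ?_, ?_⟩
    · rw [Matrix.mul_smul, Matrix.smul_mul, hX1 g]
    · rw [Matrix.mul_smul, Matrix.smul_mul, hX2]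

theorem mem_Wsp (P1 P2 X : Matrix G G ℂ) :
    X ∈ Wsp P1 P2 ↔ (∀ g : G, Lm g * X = X * Lm g) ∧ P2 * X * P1 = X := Iff.rfl

end

end Cfsg.Agent.Lib.Helper74.FC
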