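import Mathlib
import Cfsg.Agent.Lib.Helper74.FCDefs

/-! S4427 project FC (helper74), piece BAS: entrywise identities for the matrices `Lm`, `Bm`,
`Bc`, `Am` (auxiliary declarations prefixed `bas_`). -/

set_option autoImplicit false
set_option linter.unusedSectionVars false

namespace Cfsg.Agent.Lib.Helper74.FC

open Cfsg
open Classical

noncomputable section

variable {G : Type*} [Group G] [Fintype G]

theorem bas_Lm_apply (g x y : G) : Lm g x y = if x = g * y then 1 else 0 := rfl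

theorem bas_Bm_apply (H : Subgroup G) (x y : G) : Bm H x y = if x⁻¹ * y ∈ H then 1 else 0 := rfl

theorem bas_Bc_apply (H : Subgroup G) (x y : G) :
    Bc H x y = if x⁻¹ * y ∈ H then (1 : ℂ) else 0 := by
  show ((Bm H x y : ℤ) : ℂ) = _
  rw [bas_Bm_apply]
  split_ifs <;> simp

theorem bas_Lm_mul_apply (g : G) (X : Matrix G G ℂ) (x z : G) :
    (Lm g * X) x z = X (g⁻¹ * x) z := by
  rw [Matrix.mul_apply, Finset.sum_eq_single (g⁻¹ * x)]
  · rw [bas_Lm_apply, if_pos (by group), one_mul]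
  · intro y _ hy
    rw [bas_Lm_apply, if_neg, zero_mul]
    intro h
    apply hy
    rw [h]
    group
  · intro h
    exact absurd (Finset.mem_univ _) h

theorem bas_mul_Lm_apply (g : G) (X : Matrix G G ℂ) (x z : G) :
    (X * Lm g) x z = X x (g * z) := by
  rw [Matrix.mul_apply, Finset.sum_eq_single (g * z)]
  · rw [bas_Lm_apply, if_pos rfl, mul_one]
  · intro y _ hy
    rw [bas_Lm_apply, if_neg hy, mul_zero]
  · intro h
    exact absurd (Finset.mem_univ _) h

theorem bas_count (H : Subgroup G) (x : G) :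
    (Finset.univ.filter (fun y : G => x⁻¹ * y ∈ H)).card = Nat.card H := by
  rw [← Fintype.card_subtype, ← Nat.card_eq_fintype_card]
  exact Nat.card_congr ((Equiv.mulLeft x⁻¹).subtypeEquiv (fun y => Iff.rfl))

theorem bas_sum_Bc (H : Subgroup G) (x : G) : ∑ y : G, Bc H x y = (Nat.card H : ℂ) := by
  simp only [bas_Bc_apply]
  rw [Finset.sum_boole, bas_count]

theorem bas_Bm_symm (H : Subgroup G) : (Bm H).transpose = Bm H := by
  ext x y
  rw [Matrix.transpose_apply, bas_Bm_apply, bas_Bm_apply]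
  have h : y⁻¹ * x ∈ H ↔ x⁻¹ * y ∈ H := by
    constructor
    · intro h1
      have := H.inv_mem h1
      simpa using this
    · intro h1
      have := H.inv_mem h1
      simpa using this
  by_cases h1 : x⁻¹ * y ∈ H
  · rw [if_pos h1, if_pos (h.2 h1)]
  · rw [if_neg h1, if_neg (fun h2 => h1 (h.1 h2))]

theorem bas_Bm_inv (H : Subgroup G) (g a b : G) : Bm H (g * a) (g * b) = Bm H a b := by
  rw [bas_Bm_apply, bas_Bm_apply]
  have h : (g * a)⁻¹ * (g * b) = a⁻¹ * b := by group
  rw [h]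

theorem bas_inv_mul (A B : Matrix G G ℤ) (g : G) (hA : ∀ a b, A (g * a) (g * b) = A a b)
    (hB : ∀ a b, B (g * a) (g * b) = B a b) (a b : G) :
    (A * B) (g * a) (g * b) = (A * B) a b := by
  rw [Matrix.mul_apply, Matrix.mul_apply, ← Equiv.sum_comp (Equiv.mulLeft g)]
  apply Finset.sum_congr rfl
  intro z _
  rw [Equiv.coe_mulLeft, hA, hB]

theorem Lm_one : Lm (1 : G) = 1 := by
  ext x y
  rw [bas_Lm_apply, Matrix.one_apply, one_mul]

theorem Lm_mul (g h : G) : Lm g * Lm h = Lm (g * h) := by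
  ext x y
  rw [bas_mul_Lm_apply, bas_Lm_apply, bas_Lm_apply, mul_assoc]

theorem Lm_conjTranspose (g : G) : (Lm g).conjTranspose = Lm g⁻¹ := by
  ext x y
  rw [Matrix.conjTranspose_apply, bas_Lm_apply, bas_Lm_apply]
  by_cases h : y = g * x
  · rw [if_pos h, if_pos (by rw [h]; group), star_one]
  · rw [if_neg h, if_neg, star_zero]
    intro h1
    apply h
    rw [h1]
    group

theorem trace_Lm_mul (g : G) (X : Matrix G G ℂ) :
    Matrix.trace (Lm g * X) = ∑ y : G, X y (g * y) := by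
  rw [Matrix.trace]
  simp only [Matrix.diag_apply, bas_Lm_mul_apply]
  rw [← Equiv.sum_comp (Equiv.mulLeft g)]
  apply Finset.sum_congr rfl
  intro y _
  rw [Equiv.coe_mulLeft, inv_mul_cancel_left]

theorem sum_Lm_apply (x y : G) : (∑ g : G, Lm g) x y = 1 := by
  rw [Matrix.sum_apply, Finset.sum_eq_single (x * y⁻¹)]
  · rw [bas_Lm_apply, if_pos (by group)]
  · intro g _ hg
    rw [bas_Lm_apply, if_neg]
    intro h
    apply hg
    rw [h]
    group
  · intro h
    exact absurd (Finset.mem_univ _) h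

theorem Lm_Bc (g : G) (H : Subgroup G) : Lm g * Bc H = Bc H * Lm g := by
  ext x z
  rw [bas_Lm_mul_apply, bas_mul_Lm_apply, bas_Bc_apply, bas_Bc_apply]
  have h : (g⁻¹ * x)⁻¹ * z = x⁻¹ * (g * z) := by group
  rw [h]

theorem Bc_sq (H : Subgroup G) : Bc H * Bc H = (Nat.card H : ℂ) • Bc H := by
  ext x z
  rw [Matrix.mul_apply, Matrix.smul_apply, smul_eq_mul]
  by_cases hxz : x⁻¹ * z ∈ H
  · have h1 : ∀ y : G, Bc H x y * Bc H y z = Bc H x y := by
      intro y
      rw [bas_Bc_apply H x y, bas_Bc_apply H y z]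
      by_cases hy : x⁻¹ * y ∈ H
      · have h2 : y⁻¹ * z ∈ H := by
          have h3 := H.mul_mem (H.inv_mem hy) hxz
          have h4 : (x⁻¹ * y)⁻¹ * (x⁻¹ * z) = y⁻¹ * z := by group
          rwa [h4] at h3
        rw [if_pos hy, if_pos h2, mul_one]
      · rw [if_neg hy, zero_mul]
    rw [Finset.sum_congr rfl (fun y _ => h1 y), bas_sum_Bc, bas_Bc_apply H x z, if_pos hxz, mul_one]
  · have h1 : ∀ y : G, Bc H x y * Bc H y z = 0 := by
      intro y
      rw [bas_Bc_apply H x y, bas_Bc_apply H y z]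
      by_cases hy : x⁻¹ * y ∈ H
      · have h2 : y⁻¹ * z ∉ H := by
          intro h3
          apply hxz
          have h4 := H.mul_mem hy h3
          have h5 : x⁻¹ * y * (y⁻¹ * z) = x⁻¹ * z := by group
          rwa [h5] at h4
        rw [if_neg h2, mul_zero]
      · rw [if_neg hy, zero_mul]
    rw [Finset.sum_congr rfl (fun y _ => h1 y), Finset.sum_const_zero, bas_Bc_apply H x z,
      if_neg hxz, mul_zero]

theorem Bc_mulVec_one (H : Subgroup G) :
    Matrix.mulVec (Bc H) (fun _ => (1 : ℂ)) = fun _ => (Nat.card H : ℂ) := by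
  funext x
  rw [Matrix.mulVec, dotProduct]
  simp only [mul_one]
  exact bas_sum_Bc H x

theorem Am_symm (Q R : Subgroup G) : (Am Q R).IsSymm := by
  unfold Matrix.IsSymm Am
  rw [Matrix.transpose_mul, Matrix.transpose_mul, bas_Bm_symm, bas_Bm_symm, Matrix.mul_assoc]

theorem Am_mul_left (Q R : Subgroup G) (g x y : G) : Am Q R (g * x) (g * y) = Am Q R x y := by
  unfold Am
  exact bas_inv_mul _ _ g
    (fun a b => bas_inv_mul _ _ g (bas_Bm_inv Q g) (bas_Bm_inv R g) a b) (bas_Bm_inv Q g) x y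

theorem Am_map (Q R : Subgroup G) :
    (Am Q R).map (Int.cast : ℤ → ℂ) = Bc Q * Bc R * Bc Q := by
  show (Bm Q * Bm R * Bm Q).map (Int.castRingHom ℂ) = _
  rw [Matrix.map_mul, Matrix.map_mul]
  rfl

end

end Cfsg.Agent.Lib.Helper74.FC
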