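import Mathlib
import Cfsg.Agent.Lib.Helper74.FCDefs
import Cfsg.Agent.Lib.Helper74.FCBAS

/-! S4427 project FC (helper74), piece AB (placeholder: replace the `sorry`(s); keep the
statement(s) and the namespace exactly; auxiliary declarations `private` or prefixed `ab_`). -/

set_option autoImplicit false

namespace Cfsg.Agent.Lib.Helper74.FC

open Cfsg
open Classical

noncomputable section

variable {G : Type*} [Group G] [Fintype G]

private theorem ab_trace (g : G) (H : Subgroup G) :
    Matrix.trace (Lm g * Em H) = (Nat.card H : ℂ)⁻¹ *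
      ((Finset.univ.filter (fun y : G => y⁻¹ * (g * y) ∈ H)).card : ℂ) := by
  rw [trace_Lm_mul]
  simp only [Em, Bc, Bm, Matrix.smul_apply, Matrix.map_apply, smul_eq_mul]
  rw [← Finset.mul_sum]
  congr 1
  rw [Finset.card_filter]
  push_cast
  apply Finset.sum_congr rfl
  intro y _
  split_ifs <;> simp

private theorem ab_order (g y : G) : orderOf (y⁻¹ * (g * y)) = orderOf g := by
  have h := orderOf_injective (MulAut.conj y⁻¹).toMonoidHom (MulAut.conj y⁻¹).injective g
  have e : (MulAut.conj y⁻¹).toMonoidHom g = y⁻¹ * (g * y) := by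
    simp only [MulEquiv.coe_toMonoidHom, MulAut.conj_apply, inv_inv]
    group
  rw [e] at h
  exact h

/-- The permutation characters on the cosets of two subgroups of coprime orders are orthogonal
off the identity. -/
theorem ab_value (Q R : Subgroup G) (hcop : (Nat.card Q).Coprime (Nat.card R)) :
    (∑ g : G, Matrix.trace (Lm g * Em R) * Matrix.trace (Lm g⁻¹ * Em Q)) / (Fintype.card G : ℂ)
      = (Fintype.card G : ℂ) / ((Nat.card Q : ℂ) * (Nat.card R : ℂ)) := by
  have hG : (Fintype.card G : ℂ) ≠ 0 := by exact_mod_cast Fintype.card_ne_zero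
  have hQ : (Nat.card Q : ℂ) ≠ 0 := by exact_mod_cast (Nat.card_pos (α := Q)).ne'
  have hR : (Nat.card R : ℂ) ≠ 0 := by exact_mod_cast (Nat.card_pos (α := R)).ne'
  have hsum : ∑ g : G, Matrix.trace (Lm g * Em R) * Matrix.trace (Lm g⁻¹ * Em Q)
      = Matrix.trace (Lm (1 : G) * Em R) * Matrix.trace (Lm (1 : G)⁻¹ * Em Q) := by
    apply Finset.sum_eq_single (1 : G)
    · intro g _ hg
      rw [ab_trace, ab_trace]
      by_cases h1 : (Finset.univ.filter (fun y : G => y⁻¹ * (g * y) ∈ R)).card = 0
      · rw [h1]; simp
      · by_cases h2 : (Finset.univ.filter (fun y : G => y⁻¹ * (g⁻¹ * y) ∈ Q)).card = 0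
        · rw [h2]; simp
        · exfalso
          obtain ⟨y, hy⟩ := Finset.card_pos.1 (Nat.pos_of_ne_zero h1)
          obtain ⟨y', hy'⟩ := Finset.card_pos.1 (Nat.pos_of_ne_zero h2)
          rw [Finset.mem_filter] at hy hy'
          have o1 : orderOf g ∣ Nat.card R := by
            have h3 := Subgroup.orderOf_dvd_natCard R hy.2
            rw [ab_order] at h3
            exact h3
          have o2 : orderOf g ∣ Nat.card Q := by
            have h3 := Subgroup.orderOf_dvd_natCard Q hy'.2
            rw [ab_order, orderOf_inv] at h3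
            exact h3
          have o3 : orderOf g ∣ 1 := by
            have := Nat.dvd_gcd o2 o1
            rwa [Nat.Coprime.gcd_eq_one hcop] at this
          exact hg (orderOf_eq_one_iff.1 (Nat.dvd_one.1 o3))
    · intro h
      exact absurd (Finset.mem_univ _) h
  rw [hsum, ab_trace, ab_trace]
  have f1 : (Finset.univ.filter (fun y : G => y⁻¹ * ((1 : G) * y) ∈ R)) = Finset.univ := by
    apply Finset.filter_true_of_mem
    intro y _
    rw [one_mul, inv_mul_cancel]
    exact R.one_mem
  have f2 : (Finset.univ.filter (fun y : G => y⁻¹ * ((1 : G)⁻¹ * y) ∈ Q)) = Finset.univ := by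
    apply Finset.filter_true_of_mem
    intro y _
    rw [inv_one, one_mul, inv_mul_cancel]
    exact Q.one_mem
  rw [f1, f2, Finset.card_univ]
  field_simp

end

end Cfsg.Agent.Lib.Helper74.FC
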