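import Mathlib
import Cfsg.Agent.Lib.Helper74.FCDefs

/-! S4427 project FC (helper74), piece INJ: `X ↦ D * X` is an injective linear map
`Wsp P P → Wsp E1 E2`. -/

set_option autoImplicit false

namespace Cfsg.Agent.Lib.Helper74.FC

open Cfsg
open Classical

noncomputable section

variable {G : Type*} [Group G] [Fintype G]

/-- `X ↦ D * X` is an injection `Wsp P P → Wsp E1 E2`. -/
theorem inj_le (P E1 E2 C D : Matrix G G ℂ) (hD : ∀ g : G, Lm g * D = D * Lm g)
    (hPE1 : P * E1 = P) (hE2D : E2 * D = D) (hinv : C * D * P = P) :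
    Module.finrank ℂ (Wsp P P) ≤ Module.finrank ℂ (Wsp E1 E2) := by
  have hmem : ∀ X : Wsp P P,
      ((LinearMap.mulLeft ℂ D).comp (Wsp P P).subtype) X ∈ Wsp E1 E2 := by
    rintro ⟨X, hX⟩
    obtain ⟨hX1, hX2⟩ := (mem_Wsp P P X).mp hX
    show D * X ∈ Wsp E1 E2
    rw [mem_Wsp]
    refine ⟨fun g => ?_, ?_⟩
    · rw [← mul_assoc, hD g, mul_assoc, hX1 g, mul_assoc]
    · have hXE : X * E1 = X := by
        have h1 : X * E1 = P * X * P * E1 := by rw [hX2]
        rw [h1, mul_assoc, hPE1, hX2]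
      rw [← mul_assoc, hE2D, mul_assoc, hXE]
  let f : Wsp P P →ₗ[ℂ] Wsp E1 E2 :=
    LinearMap.codRestrict (Wsp E1 E2) ((LinearMap.mulLeft ℂ D).comp (Wsp P P).subtype) hmem
  have hf : Function.Injective f := by
    rintro ⟨X, hX⟩ ⟨Y, hY⟩ hXY
    have h0 : D * X = D * Y := congrArg Subtype.val hXY
    have hrec : ∀ Z : Matrix G G ℂ, Z ∈ Wsp P P → C * (D * Z) = Z := by
      intro Z hZ
      obtain ⟨-, hZ2⟩ := (mem_Wsp P P Z).mp hZ
      have h1 : C * (D * Z) = C * D * P * Z * P := by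
        have : C * D * P * Z * P = C * (D * (P * Z * P)) := by
          simp only [mul_assoc]
        rw [this, hZ2]
      rw [h1, hinv, hZ2]
    apply Subtype.ext
    show X = Y
    rw [← hrec X hX, ← hrec Y hY, h0]
  exact LinearMap.finrank_le_finrank_of_injective hf

end

end Cfsg.Agent.Lib.Helper74.FC
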