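import Mathlib
import Cfsg.Prelude.Def_Blocks

/-! S4427 project FC (helper74), piece INT (proof filled in by helper21). -/

set_option autoImplicit false

namespace Cfsg.Agent.Lib.Helper74.FC

open Cfsg
open Classical

noncomputable section

/-- The trace of a complex matrix with `X ^ (o + 1) = X` is an algebraic integer. -/
theorem trace_integral {n : Type*} [Fintype n] (X : Matrix n n ℂ) (o : ℕ) (ho : 0 < o)
    (hX : X ^ (o + 1) = X) : IsIntegral ℤ (Matrix.trace X) := by
  rw [Matrix.trace_eq_sum_roots_charpoly]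
  apply IsIntegral.multiset_sum
  intro μ hμ
  have hroot : X.charpoly.IsRoot μ :=
    (Polynomial.mem_roots (Matrix.charpoly_monic X).ne_zero).1 hμ
  have hspec : μ ∈ spectrum ℂ X := Matrix.mem_spectrum_iff_isRoot_charpoly.2 hroot
  have hnt : Nontrivial (Matrix n n ℂ) := by
    by_contra h
    rw [not_nontrivial_iff_subsingleton] at h
    have h0 := spectrum.of_subsingleton (R := ℂ) X
    rw [h0] at hspec
    exact hspec
  have h1 := spectrum.subset_polynomial_aeval X
    (Polynomial.X ^ (o + 1) - Polynomial.X : Polynomial ℂ) ⟨μ, hspec, rfl⟩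
  have h2 : Polynomial.aeval X (Polynomial.X ^ (o + 1) - Polynomial.X : Polynomial ℂ) = 0 := by
    simp [hX]
  rw [h2, spectrum.zero_eq] at h1
  have h3 : μ ^ (o + 1) - μ = 0 := by simpa using h1
  have h4 : μ * (μ ^ o - 1) = 0 := by
    rw [← h3]
    ring
  rcases mul_eq_zero.1 h4 with h | h
  · rw [h]
    exact isIntegral_zero
  · have h5 : μ ^ o = 1 := sub_eq_zero.1 h
    exact IsIntegral.of_pow ho (by rw [h5]; exact isIntegral_one)

end

end Cfsg.Agent.Lib.Helper74.FC
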