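import Mathlib
import Cfsg.Agent.Lib.Helper21.Loc2

/-! S4427 project FC (helper74), piece U1 (proved by helper93): a power of an algebraic integer
of the local ideal is divisible by `p` in the local ring. -/

set_option autoImplicit false

namespace Cfsg.Agent.Lib.Helper74.FC

open Cfsg
open Classical

noncomputable section

/-- A power of an algebraic integer of the local ideal is divisible by `p` in the local ring. -/
theorem u1 (p : ℕ) (M : Ideal AlgInt) (hM : IsPModular p M) (z : ℂ) (hz : IsIntegral ℤ z)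
    (hzM : MemLocalIdeal M z) : ∃ e : ℕ, 0 < e ∧ MemLocalRing M (z ^ e / (p : ℂ)) := by
  have hp : p.Prime := Cfsg.Agent.Lib.Helper21.pmod_prime hM
  have hzR : MemLocalRing M z := Cfsg.Agent.Lib.Helper21.locIdeal_locRing hzM
  obtain ⟨f, hfm, hf0⟩ := hz
  obtain ⟨n, hn⟩ : ∃ n : ℕ, n = f.natDegree := ⟨_, rfl⟩
  have hsum : ∑ i ∈ Finset.range (n + 1), ((f.coeff i : ℤ) : ℂ) * z ^ i = 0 := by
    have h := hf0
    rw [Polynomial.eval₂_eq_sum_range, ← hn] at h
    rw [← h]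
    refine Finset.sum_congr rfl (fun i _ => ?_)
    rw [eq_intCast]
  have han : f.coeff n = 1 := by
    rw [hn]
    exact hfm.coeff_natDegree
  have hpn : ¬ (p : ℤ) ∣ f.coeff n := by
    rw [han]
    intro h
    have h1 := Int.eq_one_of_dvd_one (Int.natCast_nonneg p) h
    have h2 : p = 1 := by exact_mod_cast h1
    exact hp.one_lt.ne' h2
  have hex : ∃ k, ¬ (p : ℤ) ∣ f.coeff k := ⟨n, hpn⟩
  obtain ⟨k, hk, hlt⟩ : ∃ k, ¬ (p : ℤ) ∣ f.coeff k ∧ ∀ i < k, (p : ℤ) ∣ f.coeff i :=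
    ⟨Nat.find hex, Nat.find_spec hex, fun i hi => not_not.mp (Nat.find_min hex hi)⟩
  have hkn : k ≤ n := by
    by_contra hcon
    exact hpn (hlt n (by omega))
  obtain ⟨m, hm⟩ : ∃ m, n + 1 = k + (m + 1) := ⟨n - k, by omega⟩
  rw [hm, Finset.sum_range_add] at hsum
  obtain ⟨w, hw⟩ : ∃ w : ℂ, w = ∑ i ∈ Finset.range k, ((f.coeff i / (p : ℤ) : ℤ) : ℂ) * z ^ i :=
    ⟨_, rfl⟩
  obtain ⟨u, hu⟩ : ∃ u : ℂ,
      u = ∑ j ∈ Finset.range (m + 1), ((f.coeff (k + j) : ℤ) : ℂ) * z ^ j := ⟨_, rfl⟩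
  have hhead : ∑ i ∈ Finset.range k, ((f.coeff i : ℤ) : ℂ) * z ^ i = (p : ℂ) * w := by
    rw [hw, Finset.mul_sum]
    refine Finset.sum_congr rfl (fun i hi => ?_)
    have h1 : f.coeff i = (p : ℤ) * (f.coeff i / (p : ℤ)) :=
      (Int.mul_ediv_cancel' (hlt i (Finset.mem_range.mp hi))).symm
    have h2 : ((f.coeff i : ℤ) : ℂ) = (p : ℂ) * ((f.coeff i / (p : ℤ) : ℤ) : ℂ) := by
      conv_lhs => rw [h1]
      push_cast
      ring
    rw [h2]
    ring
  have htail : ∑ j ∈ Finset.range (m + 1), ((f.coeff (k + j) : ℤ) : ℂ) * z ^ (k + j) =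
      z ^ k * u := by
    rw [hu, Finset.mul_sum]
    refine Finset.sum_congr rfl (fun j _ => ?_)
    rw [pow_add]
    ring
  rw [hhead, htail] at hsum
  have hwR : MemLocalRing M w := by
    rw [hw]
    exact Cfsg.Agent.Lib.Helper21.locRing_sum hM _ _ (fun i _ =>
      Cfsg.Agent.Lib.Helper21.locRing_mul hM (Cfsg.Agent.Lib.Helper21.locRing_intCast hM _)
        (Cfsg.Agent.Lib.Helper21.locRing_pow hM hzR i))
  have huR : MemLocalRing M u := by
    rw [hu]
    exact Cfsg.Agent.Lib.Helper21.locRing_sum hM _ _ (fun j _ =>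
      Cfsg.Agent.Lib.Helper21.locRing_mul hM (Cfsg.Agent.Lib.Helper21.locRing_intCast hM _)
        (Cfsg.Agent.Lib.Helper21.locRing_pow hM hzR j))
  have hpI : MemLocalIdeal M (p : ℂ) :=
    (Cfsg.Agent.Lib.Helper21.locIdeal_natCast_iff hM p).mpr dvd_rfl
  have huI : ¬ MemLocalIdeal M u := by
    intro hI
    have h1 : u = ∑ j ∈ Finset.range m, ((f.coeff (k + (j + 1)) : ℤ) : ℂ) * z ^ (j + 1) +
        ((f.coeff k : ℤ) : ℂ) := by
      rw [hu, Finset.sum_range_succ']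
      simp
    have h2 : MemLocalIdeal M
        (∑ j ∈ Finset.range m, ((f.coeff (k + (j + 1)) : ℤ) : ℂ) * z ^ (j + 1)) := by
      apply Cfsg.Agent.Lib.Helper21.locIdeal_sum hM
      intro j _
      rw [pow_succ, ← mul_assoc]
      exact Cfsg.Agent.Lib.Helper21.locIdeal_mul_left hM
        (Cfsg.Agent.Lib.Helper21.locRing_mul hM (Cfsg.Agent.Lib.Helper21.locRing_intCast hM _)
          (Cfsg.Agent.Lib.Helper21.locRing_pow hM hzR j)) hzM
    have h3 : MemLocalIdeal M ((f.coeff k : ℤ) : ℂ) := by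
      have h4 : ((f.coeff k : ℤ) : ℂ) =
          u - ∑ j ∈ Finset.range m, ((f.coeff (k + (j + 1)) : ℤ) : ℂ) * z ^ (j + 1) := by
        rw [h1]
        ring
      rw [h4]
      exact Cfsg.Agent.Lib.Helper21.locIdeal_sub hM hI h2
    have h5 : ((f.coeff k : ℤ) : AlgInt) ∈ M := by
      rw [← Cfsg.Agent.Lib.Helper21.locIdeal_algInt_iff hM]
      simpa using h3
    exact hk ((Cfsg.Agent.Lib.Helper21.pmod_intCast_mem_iff hM _).mp h5)
  have hu0 : u ≠ 0 := fun h0 => huI (h0 ▸ Cfsg.Agent.Lib.Helper21.locIdeal_zero hM)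
  have hp0 : (p : ℂ) ≠ 0 := by exact_mod_cast hp.ne_zero
  have hkpos : 0 < k := by
    by_contra hk0
    have hk0' : k = 0 := by omega
    rw [hk0', pow_zero, one_mul] at hsum
    apply huI
    have h6 : u = -((p : ℂ) * w) := by linear_combination hsum
    rw [h6]
    exact Cfsg.Agent.Lib.Helper21.locIdeal_neg
      (Cfsg.Agent.Lib.Helper21.locIdeal_mul_right hM hpI hwR)
  refine ⟨k, hkpos, ?_⟩
  have heq : z ^ k / (p : ℂ) = (-w) / u := by
    field_simp
    linear_combination hsum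
  rw [heq]
  exact Cfsg.Agent.Lib.Helper21.locRing_div hM (Cfsg.Agent.Lib.Helper21.locRing_neg hwR) huR huI

end

end Cfsg.Agent.Lib.Helper74.FC
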