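import Mathlib
import Cfsg.Agent.Lib.Helper74.FCU1

/-! S4427 project FC (helper74), piece U2 (proved by helper93): `x ≡ 1` modulo the local ideal
implies `x ^ (p ^ j) → 1` `p`-adically. -/

set_option autoImplicit false

namespace Cfsg.Agent.Lib.Helper74.FC

open Cfsg
open Classical

noncomputable section

/-- the local ring as a subring of `ℂ` -/
private def u2_S (p : ℕ) (M : Ideal AlgInt) (hM : IsPModular p M) : Subring ℂ where
  carrier := {w | MemLocalRing M w}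
  mul_mem' := fun ha hb => Cfsg.Agent.Lib.Helper21.locRing_mul hM ha hb
  one_mem' := Cfsg.Agent.Lib.Helper21.locRing_one hM
  add_mem' := fun ha hb => Cfsg.Agent.Lib.Helper21.locRing_add hM ha hb
  zero_mem' := Cfsg.Agent.Lib.Helper21.locRing_zero hM
  neg_mem' := fun ha => Cfsg.Agent.Lib.Helper21.locRing_neg ha

private theorem u2_add_pow (p : ℕ) (M : Ideal AlgInt) (hM : IsPModular p M) (a b : ℂ)
    (ha : MemLocalRing M a) (hb : MemLocalRing M b) (n : ℕ) :
    ∃ r : ℂ, MemLocalRing M r ∧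
      (a + b) ^ p ^ n = a ^ p ^ n + b ^ p ^ n + (p : ℂ) * a * b * r := by
  have hp : p.Prime := Cfsg.Agent.Lib.Helper21.pmod_prime hM
  obtain ⟨r, hr⟩ := exists_add_pow_prime_pow_eq hp (⟨a, ha⟩ : u2_S p M hM) ⟨b, hb⟩ n
  refine ⟨r.1, r.2, ?_⟩
  have h := congrArg Subtype.val hr
  simpa using h

/-- `x ≡ 1` modulo the local ideal implies `x ^ (p ^ j) → 1` `p`-adically. -/
theorem u2 (p : ℕ) (M : Ideal AlgInt) (hM : IsPModular p M) (x : ℂ) (hx : IsIntegral ℤ x)
    (hx1 : MemLocalIdeal M (x - 1)) (k : ℕ) :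
    ∃ J : ℕ, ∀ j : ℕ, J ≤ j → MemLocalRing M ((x ^ (p ^ j) - 1) / (p : ℂ) ^ k) := by
  have hp : p.Prime := Cfsg.Agent.Lib.Helper21.pmod_prime hM
  have hp0 : (p : ℂ) ≠ 0 := by exact_mod_cast hp.ne_zero
  have hxR : MemLocalRing M x := Cfsg.Agent.Lib.Helper21.locRing_of_isIntegral hM hx
  have h1R : MemLocalRing M (1 : ℂ) := Cfsg.Agent.Lib.Helper21.locRing_one hM
  have hpR : MemLocalRing M (p : ℂ) := Cfsg.Agent.Lib.Helper21.locRing_natCast hM p
  have hzR : MemLocalRing M (x - 1) := Cfsg.Agent.Lib.Helper21.locIdeal_locRing hx1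
  obtain ⟨e, he, hy⟩ := u1 p M hM (x - 1) (hx.sub isIntegral_one) hx1
  have hQ : ∀ k : ℕ, ∀ j : ℕ, e + k ≤ j →
      MemLocalRing M ((x ^ (p ^ j) - 1) / (p : ℂ) ^ (k + 1)) := by
    intro k
    induction k with
    | zero =>
      intro j hj
      obtain ⟨r, hr, hrx⟩ := u2_add_pow p M hM (x - 1) 1 hzR h1R j
      rw [sub_add_cancel, one_pow, mul_one] at hrx
      have hej : e ≤ p ^ j := by
        have h1 : j < p ^ j := Nat.lt_pow_self hp.one_lt
        omega
      obtain ⟨d, hd⟩ : ∃ d, p ^ j = e + d := ⟨p ^ j - e, by omega⟩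
      have h4 : (x - 1) ^ p ^ j = (x - 1) ^ e * (x - 1) ^ d := by rw [hd, pow_add]
      have h2 : (x ^ (p ^ j) - 1) / (p : ℂ) ^ (0 + 1) =
          (x - 1) ^ e / (p : ℂ) * (x - 1) ^ d + (x - 1) * r := by
        rw [hrx, h4]
        field_simp
        ring
      rw [h2]
      exact Cfsg.Agent.Lib.Helper21.locRing_add hM
        (Cfsg.Agent.Lib.Helper21.locRing_mul hM hy (Cfsg.Agent.Lib.Helper21.locRing_pow hM hzR d))
        (Cfsg.Agent.Lib.Helper21.locRing_mul hM hzR hr)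
    | succ k ih =>
      intro j hj
      obtain ⟨j', rfl⟩ : ∃ j', j = j' + 1 := ⟨j - 1, by omega⟩
      have hr := ih j' (by omega)
      obtain ⟨r, hrdef⟩ : ∃ r, r = (x ^ (p ^ j') - 1) / (p : ℂ) ^ (k + 1) := ⟨_, rfl⟩
      rw [← hrdef] at hr
      have hxr : x ^ (p ^ j') = (p : ℂ) ^ (k + 1) * r + 1 := by
        rw [hrdef]
        field_simp
        ring
      obtain ⟨r', hr', hrx⟩ := u2_add_pow p M hM ((p : ℂ) ^ (k + 1) * r) 1
        (Cfsg.Agent.Lib.Helper21.locRing_mul hM (Cfsg.Agent.Lib.Helper21.locRing_pow hM hpR _) hr)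
        h1R 1
      rw [pow_one, one_pow, mul_one] at hrx
      obtain ⟨c, hc⟩ : ∃ c, (k + 1) * p = (k + 1 + 1) + c := by
        have h : k + 1 + 1 ≤ (k + 1) * p := by nlinarith [hp.two_le]
        exact ⟨(k + 1) * p - (k + 1 + 1), (Nat.add_sub_cancel' h).symm⟩
      have h4 : x ^ (p ^ (j' + 1)) = (x ^ (p ^ j')) ^ p := by rw [pow_succ, pow_mul]
      have h5 : ((p : ℂ) ^ (k + 1)) ^ p = (p : ℂ) ^ (k + 1 + 1) * (p : ℂ) ^ c := by
        rw [← pow_mul, hc, pow_add]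
      have h2 : (x ^ (p ^ (j' + 1)) - 1) / (p : ℂ) ^ (k + 1 + 1) =
          (p : ℂ) ^ c * r ^ p + r * r' := by
        rw [h4, hxr, hrx, mul_pow, h5]
        field_simp
        ring
      rw [h2]
      exact Cfsg.Agent.Lib.Helper21.locRing_add hM
        (Cfsg.Agent.Lib.Helper21.locRing_mul hM (Cfsg.Agent.Lib.Helper21.locRing_pow hM hpR c)
          (Cfsg.Agent.Lib.Helper21.locRing_pow hM hr p))
        (Cfsg.Agent.Lib.Helper21.locRing_mul hM hr hr')
  refine ⟨e + k, fun j hj => ?_⟩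
  cases k with
  | zero =>
    rw [pow_zero, div_one]
    exact Cfsg.Agent.Lib.Helper21.locRing_sub hM (Cfsg.Agent.Lib.Helper21.locRing_pow hM hxR _) h1R
  | succ k => exact hQ k j (by omega)

end

end Cfsg.Agent.Lib.Helper74.FC
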