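import Mathlib
import Cfsg.Agent.Lib.Helper74.FCU1
import Cfsg.Agent.Lib.Helper74.FCU2

/-! S4427 project FC (helper74), piece LIM, filled by helper94: the `p`-adic limit lemma.
Auxiliary declarations are `private` and prefixed `lim_`. -/

set_option autoImplicit false

namespace Cfsg.Agent.Lib.Helper74.FC

open Cfsg
open Classical

noncomputable section

open Cfsg.Agent.Lib.Helper21 in
private theorem lim_geom {p : ℕ} {M : Ideal AlgInt} (hM : IsPModular p M) {x : ℂ}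
    (hx : MemLocalRing M x) (h1 : MemLocalIdeal M (x - 1)) (t : ℕ) :
    MemLocalIdeal M (x ^ t - 1) := by
  rw [← geom_sum_mul]
  exact locIdeal_mul_left hM (locRing_sum hM _ _ (fun i _ => locRing_pow hM hx i)) h1

open Cfsg.Agent.Lib.Helper21 in
private theorem lim_root {p : ℕ} {M : Ideal AlgInt} (hM : IsPModular p M) {l : ℂ}
    (hl : IsIntegral ℤ l) (hlu : ¬ MemLocalIdeal M l) :
    ∃ m : ℕ, 0 < m ∧ MemLocalIdeal M (l ^ m - 1) := by
  have ha : (⟨l, hl⟩ : AlgInt) ∉ M := fun h => hlu ((locIdeal_algInt_iff hM ⟨l, hl⟩).mpr h)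
  obtain ⟨ε, m, hpm, hεm, haε⟩ := pmod_exists_root hM ⟨l, hl⟩ ha
  have hm : 0 < m := by
    rcases Nat.eq_zero_or_pos m with h0 | h0
    · exact absurd (by rw [h0]; exact dvd_zero p) hpm
    · exact h0
  refine ⟨m, hm, ?_⟩
  have hd : (⟨l, hl⟩ : AlgInt) - ε ∣ (⟨l, hl⟩ : AlgInt) ^ m - ε ^ m :=
    sub_dvd_pow_sub_pow _ _ m
  rw [hεm] at hd
  have hmem : (⟨l, hl⟩ : AlgInt) ^ m - 1 ∈ M := by
    obtain ⟨w, hw⟩ := hd
    rw [hw]
    exact M.mul_mem_right w haε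
  have h3 := locIdeal_of_mem hM hmem
  have e : (((⟨l, hl⟩ : AlgInt) ^ m - 1 : AlgInt) : ℂ) = l ^ m - 1 := by
    push_cast
    rfl
  rwa [e] at h3

open Cfsg.Agent.Lib.Helper21 in
private theorem lim_common {p : ℕ} {M : Ideal AlgInt} (hM : IsPModular p M) (T : Finset ℂ)
    (hT : ∀ l ∈ T, IsIntegral ℤ l ∧ ¬ MemLocalIdeal M l) :
    ∃ N' : ℕ, 0 < N' ∧ ∀ l ∈ T, MemLocalIdeal M (l ^ N' - 1) := by
  induction T using Finset.induction_on with
  | empty => exact ⟨1, Nat.one_pos, fun l hl => by simp at hl⟩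
  | insert a T haT ih =>
    obtain ⟨N, hN, hNT⟩ := ih (fun l hl => hT l (Finset.mem_insert_of_mem hl))
    obtain ⟨ha1, ha2⟩ := hT a (Finset.mem_insert_self a T)
    obtain ⟨m, hm, hma⟩ := lim_root hM ha1 ha2
    refine ⟨m * N, Nat.mul_pos hm hN, fun l hl => ?_⟩
    rcases Finset.mem_insert.mp hl with hla | hl'
    · rw [hla, pow_mul]
      exact lim_geom hM (locRing_pow hM (locRing_of_isIntegral hM ha1) m) hma N
    · rw [mul_comm, pow_mul]
      exact lim_geom hM (locRing_pow hM (locRing_of_isIntegral hM (hT l hl).1) N) (hNT l hl') m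

open Cfsg.Agent.Lib.Helper21 in
private theorem lim_nonunit {p : ℕ} {M : Ideal AlgInt} (hM : IsPModular p M) {l : ℂ}
    (hl : IsIntegral ℤ l) (hlM : MemLocalIdeal M l) (k : ℕ) :
    ∃ E : ℕ, ∀ n : ℕ, E ≤ n → MemLocalRing M (l ^ n / (p : ℂ) ^ k) := by
  obtain ⟨e, _, hloc⟩ := u1 p M hM l hl hlM
  refine ⟨e * k, fun n hn => ?_⟩
  have e1 : l ^ n / (p : ℂ) ^ k = (l ^ e / (p : ℂ)) ^ k * l ^ (n - e * k) := by
    rw [div_pow, ← pow_mul, div_mul_eq_mul_div, ← pow_add, Nat.add_sub_cancel' hn]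
  rw [e1]
  exact locRing_mul hM (locRing_pow hM hloc k)
    (locRing_pow hM (locRing_of_isIntegral hM hl) _)

private theorem lim_unif (T : Finset ℂ) (P : ℂ → ℕ → Prop)
    (h : ∀ l ∈ T, ∃ J : ℕ, ∀ j : ℕ, J ≤ j → P l j) :
    ∃ J : ℕ, ∀ l ∈ T, ∀ j : ℕ, J ≤ j → P l j := by
  induction T using Finset.induction_on with
  | empty => exact ⟨0, fun l hl => by simp at hl⟩
  | insert a T haT ih =>
    obtain ⟨J₁, hJ₁⟩ := ih (fun l hl => h l (Finset.mem_insert_of_mem hl))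
    obtain ⟨J₂, hJ₂⟩ := h a (Finset.mem_insert_self a T)
    refine ⟨max J₁ J₂, fun l hl j hj => ?_⟩
    rcases Finset.mem_insert.mp hl with hla | hl'
    · rw [hla]
      exact hJ₂ j (le_trans (le_max_right _ _) hj)
    · exact hJ₁ l hl' j (le_trans (le_max_left _ _) hj)

open Cfsg.Agent.Lib.Helper21 in
private theorem lim_main (p : ℕ) (M : Ideal AlgInt) (hM : IsPModular p M) (S : Finset ℂ)
    (hS : ∀ l ∈ S, IsIntegral ℤ l) (c : ℂ → ℂ) (hc : ∀ l ∈ S, IsIntegral ℤ (c l))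
    (hcong : ∀ N' j : ℕ, 0 < N' →
      ∃ z : ℤ, ∑ l ∈ S, c l * l ^ (N' * p ^ j) = (p : ℂ) ^ (j + 1) * (z : ℂ)) :
    ∑ l ∈ S.filter (fun l => ¬ MemLocalIdeal M l), c l = 0 := by
  have hp := hM.1
  have hp0 : (p : ℂ) ≠ 0 := by exact_mod_cast hp.ne_zero
  obtain ⟨N', hN', hN'u⟩ := lim_common hM (S.filter (fun l => ¬ MemLocalIdeal M l))
    (fun l hl => ⟨hS l (Finset.mem_filter.mp hl).1, (Finset.mem_filter.mp hl).2⟩)
  apply locRing_eq_zero_of_forall_div_pow hM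
  intro k
  obtain ⟨J₁, hJ₁⟩ := lim_unif (S.filter (fun l => ¬ MemLocalIdeal M l))
    (fun l j => MemLocalRing M ((l ^ (N' * p ^ j) - 1) / (p : ℂ) ^ k))
    (fun l hl => by
      obtain ⟨J, hJ⟩ := u2 p M hM (l ^ N') ((hS l (Finset.mem_filter.mp hl).1).pow N')
        (hN'u l hl) k
      exact ⟨J, fun j hj => by rw [pow_mul]; exact hJ j hj⟩)
  obtain ⟨J₂, hJ₂⟩ := lim_unif (S.filter (fun l => MemLocalIdeal M l))
    (fun l n => MemLocalRing M (l ^ n / (p : ℂ) ^ k))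
    (fun l hl => lim_nonunit hM (hS l (Finset.mem_filter.mp hl).1)
      (Finset.mem_filter.mp hl).2 k)
  obtain ⟨j, hj⟩ : ∃ j : ℕ, j = max (max J₁ J₂) k := ⟨_, rfl⟩
  have hj1 : J₁ ≤ j := by rw [hj]; exact le_trans (le_max_left _ _) (le_max_left _ _)
  have hj2 : J₂ ≤ j := by rw [hj]; exact le_trans (le_max_right _ _) (le_max_left _ _)
  have hjk : k ≤ j := by rw [hj]; exact le_max_right _ _
  have hN : J₂ ≤ N' * p ^ j := by
    have h1 : j < p ^ j := Nat.lt_pow_self hp.one_lt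
    have h2 : p ^ j ≤ N' * p ^ j := Nat.le_mul_of_pos_left _ hN'
    omega
  obtain ⟨z, hz⟩ := hcong N' j hN'
  have hsplit : ∑ l ∈ S.filter (fun l => ¬ MemLocalIdeal M l), c l =
      ∑ l ∈ S, c l * l ^ (N' * p ^ j)
        - ∑ l ∈ S.filter (fun l => ¬ MemLocalIdeal M l), c l * (l ^ (N' * p ^ j) - 1)
        - ∑ l ∈ S.filter (fun l => MemLocalIdeal M l), c l * l ^ (N' * p ^ j) := by
    rw [← Finset.sum_filter_add_sum_filter_not S (fun l => MemLocalIdeal M l)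
      (fun l => c l * l ^ (N' * p ^ j))]
    have h3 : ∑ l ∈ S.filter (fun l => ¬ MemLocalIdeal M l), c l * (l ^ (N' * p ^ j) - 1) =
        ∑ l ∈ S.filter (fun l => ¬ MemLocalIdeal M l), c l * l ^ (N' * p ^ j) -
        ∑ l ∈ S.filter (fun l => ¬ MemLocalIdeal M l), c l := by
      rw [← Finset.sum_sub_distrib]
      apply Finset.sum_congr rfl
      intro l _
      ring
    rw [h3]
    ring
  rw [hsplit, sub_div, sub_div]
  refine locRing_sub hM (locRing_sub hM ?_ ?_) ?_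
  · rw [hz]
    have h4 : (p : ℂ) ^ (j + 1) = (p : ℂ) ^ (j + 1 - k) * (p : ℂ) ^ k := by
      rw [← pow_add]
      congr 1
      omega
    have e1 : (p : ℂ) ^ (j + 1) * (z : ℂ) / (p : ℂ) ^ k = (p : ℂ) ^ (j + 1 - k) * (z : ℂ) := by
      rw [h4]
      field_simp
    rw [e1]
    exact locRing_mul hM (locRing_pow hM (locRing_natCast hM p) _) (locRing_intCast hM z)
  · rw [Finset.sum_div]
    apply locRing_sum hM
    intro l hl
    rw [mul_div_assoc]
    exact locRing_mul hM (locRing_of_isIntegral hM (hc l (Finset.mem_filter.mp hl).1))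
      (hJ₁ l hl j hj1)
  · rw [Finset.sum_div]
    apply locRing_sum hM
    intro l hl
    rw [mul_div_assoc]
    exact locRing_mul hM (locRing_of_isIntegral hM (hc l (Finset.mem_filter.mp hl).1))
      (hJ₂ l hl _ hN)

/-- The `p`-adic limit lemma: the unit-eigenvalue part of a power sum with Gauss-type
congruences vanishes. -/
theorem lim (p : ℕ) (M : Ideal AlgInt) (hM : IsPModular p M) (S : Finset ℂ)
    (hS : ∀ l ∈ S, IsIntegral ℤ l) (c : ℂ → ℂ) (hc : ∀ l ∈ S, IsIntegral ℤ (c l))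
    (hcong : ∀ N' j : ℕ, 0 < N' →
      ∃ z : ℤ, ∑ l ∈ S, c l * l ^ (N' * p ^ j) = (p : ℂ) ^ (j + 1) * (z : ℂ)) :
    ∑ l ∈ S.filter (fun l => ¬ MemLocalIdeal M l), c l = 0 :=
  lim_main p M hM S hS c hc hcong

end

end Cfsg.Agent.Lib.Helper74.FC
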