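import Mathlib
import Cfsg.Prelude.Def_Blocks

/-! S4427 project FC (helper74), piece SPEC (filled by helper51; statement unchanged). -/

set_option autoImplicit false

namespace Cfsg.Agent.Lib.Helper74.FC

open Cfsg
open Classical

noncomputable section

/-- Spectral decomposition of a symmetric integer matrix: eigenvalues `S` (algebraic integers) and
the spectral projections `Pr l`. -/
theorem spec {n : Type*} [Fintype n] (A : Matrix n n ℤ) (hA : A.IsSymm) :
    ∃ (S : Finset ℂ) (Pr : ℂ → Matrix n n ℂ),
      (∀ l ∈ S, IsIntegral ℤ l) ∧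
      (∑ l ∈ S, Pr l = 1) ∧
      (∀ l ∈ S, A.map (Int.cast : ℤ → ℂ) * Pr l = l • Pr l) ∧
      (∀ l ∈ S, ∀ m ∈ S, l ≠ m → Pr l * Pr m = 0) ∧
      (∀ l ∈ S, (Pr l).conjTranspose = Pr l) ∧
      (∀ l ∈ S, ∀ B : Matrix n n ℂ,
        B * A.map (Int.cast : ℤ → ℂ) = A.map (Int.cast : ℤ → ℂ) * B → B * Pr l = Pr l * B) := by
  have hH : (A.map (Int.cast : ℤ → ℂ)).IsHermitian := by
    ext i j
    simp only [Matrix.conjTranspose_apply, Matrix.map_apply]
    rw [hA.apply j i]
    simp
  obtain ⟨U, e, hUU', hUU, hspec, hroot⟩ : ∃ (U : Matrix n n ℂ) (e : n → ℂ),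
      U * star U = 1 ∧ star U * U = 1 ∧
      A.map (Int.cast : ℤ → ℂ) = U * Matrix.diagonal e * star U ∧
      (∀ i, Polynomial.eval (e i) (A.map (Int.cast : ℤ → ℂ)).charpoly = 0) := by
    refine ⟨(hH.eigenvectorUnitary : Matrix n n ℂ), fun i => ((hH.eigenvalues i : ℝ) : ℂ),
      Matrix.mem_unitaryGroup_iff.mp hH.eigenvectorUnitary.2,
      Matrix.mem_unitaryGroup_iff'.mp hH.eigenvectorUnitary.2, ?_, ?_⟩
    · have h := hH.spectral_theorem
      rw [Unitary.conjStarAlgAut_apply] at h
      exact h
    · intro i
      rw [hH.charpoly_eq, Polynomial.eval_prod]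
      apply Finset.prod_eq_zero (Finset.mem_univ i)
      simp
  have h1 : ∀ X : Matrix n n ℂ, star U * (U * X) = X := by
    intro X; rw [← Matrix.mul_assoc, hUU, Matrix.one_mul]
  have h2 : ∀ X : Matrix n n ℂ, U * (star U * X) = X := by
    intro X; rw [← Matrix.mul_assoc, hUU', Matrix.one_mul]
  -- the diagonal indicator matrices
  have hDD : ∀ l m : ℂ, l ≠ m →
      Matrix.diagonal (fun i => if e i = l then (1 : ℂ) else 0) *
        Matrix.diagonal (fun i => if e i = m then (1 : ℂ) else 0) = 0 := by
    intro l m hlm
    rw [Matrix.diagonal_mul_diagonal]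
    have : (fun i => (if e i = l then (1 : ℂ) else 0) * (if e i = m then (1 : ℂ) else 0)) =
        fun _ => 0 := by
      funext i
      by_cases h : e i = l
      · have h' : e i ≠ m := fun h'' => hlm (h.symm.trans h'')
        simp [h']
      · simp [h]
    rw [this]
    exact Matrix.diagonal_zero
  have hDe : ∀ l : ℂ, Matrix.diagonal e * Matrix.diagonal (fun i => if e i = l then (1 : ℂ) else 0)
      = l • Matrix.diagonal (fun i => if e i = l then (1 : ℂ) else 0) := by
    intro l
    rw [Matrix.diagonal_mul_diagonal, ← Matrix.diagonal_smul]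
    congr 1
    funext i
    by_cases h : e i = l
    · simp [h]
    · simp [h]
  refine ⟨Finset.univ.image e,
    fun l => U * Matrix.diagonal (fun i => if e i = l then (1 : ℂ) else 0) * star U,
    ?_, ?_, ?_, ?_, ?_, ?_⟩
  · -- integrality
    intro l hl
    obtain ⟨i, -, rfl⟩ := Finset.mem_image.mp hl
    refine ⟨A.charpoly, Matrix.charpoly_monic A, ?_⟩
    have h := hroot i
    have hmap : (A.map (Int.cast : ℤ → ℂ)).charpoly = A.charpoly.map (Int.castRingHom ℂ) :=
      Matrix.charpoly_map A (Int.castRingHom ℂ)
    rw [hmap, Polynomial.eval_map] at h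
    exact h
  · -- sum
    rw [← Finset.sum_mul, ← Finset.mul_sum]
    have hsum : ∑ l ∈ Finset.univ.image e,
        Matrix.diagonal (fun i => if e i = l then (1 : ℂ) else 0) = 1 := by
      ext i j
      rw [Matrix.sum_apply]
      by_cases hij : i = j
      · subst hij
        simp only [Matrix.diagonal_apply_eq, Matrix.one_apply_eq]
        rw [Finset.sum_ite_eq]
        simp
      · simp [Matrix.diagonal_apply_ne _ hij, Matrix.one_apply_ne hij]
    rw [hsum, Matrix.mul_one, hUU']
  · -- eigen-equation
    intro l _
    rw [hspec]
    calc U * Matrix.diagonal e * star U *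
          (U * Matrix.diagonal (fun i => if e i = l then (1 : ℂ) else 0) * star U)
        = U * ((Matrix.diagonal e *
            Matrix.diagonal (fun i => if e i = l then (1 : ℂ) else 0)) * star U) := by
          simp only [Matrix.mul_assoc, h1]
      _ = l • (U * Matrix.diagonal (fun i => if e i = l then (1 : ℂ) else 0) * star U) := by
          rw [hDe l, Matrix.smul_mul, Matrix.mul_smul, Matrix.mul_assoc]
  · -- orthogonality
    intro l _ m _ hlm
    calc U * Matrix.diagonal (fun i => if e i = l then (1 : ℂ) else 0) * star U *
          (U * Matrix.diagonal (fun i => if e i = m then (1 : ℂ) else 0) * star U)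
        = U * ((Matrix.diagonal (fun i => if e i = l then (1 : ℂ) else 0) *
            Matrix.diagonal (fun i => if e i = m then (1 : ℂ) else 0)) * star U) := by
          simp only [Matrix.mul_assoc, h1]
      _ = 0 := by rw [hDD l m hlm, Matrix.zero_mul, Matrix.mul_zero]
  · -- Hermitian
    intro l _
    show (U * Matrix.diagonal (fun i => if e i = l then (1 : ℂ) else 0) * star U).conjTranspose =
      U * Matrix.diagonal (fun i => if e i = l then (1 : ℂ) else 0) * star U
    have hd : Matrix.diagonal (star fun i => if e i = l then (1 : ℂ) else 0) =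
        Matrix.diagonal (fun i => if e i = l then (1 : ℂ) else 0) := by
      congr 1
      funext i
      by_cases h : e i = l
      · simp [h]
      · simp [h]
    rw [Matrix.star_eq_conjTranspose, Matrix.conjTranspose_mul, Matrix.conjTranspose_mul,
      Matrix.conjTranspose_conjTranspose, Matrix.diagonal_conjTranspose, hd, ← Matrix.mul_assoc]
  · -- commutant
    intro l _ B hB
    rw [hspec] at hB
    have hB' : (star U * B * U) * Matrix.diagonal e = Matrix.diagonal e * (star U * B * U) := by
      have h3 := congrArg (fun X => star U * X * U) hB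
      simp only [Matrix.mul_assoc, h1, hUU, Matrix.mul_one] at h3
      simp only [Matrix.mul_assoc]
      exact h3
    have hent : ∀ i j, (star U * B * U) i j * e j = e i * (star U * B * U) i j := by
      intro i j
      have h3 := congrFun (congrFun hB' i) j
      rwa [Matrix.mul_diagonal, Matrix.diagonal_mul] at h3
    have hcomm : (star U * B * U) * Matrix.diagonal (fun i => if e i = l then (1 : ℂ) else 0) =
        Matrix.diagonal (fun i => if e i = l then (1 : ℂ) else 0) * (star U * B * U) := by
      ext i j
      rw [Matrix.mul_diagonal, Matrix.diagonal_mul]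
      by_cases h0 : (star U * B * U) i j = 0
      · rw [h0, zero_mul, mul_zero]
      · have hij : e j = e i := by
          have h4 := hent i j
          have h5 : (star U * B * U) i j * (e j - e i) = 0 := by
            rw [mul_sub, h4]; ring
          rcases mul_eq_zero.mp h5 with h6 | h6
          · exact absurd h6 h0
          · exact sub_eq_zero.mp h6
        rw [hij]
        ring
    calc B * (U * Matrix.diagonal (fun i => if e i = l then (1 : ℂ) else 0) * star U)
        = U * ((star U * B * U) * Matrix.diagonal (fun i => if e i = l then (1 : ℂ) else 0)) *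
            star U := by
          simp only [Matrix.mul_assoc, h2]
      _ = U * (Matrix.diagonal (fun i => if e i = l then (1 : ℂ) else 0) * (star U * B * U)) *
            star U := by rw [hcomm]
      _ = U * Matrix.diagonal (fun i => if e i = l then (1 : ℂ) else 0) * star U * B := by
          have h7 : ∀ X : Matrix n n ℂ, X * (U * star U) = X := by
            intro X; rw [hUU', Matrix.mul_one]
          simp only [Matrix.mul_assoc, h7]

end

end Cfsg.Agent.Lib.Helper74.FC
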