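import Mathlib
import Cfsg.Prelude.Def_Blocks

/-! S4427 project FC (helper74), piece TRA (placeholder: replace the `sorry`(s); keep the
statement(s) and the namespace exactly; auxiliary declarations `private` or prefixed `tra_`). -/

set_option autoImplicit false

namespace Cfsg.Agent.Lib.Helper74.FC

open Cfsg
open Classical

noncomputable section

theorem tra_repr {n : Type*} [Fintype n] (X : Matrix n n ℂ) (i j : n) :
    (Matrix.stdBasis ℂ n n).repr X (i, j) = X i j := by
  simp [Matrix.stdBasis]

/-- The trace of `X ↦ B * X * C` on the space of matrices is `tr B * tr C`. -/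
theorem trace_sandwich {n : Type*} [Fintype n] (B C : Matrix n n ℂ) :
    LinearMap.trace ℂ (Matrix n n ℂ) ((LinearMap.mulLeft ℂ B).comp (LinearMap.mulRight ℂ C))
      = Matrix.trace B * Matrix.trace C := by
  rw [LinearMap.trace_eq_matrix_trace ℂ (Matrix.stdBasis ℂ n n)]
  unfold Matrix.trace
  rw [Fintype.sum_prod_type, Finset.sum_mul_sum]
  refine Finset.sum_congr rfl (fun i _ => Finset.sum_congr rfl (fun j _ => ?_))
  rw [Matrix.diag_apply, LinearMap.toMatrix_apply, tra_repr, Matrix.stdBasis_eq_single,
    LinearMap.comp_apply, LinearMap.mulRight_apply, LinearMap.mulLeft_apply, Matrix.diag_apply,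
    Matrix.diag_apply]
  rw [Matrix.mul_apply, Finset.sum_eq_single i]
  · rw [Matrix.mul_apply, Finset.sum_eq_single j]
    · rw [Matrix.single_apply_same, one_mul]
    · intro k _ hk
      rw [Matrix.single_apply_of_ne, zero_mul]
      exact fun h => hk h.2.symm
    · intro h
      exact absurd (Finset.mem_univ _) h
  · intro k _ hk
    have : (Matrix.single i j (1 : ℂ) * C) k j = 0 := by
      rw [Matrix.mul_apply]
      refine Finset.sum_eq_zero (fun l _ => ?_)
      rw [Matrix.single_apply_of_ne, zero_mul]
      exact fun h => hk h.1.symm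
    rw [this, mul_zero]
  · intro h
    exact absurd (Finset.mem_univ _) h

end

end Cfsg.Agent.Lib.Helper74.FC
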