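import Mathlib
import Cfsg.Agent.Lib.Helper74.FCDefs
import Cfsg.Agent.Lib.Helper74.FCBAS
import Cfsg.Agent.Lib.Helper74.FCTRA

/-! S4427 project FC (helper74), piece TRB: the dimension of the space of equivariant maps
between the images of two idempotents, as an average of products of traces. -/

set_option autoImplicit false

namespace Cfsg.Agent.Lib.Helper74.FC

open Cfsg
open Classical

noncomputable section

variable {G : Type*} [Group G] [Fintype G]

/-- Dimension of the space of equivariant maps between the images of two idempotents. -/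
theorem tr_formula (P1 P2 : Matrix G G ℂ) (h1 : P1 * P1 = P1) (h2 : P2 * P2 = P2)
    (hc1 : ∀ g : G, Lm g * P1 = P1 * Lm g) (hc2 : ∀ g : G, Lm g * P2 = P2 * Lm g) :
    (Module.finrank ℂ (Wsp P1 P2) : ℂ)
      = (∑ g : G, Matrix.trace (Lm g * P2) * Matrix.trace (Lm g⁻¹ * P1))
          / (Fintype.card G : ℂ) := by
  set 𝒜 : Matrix G G ℂ →ₗ[ℂ] Matrix G G ℂ :=
    ((Fintype.card G : ℂ))⁻¹ • ∑ g : G,
      (LinearMap.mulLeft ℂ (Lm g * P2)).comp (LinearMap.mulRight ℂ (P1 * Lm g⁻¹)) with h𝒜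
  have hcard : (Fintype.card G : ℂ) ≠ 0 := by
    exact_mod_cast (Fintype.card_ne_zero : Fintype.card G ≠ 0)
  have happ : ∀ X : Matrix G G ℂ,
      𝒜 X = ((Fintype.card G : ℂ))⁻¹ • ∑ g : G, Lm g * P2 * X * P1 * Lm g⁻¹ := by
    intro X
    rw [h𝒜, LinearMap.smul_apply, LinearMap.sum_apply]
    congr 1
    refine Finset.sum_congr rfl fun g _ => ?_
    rw [LinearMap.comp_apply, LinearMap.mulRight_apply, LinearMap.mulLeft_apply]
    simp only [mul_assoc]
  have hmem : ∀ X : Matrix G G ℂ, 𝒜 X ∈ Wsp P1 P2 := by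
    intro X
    rw [mem_Wsp, happ X]
    refine ⟨fun h => ?_, ?_⟩
    · rw [Matrix.mul_smul, Matrix.smul_mul, Finset.mul_sum, Finset.sum_mul]
      congr 1
      refine Fintype.sum_equiv (Equiv.mulLeft h) _ _ fun g => ?_
      have e1 : (h * g)⁻¹ = g⁻¹ * h⁻¹ := mul_inv_rev h g
      have e2 : Lm (g⁻¹ * h⁻¹) * Lm h = Lm g⁻¹ := by
        rw [Lm_mul, inv_mul_cancel_right]
      calc Lm h * (Lm g * P2 * X * P1 * Lm g⁻¹)
          = (Lm h * Lm g) * P2 * X * P1 * Lm g⁻¹ := by simp only [mul_assoc]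
        _ = Lm (h * g) * P2 * X * P1 * (Lm (g⁻¹ * h⁻¹) * Lm h) := by rw [Lm_mul, e2]
        _ = Lm (h * g) * P2 * X * P1 * Lm (h * g)⁻¹ * Lm h := by
          rw [e1]
          simp only [mul_assoc]
    · rw [Matrix.mul_smul, Matrix.smul_mul, Finset.mul_sum, Finset.sum_mul]
      congr 1
      refine Finset.sum_congr rfl fun g _ => ?_
      calc P2 * (Lm g * P2 * X * P1 * Lm g⁻¹) * P1
          = (P2 * Lm g) * P2 * X * P1 * (Lm g⁻¹ * P1) := by simp only [mul_assoc]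
        _ = (Lm g * P2) * P2 * X * P1 * (P1 * Lm g⁻¹) := by rw [← hc2 g, hc1 g⁻¹]
        _ = Lm g * (P2 * P2) * X * (P1 * P1) * Lm g⁻¹ := by simp only [mul_assoc]
        _ = Lm g * P2 * X * P1 * Lm g⁻¹ := by rw [h1, h2]
  have hid : ∀ X ∈ Wsp P1 P2, 𝒜 X = X := by
    intro X hX
    rw [mem_Wsp] at hX
    obtain ⟨hXc, hXp⟩ := hX
    rw [happ X]
    have hterm : ∀ g : G, Lm g * P2 * X * P1 * Lm g⁻¹ = X := by
      intro g
      calc Lm g * P2 * X * P1 * Lm g⁻¹
          = Lm g * (P2 * X * P1) * Lm g⁻¹ := by simp only [mul_assoc]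
        _ = X * Lm g * Lm g⁻¹ := by rw [hXp, hXc g]
        _ = X * (Lm g * Lm g⁻¹) := by rw [mul_assoc]
        _ = X := by rw [Lm_mul, mul_inv_cancel, Lm_one, mul_one]
    rw [Finset.sum_congr rfl fun g _ => hterm g, Finset.sum_const, Finset.card_univ,
      ← Nat.cast_smul_eq_nsmul ℂ, smul_smul, inv_mul_cancel₀ hcard, one_smul]
  have hproj : LinearMap.IsProj (Wsp P1 P2) 𝒜 := ⟨hmem, hid⟩
  have htr : LinearMap.trace ℂ (Matrix G G ℂ) 𝒜
      = ((Fintype.card G : ℂ))⁻¹ *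
        ∑ g : G, Matrix.trace (Lm g * P2) * Matrix.trace (Lm g⁻¹ * P1) := by
    rw [h𝒜, map_smul, map_sum, smul_eq_mul]
    congr 1
    refine Finset.sum_congr rfl fun g _ => ?_
    rw [trace_sandwich, Matrix.trace_mul_comm P1]
  rw [← hproj.trace, htr, div_eq_inv_mul]

end

end Cfsg.Agent.Lib.Helper74.FC
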