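import Mathlib
import Cfsg.Prelude.Def_Blocks

/-! S4427 project FC (helper74), piece ORB (placeholder: replace the `sorry`(s); keep the
statement(s) and the namespace exactly; auxiliary declarations `private` or prefixed `orb_`). -/

set_option autoImplicit false

namespace Cfsg.Agent.Lib.Helper74.FC

open Cfsg
open Classical

noncomputable section

theorem orb_nt (p : ℕ) (hp : p.Prime) (u e J s : ℕ) (h1 : s ∣ u * p ^ (J + e))
    (h2 : ¬ s ∣ u * p ^ J) : p ^ (J + 1) ∣ s := by
  have hs0 : s ≠ 0 := by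
    rintro rfl
    rw [zero_dvd_iff] at h1
    apply h2
    have hu : u = 0 := by
      rcases mul_eq_zero.mp h1 with h | h
      · exact h
      · exact absurd h (pow_ne_zero _ hp.ne_zero)
    simp [hu]
  obtain ⟨t, s', hs', hs⟩ := Nat.exists_eq_pow_mul_and_not_dvd hs0 p hp.ne_one
  have hcop : Nat.Coprime s' (p ^ (J + e)) :=
    Nat.Coprime.pow_right _ ((Nat.Prime.coprime_iff_not_dvd hp).mpr hs').symm
  have hs'u : s' ∣ u := hcop.dvd_of_dvd_mul_right ((Dvd.intro_left _ hs.symm).trans h1)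
  by_contra hcon
  apply h2
  have htJ : t ≤ J := by
    by_contra h
    push Not at h
    apply hcon
    rw [hs]
    exact Dvd.dvd.mul_right (pow_dvd_pow p h) s'
  rw [hs, mul_comm u]
  exact Nat.mul_dvd_mul (pow_dvd_pow p htJ) hs'u

/-- Orbit counting: if `ρ ^ (u * p ^ J)` has no fixed point and `ρ ^ (u * p ^ (J + e)) = 1`, every
`ρ`-orbit has length divisible by `p ^ (J + 1)`, hence so is the sum of a `ρ`-invariant weight. -/
theorem orbit_dvd {X : Type*} [Fintype X] (ρ : Equiv.Perm X) (wt : X → ℤ)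
    (hwt : ∀ x, wt (ρ x) = wt x) (p : ℕ) (hp : p.Prime) (u e J : ℕ)
    (hfix : ∀ x, (ρ ^ (u * p ^ J)) x ≠ x) (hord : ρ ^ (u * p ^ (J + e)) = 1) :
    ((p : ℤ) ^ (J + 1)) ∣ ∑ x, wt x := by
  have hwtpow : ∀ (n : ℕ) (x : X), wt ((ρ ^ n) x) = wt x := by
    intro n
    induction n with
    | zero => intro x; simp
    | succ n ih => intro x; rw [pow_succ, Equiv.Perm.mul_apply, ih, hwt]
  rw [Finset.sum_partition (Equiv.Perm.SameCycle.setoid ρ)]
  apply Finset.dvd_sum
  intro xbar _
  induction xbar using Quotient.inductionOn with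
  | _ x =>
  have hx : ρ x ≠ x := fun h => hfix x (Equiv.Perm.pow_apply_eq_self_of_apply_eq_self h _)
  have hfilter : (Finset.univ.filter (fun y =>
      (Quotient.mk (Equiv.Perm.SameCycle.setoid ρ) y) = Quotient.mk _ x)) =
      (ρ.cycleOf x).support := by
    ext y
    simp only [Finset.mem_filter, Finset.mem_univ, true_and, Equiv.Perm.mem_support_cycleOf_iff]
    rw [Quotient.eq]
    constructor
    · intro h; exact ⟨h.symm, Equiv.Perm.mem_support.mpr hx⟩
    · intro h; exact h.1.symm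
  rw [hfilter]
  have hconst : ∀ y ∈ (ρ.cycleOf x).support, wt y = wt x := by
    intro y hy
    rw [Equiv.Perm.mem_support_cycleOf_iff] at hy
    obtain ⟨i, hi⟩ := hy.1.exists_nat_pow_eq
    rw [← hi, hwtpow]
  rw [Finset.sum_congr rfl hconst, Finset.sum_const, nsmul_eq_mul]
  apply Dvd.dvd.mul_right
  rw [← (Equiv.Perm.isCycle_cycleOf ρ hx).orderOf]
  have hdvd : p ^ (J + 1) ∣ orderOf (ρ.cycleOf x) := by
    apply orb_nt p hp u e J
    · exact (Equiv.Perm.orderOf_cycleOf_dvd_orderOf ρ x).trans (orderOf_dvd_of_pow_eq_one hord)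
    · intro h
      apply hfix x
      rw [← Equiv.Perm.cycleOf_pow_apply_self]
      obtain ⟨k, hk⟩ := h
      rw [hk, pow_mul, pow_orderOf_eq_one, one_pow]
      rfl
  exact_mod_cast hdvd

end

end Cfsg.Agent.Lib.Helper74.FC
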