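import Mathlib
import Cfsg.Prelude.Def_Blocks

/-! S4427 project FC (helper74), piece PATH (placeholder: replace the `sorry`(s); keep the
statement(s) and the namespace exactly; auxiliary declarations `private` or prefixed `path_`). -/

set_option autoImplicit false

namespace Cfsg.Agent.Lib.Helper74.FC

open Cfsg
open Classical

noncomputable section

variable {Ω : Type*} [Fintype Ω]

/-- the successor entry of the twisted closed walk `w` (the last entry is followed by `σ (w 0)`). -/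
def nxt (σ : Equiv.Perm Ω) {n : ℕ} (w : Fin (n + 1) → Ω) (i : Fin (n + 1)) : Ω :=
  if h : i.val + 1 < n + 1 then w ⟨i.val + 1, h⟩ else σ (w 0)

/-- weight of a twisted closed walk. -/
def wt (σ : Equiv.Perm Ω) (A : Matrix Ω Ω ℤ) {n : ℕ} (w : Fin (n + 1) → Ω) : ℤ :=
  ∏ i, A (w i) (nxt σ w i)

private theorem path_nxt_lt (σ : Equiv.Perm Ω) {n : ℕ} (w : Fin (n + 1) → Ω) (i : Fin (n + 1))
    (h : i.val + 1 < n + 1) : nxt σ w i = w ⟨i.val + 1, h⟩ := dif_pos h

private theorem path_nxt_last (σ : Equiv.Perm Ω) {n : ℕ} (w : Fin (n + 1) → Ω) (i : Fin (n + 1))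
    (h : ¬ i.val + 1 < n + 1) : nxt σ w i = σ (w 0) := dif_neg h

/-- sums over walks with free ends -/
private theorem path_gen (A : Matrix Ω Ω ℤ) (n : ℕ) :
    ∀ g : Ω → Ω → ℤ,
      ∑ w : Fin (n + 1) → Ω,
          (∏ i : Fin n, A (w i.castSucc) (w i.succ)) * g (w 0) (w (Fin.last n)) =
        ∑ x, ∑ z, (A ^ n) x z * g x z := by
  induction n with
  | zero =>
    intro g
    rw [← (Equiv.funUnique (Fin 1) Ω).symm.sum_comp]
    refine Finset.sum_congr rfl (fun x _ => ?_)
    simp [Matrix.one_apply]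
  | succ n ih =>
    intro g
    rw [← (Fin.snocEquiv (fun _ : Fin (n + 2) => Ω)).sum_comp, Fintype.sum_prod_type]
    trans ∑ z : Ω, ∑ x, ∑ y, (A ^ n) x y * (A y z * g x z)
    · refine Finset.sum_congr rfl (fun z _ => ?_)
      rw [← ih (fun x y => A y z * g x z)]
      refine Finset.sum_congr rfl (fun w' _ => ?_)
      have h0 : (0 : Fin (n + 2)) = Fin.castSucc (0 : Fin (n + 1)) := rfl
      rw [Fin.prod_univ_castSucc]
      simp only [Fin.snocEquiv_apply, Fin.snoc_castSucc, Fin.succ_last, Fin.snoc_last, h0,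
        Fin.succ_castSucc]
      ring
    · rw [Finset.sum_comm]
      refine Finset.sum_congr rfl (fun x _ => ?_)
      refine Finset.sum_congr rfl (fun z _ => ?_)
      rw [pow_succ, Matrix.mul_apply, Finset.sum_mul]
      refine Finset.sum_congr rfl (fun y _ => ?_)
      ring

theorem path_sum (σ : Equiv.Perm Ω) (A : Matrix Ω Ω ℤ) (n : ℕ) :
    ∑ w : Fin (n + 1) → Ω, wt σ A w = ∑ x, (A ^ (n + 1)) x (σ x) := by
  have h := path_gen A n (fun x z => A z (σ x))
  have e : ∀ w : Fin (n + 1) → Ω, wt σ A w =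
      (∏ i : Fin n, A (w i.castSucc) (w i.succ)) * A (w (Fin.last n)) (σ (w 0)) := by
    intro w
    unfold wt
    rw [Fin.prod_univ_castSucc]
    congr 1
    · refine Finset.prod_congr rfl (fun i _ => ?_)
      have hi : (Fin.castSucc i).val + 1 < n + 1 := by
        have := i.isLt
        simp only [Fin.val_castSucc]
        omega
      rw [path_nxt_lt σ w (Fin.castSucc i) hi]
      congr 1
    · rw [path_nxt_last σ w (Fin.last n) (by simp)]
  simp only [e]
  rw [h]
  refine Finset.sum_congr rfl (fun x _ => ?_)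
  rw [pow_succ, Matrix.mul_apply]

/-- the periodic extension of a twisted closed walk -/
private def path_ext (σ : Equiv.Perm Ω) {n : ℕ} (w : Fin (n + 1) → Ω) (m : ℕ) : Ω :=
  (σ ^ (m / (n + 1))) (w ⟨m % (n + 1), Nat.mod_lt _ (Nat.succ_pos n)⟩)

private theorem path_ext_lt (σ : Equiv.Perm Ω) {n : ℕ} (w : Fin (n + 1) → Ω) (i : Fin (n + 1)) :
    path_ext σ w i.val = w i := by
  unfold path_ext
  have h1 : i.val / (n + 1) = 0 := Nat.div_eq_of_lt i.isLt
  have e : (⟨i.val % (n + 1), Nat.mod_lt _ (Nat.succ_pos n)⟩ : Fin (n + 1)) = i :=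
    Fin.ext (Nat.mod_eq_of_lt i.isLt)
  rw [e, h1, pow_zero, Equiv.Perm.one_apply]

private theorem path_ext_add (σ : Equiv.Perm Ω) {n : ℕ} (w : Fin (n + 1) → Ω) (m : ℕ) :
    path_ext σ w (m + (n + 1)) = σ (path_ext σ w m) := by
  unfold path_ext
  have e : (⟨(m + (n + 1)) % (n + 1), Nat.mod_lt _ (Nat.succ_pos n)⟩ : Fin (n + 1)) =
      ⟨m % (n + 1), Nat.mod_lt _ (Nat.succ_pos n)⟩ := Fin.ext (Nat.add_mod_right m (n + 1))
  rw [e, Nat.add_div_right m (Nat.succ_pos n), pow_succ', Equiv.Perm.mul_apply]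

private theorem path_ext_add_mul (σ : Equiv.Perm Ω) {n : ℕ} (w : Fin (n + 1) → Ω) (m k : ℕ) :
    path_ext σ w (m + k * (n + 1)) = (σ ^ k) (path_ext σ w m) := by
  induction k with
  | zero => simp
  | succ k ih =>
    rw [Nat.succ_mul, ← Nat.add_assoc, path_ext_add, ih, pow_succ', Equiv.Perm.mul_apply]

private theorem path_ext_nxt (σ : Equiv.Perm Ω) {n : ℕ} (w : Fin (n + 1) → Ω) (m : ℕ) :
    path_ext σ (nxt σ w) m = path_ext σ w (m + 1) := by
  unfold path_ext
  have hr : m % (n + 1) < n + 1 := Nat.mod_lt _ (Nat.succ_pos n)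
  have hm : m % (n + 1) + (n + 1) * (m / (n + 1)) = m := Nat.mod_add_div m (n + 1)
  by_cases h : m % (n + 1) + 1 < n + 1
  · have hdm : (m + 1) / (n + 1) = m / (n + 1) ∧ (m + 1) % (n + 1) = m % (n + 1) + 1 :=
      (Nat.div_mod_unique (show 0 < n + 1 from Nat.succ_pos n)).mpr
        ⟨by rw [Nat.add_right_comm, hm], h⟩
    have e : (⟨(m + 1) % (n + 1), Nat.mod_lt _ (Nat.succ_pos n)⟩ : Fin (n + 1)) =
        ⟨m % (n + 1) + 1, h⟩ := Fin.ext hdm.2
    rw [path_nxt_lt σ w ⟨m % (n + 1), hr⟩ h, hdm.1, e]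
  · have hrn : m % (n + 1) = n := by omega
    have hdm : (m + 1) / (n + 1) = m / (n + 1) + 1 ∧ (m + 1) % (n + 1) = 0 := by
      refine (Nat.div_mod_unique (show 0 < n + 1 from Nat.succ_pos n)).mpr ⟨?_, Nat.succ_pos n⟩
      rw [hrn] at hm
      rw [Nat.mul_add, Nat.mul_one, Nat.zero_add]
      omega
    have e : (⟨(m + 1) % (n + 1), Nat.mod_lt _ (Nat.succ_pos n)⟩ : Fin (n + 1)) = 0 :=
      Fin.ext hdm.2
    rw [path_nxt_last σ w ⟨m % (n + 1), hr⟩ h, hdm.1, e, pow_succ, Equiv.Perm.mul_apply]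

theorem rot (σ : Equiv.Perm Ω) (A : Matrix Ω Ω ℤ) (hA : ∀ x y, A (σ x) (σ y) = A x y) (n : ℕ) :
    ∃ ρ : Equiv.Perm (Fin (n + 1) → Ω), (∀ w, wt σ A (ρ w) = wt σ A w) ∧
      (∀ (k : ℕ) (w : Fin (n + 1) → Ω) (i : Fin (n + 1)),
        (ρ ^ (k * (n + 1))) w i = (σ ^ k) (w i)) := by
  have hinj : Function.Injective (fun w : Fin (n + 1) → Ω => nxt σ w) := by
    intro w w' h
    funext i
    have h1 : path_ext σ w (i.val + n + 1) = path_ext σ w' (i.val + n + 1) := by
      rw [← path_ext_nxt, ← path_ext_nxt, show nxt σ w = nxt σ w' from h]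
    rw [Nat.add_assoc, path_ext_add, path_ext_add, path_ext_lt, path_ext_lt] at h1
    exact σ.injective h1
  let ρ : Equiv.Perm (Fin (n + 1) → Ω) :=
    Equiv.ofBijective _ (Finite.injective_iff_bijective.mp hinj)
  have hρ : ∀ w, ρ w = nxt σ w := fun w => rfl
  refine ⟨ρ, ?_, ?_⟩
  · intro w
    rw [hρ]
    have key : ∀ v : Fin (n + 1) → Ω, wt σ A v =
        ∏ m ∈ Finset.range (n + 1), A (path_ext σ v m) (path_ext σ v (m + 1)) := by
      intro v
      rw [← Fin.prod_univ_eq_prod_range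
        (fun m => A (path_ext σ v m) (path_ext σ v (m + 1))) (n + 1)]
      unfold wt
      refine Finset.prod_congr rfl (fun i _ => ?_)
      rw [path_ext_lt, ← path_ext_nxt, path_ext_lt]
    rw [key, key]
    simp only [path_ext_nxt]
    rw [Finset.prod_range_succ,
      Finset.prod_range_succ' (fun m => A (path_ext σ w m) (path_ext σ w (m + 1)))]
    congr 1
    have e1 : path_ext σ w (n + 1) = σ (path_ext σ w 0) := by
      have h := path_ext_add σ w 0
      rwa [Nat.zero_add] at h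
    have e2 : path_ext σ w (n + 1 + 1) = σ (path_ext σ w 1) := by
      have h := path_ext_add σ w 1
      rwa [Nat.add_comm 1 (n + 1)] at h
    rw [e1, e2]
    exact hA _ _
  · have hpow : ∀ (j : ℕ) (w : Fin (n + 1) → Ω) (m : ℕ),
        path_ext σ ((ρ ^ j) w) m = path_ext σ w (m + j) := by
      intro j
      induction j with
      | zero => intro w m; simp
      | succ j ih =>
        intro w m
        rw [pow_succ, Equiv.Perm.mul_apply, ih, hρ, path_ext_nxt]
        rfl
    intro k w i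
    have h1 := hpow (k * (n + 1)) w i.val
    rw [path_ext_lt] at h1
    rw [h1, path_ext_add_mul, path_ext_lt]

end

end Cfsg.Agent.Lib.Helper74.FC
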