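import Mathlib
import Cfsg.Agent.Lib.Helper74.FCORB
import Cfsg.Agent.Lib.Helper74.FCPATH

/-! S4427 project FC (helper74), piece WALK: the twisted walk congruence, deduced from the orbit
counting lemma `orbit_dvd`, the path expansion `path_sum` and the rotation `rot`
(filled in by helper17). -/

set_option autoImplicit false

namespace Cfsg.Agent.Lib.Helper74.FC

open Cfsg
open Classical

noncomputable section

/-- Twisted walk congruence. -/
theorem walk {Ω : Type*} [Fintype Ω] (σ : Equiv.Perm Ω) (A : Matrix Ω Ω ℤ)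
    (hA : ∀ x y, A (σ x) (σ y) = A x y) (p : ℕ) (hp : p.Prime) (o' e : ℕ)
    (hfix : ∀ x, (σ ^ o') x ≠ x) (hord : σ ^ (o' * p ^ e) = 1) (N' j : ℕ) :
    ((p : ℤ) ^ (j + 1)) ∣ ∑ x, (A ^ (N' * p ^ j)) x (σ x) := by
  have hσ : ∀ x, σ x ≠ x := by
    intro x hx
    apply hfix x
    have hk : ∀ k : ℕ, (σ ^ k) x = x := by
      intro k
      induction k with
      | zero => simp
      | succ k ih => rw [pow_succ, Equiv.Perm.mul_apply, hx, ih]
    exact hk o'
  rcases Nat.eq_zero_or_pos (N' * p ^ j) with h0 | hpos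
  · rw [h0, pow_zero]
    have hz : ∑ x, (1 : Matrix Ω Ω ℤ) x (σ x) = 0 := by
      apply Finset.sum_eq_zero
      intro x _
      rw [Matrix.one_apply_ne (hσ x).symm]
    rw [hz]; exact dvd_zero _
  · obtain ⟨n, hn⟩ : ∃ n, N' * p ^ j = n + 1 := ⟨N' * p ^ j - 1, by omega⟩
    rw [hn, ← path_sum]
    obtain ⟨ρ, hρ1, hρ2⟩ := rot σ A hA n
    refine orbit_dvd ρ (wt σ A) hρ1 p hp (o' * N') e j ?_ ?_
    · intro w hw
      have h1 : o' * N' * p ^ j = o' * (n + 1) := by rw [mul_assoc, hn]
      rw [h1] at hw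
      have h2 := hρ2 o' w 0
      rw [hw] at h2
      exact hfix (w 0) h2.symm
    · have h1 : o' * N' * p ^ (j + e) = (o' * p ^ e) * (n + 1) := by
        rw [pow_add, ← hn]; ring
      rw [h1]
      refine Equiv.ext fun w => ?_
      funext i
      rw [hρ2, hord]
      rfl

end

end Cfsg.Agent.Lib.Helper74.FC
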