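import Mathlib
import Cfsg.Agent.Lib.Helper74.FCDefs
import Cfsg.Agent.Lib.Helper74.FCBAS
import Cfsg.Agent.Lib.Helper74.FCSPEC
import Cfsg.Agent.Lib.Helper74.FCINT
import Cfsg.Agent.Lib.Helper74.FCWALK
import Cfsg.Agent.Lib.Helper74.FCLIM
import Cfsg.Agent.Lib.Helper74.FCTRB
import Cfsg.Agent.Lib.Helper74.FCINJ
import Cfsg.Agent.Lib.Helper74.FCAB
import Cfsg.Agent.Lib.Helper82.PQ
import Cfsg.Agent.Lib.Helper21.Loc2

/-!
# S4427, project FC (helper74): assembly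

`main_fc`: a finite group `G` with subgroups `Q`, `R` of coprime orders prime to `p`,
`|G| = p^a |Q| |R|`, with exactly `|Q| |R|` `p`-regular elements, has a normal subgroup of
order `|Q| |R|`.
-/

set_option autoImplicit false

namespace Cfsg.Agent.Lib.Helper74.FC

open Cfsg
open Classical

noncomputable section

variable {G : Type*} [Group G] [Fintype G]

/-- complex version of `Am`. -/
def Ac (Q R : Subgroup G) : Matrix G G ℂ := (Am Q R).map (Int.cast : ℤ → ℂ)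

/-- spectral data of `Am Q R` (the conclusion of `spec`). -/
structure SD (Q R : Subgroup G) (S : Finset ℂ) (Pr : ℂ → Matrix G G ℂ) : Prop where
  int : ∀ l ∈ S, IsIntegral ℤ l
  sum : ∑ l ∈ S, Pr l = 1
  eig : ∀ l ∈ S, Ac Q R * Pr l = l • Pr l
  orth : ∀ l ∈ S, ∀ m ∈ S, l ≠ m → Pr l * Pr m = 0
  herm : ∀ l ∈ S, (Pr l).conjTranspose = Pr l
  comm : ∀ l ∈ S, ∀ B : Matrix G G ℂ, B * Ac Q R = Ac Q R * B → B * Pr l = Pr l * B

theorem exists_SD (Q R : Subgroup G) : ∃ (S : Finset ℂ) (Pr : ℂ → Matrix G G ℂ), SD Q R S Pr := by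
  obtain ⟨S, Pr, h1, h2, h3, h4, h5, h6⟩ := spec (Am Q R) (Am_symm Q R)
  exact ⟨S, Pr, ⟨h1, h2, h3, h4, h5, h6⟩⟩

variable {Q R : Subgroup G} {S : Finset ℂ} {Pr : ℂ → Matrix G G ℂ}

theorem Ac_eq (Q R : Subgroup G) : Ac Q R = Bc Q * Bc R * Bc Q := Am_map Q R

theorem Lm_Ac (Q R : Subgroup G) (g : G) : Lm g * Ac Q R = Ac Q R * Lm g := by
  rw [Ac_eq, ← mul_assoc, ← mul_assoc, Lm_Bc, mul_assoc (Bc Q), Lm_Bc, ← mul_assoc,
    mul_assoc (Bc Q * Bc R), Lm_Bc, ← mul_assoc]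

theorem SD.idem (sd : SD Q R S Pr) {l : ℂ} (hl : l ∈ S) : Pr l * Pr l = Pr l := by
  have h1 : Pr l * ∑ m ∈ S, Pr m = Pr l := by rw [sd.sum, mul_one]
  rw [Finset.mul_sum, Finset.sum_eq_single l] at h1
  · exact h1
  · intro m hm hml
    exact sd.orth l hl m hm (Ne.symm hml)
  · intro h
    exact absurd hl h

theorem SD.Lm_comm (sd : SD Q R S Pr) {l : ℂ} (hl : l ∈ S) (g : G) :
    Lm g * Pr l = Pr l * Lm g :=
  sd.comm l hl (Lm g) (Lm_Ac Q R g)

theorem SD.Ac_comm (sd : SD Q R S Pr) {l : ℂ} (hl : l ∈ S) :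
    Ac Q R * Pr l = Pr l * Ac Q R :=
  sd.comm l hl (Ac Q R) rfl

theorem SD.pow (sd : SD Q R S Pr) (N : ℕ) : Ac Q R ^ N = ∑ l ∈ S, l ^ N • Pr l := by
  induction N with
  | zero => simp [sd.sum]
  | succ N ih =>
    rw [pow_succ, ih, Finset.sum_mul]
    refine Finset.sum_congr rfl fun l hl => ?_
    rw [Matrix.smul_mul, ← sd.Ac_comm hl, sd.eig l hl, smul_smul, pow_succ]

/-- the projection onto the unit-eigenvalue part. -/
def Pu (M : Ideal AlgInt) (S : Finset ℂ) (Pr : ℂ → Matrix G G ℂ) : Matrix G G ℂ :=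
  ∑ l ∈ S.filter (fun l => ¬ MemLocalIdeal M l), Pr l

variable {M : Ideal AlgInt}

theorem Pu_Lm_comm (sd : SD Q R S Pr) (g : G) :
    Lm g * Pu M S Pr = Pu M S Pr * Lm g := by
  unfold Pu
  rw [Finset.mul_sum, Finset.sum_mul]
  exact Finset.sum_congr rfl fun l hl => sd.Lm_comm (Finset.mem_filter.1 hl).1 g

theorem Pu_idem (sd : SD Q R S Pr) : Pu M S Pr * Pu M S Pr = Pu M S Pr := by
  unfold Pu
  rw [Finset.sum_mul]
  refine Finset.sum_congr rfl fun l hl => ?_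
  have hlS := (Finset.mem_filter.1 hl).1
  rw [Finset.mul_sum, Finset.sum_eq_single l]
  · exact sd.idem hlS
  · intro m hm hml
    exact sd.orth l hlS m (Finset.mem_filter.1 hm).1 (Ne.symm hml)
  · intro h
    exact absurd hl h

theorem Pu_herm (sd : SD Q R S Pr) : (Pu M S Pr).conjTranspose = Pu M S Pr := by
  unfold Pu
  rw [Matrix.conjTranspose_sum]
  exact Finset.sum_congr rfl fun l hl => sd.herm l (Finset.mem_filter.1 hl).1

theorem LmPr_pow (sd : SD Q R S Pr) {l : ℂ} (hl : l ∈ S) (g : G) (k : ℕ) :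
    (Lm g * Pr l) ^ (k + 1) = Lm (g ^ (k + 1)) * Pr l := by
  induction k with
  | zero => simp
  | succ k ih =>
    rw [pow_succ, ih, mul_assoc, ← mul_assoc (Pr l), ← sd.Lm_comm hl g, mul_assoc (Lm g),
      sd.idem hl, ← mul_assoc, Lm_mul, ← pow_succ]

omit [Fintype G] in
theorem mulLeft_pow_apply (g : G) (k : ℕ) (x : G) :
    ((Equiv.mulLeft g) ^ k) x = g ^ k * x := by
  induction k generalizing x with
  | zero => simp
  | succ k ih =>
    rw [pow_succ, Equiv.Perm.mul_apply, ih, Equiv.coe_mulLeft, ← mul_assoc, ← pow_succ]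

/-- power sums of the eigenvalues against `c l = trace (Lm g * Pr l)` are twisted walk counts. -/
theorem powsum_eq (sd : SD Q R S Pr) (g : G) (N : ℕ) :
    ∑ l ∈ S, Matrix.trace (Lm g * Pr l) * l ^ N
      = ((∑ y : G, (Am Q R ^ N) y (g * y) : ℤ) : ℂ) := by
  have h1 : ∑ l ∈ S, Matrix.trace (Lm g * Pr l) * l ^ N = Matrix.trace (Lm g * Ac Q R ^ N) := by
    rw [sd.pow N, Finset.mul_sum, Matrix.trace_sum]
    refine Finset.sum_congr rfl fun l _ => ?_
    rw [Matrix.mul_smul, Matrix.trace_smul, smul_eq_mul, mul_comm]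
  rw [h1, trace_Lm_mul]
  have h2 : Ac Q R ^ N = (Am Q R ^ N).map (Int.cast : ℤ → ℂ) := by
    unfold Ac
    exact (Matrix.map_pow (Am Q R) (Int.castRingHom ℂ) N).symm
  rw [h2]
  push_cast
  rfl

theorem van (sd : SD Q R S Pr) (p : ℕ) (hM : IsPModular p M) (g : G) (hg : p ∣ orderOf g) :
    Matrix.trace (Lm g * Pu M S Pr) = 0 := by
  have hp : p.Prime := hM.1
  have h0 : Matrix.trace (Lm g * Pu M S Pr)
      = ∑ l ∈ S.filter (fun l => ¬ MemLocalIdeal M l), Matrix.trace (Lm g * Pr l) := by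
    unfold Pu
    rw [Finset.mul_sum, Matrix.trace_sum]
  rw [h0]
  refine lim p M hM S sd.int (fun l => Matrix.trace (Lm g * Pr l)) ?_ ?_
  · intro l hl
    refine trace_integral (Lm g * Pr l) (orderOf g) (orderOf_pos g) ?_
    rw [LmPr_pow sd hl, pow_succ, pow_orderOf_eq_one, one_mul]
  · intro N' j _
    obtain ⟨e, o', ho', heq⟩ :=
      Nat.exists_eq_pow_mul_and_not_dvd (orderOf_pos g).ne' p hp.ne_one
    have he : e ≠ 0 := by
      rintro rfl
      rw [pow_zero, one_mul] at heq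
      exact ho' (heq ▸ hg)
    have hfix : ∀ x : G, ((Equiv.mulLeft g) ^ o') x ≠ x := by
      intro x hx
      rw [mulLeft_pow_apply] at hx
      have h1 : g ^ o' = 1 := by
        have := mul_right_cancel (hx.trans (one_mul x).symm)
        exact this
      have h2 : orderOf g ∣ o' := orderOf_dvd_of_pow_eq_one h1
      rw [heq] at h2
      have h3 : p ∣ o' := dvd_trans (dvd_trans (dvd_pow_self p he) (dvd_mul_right _ _)) h2
      exact ho' h3
    have hord : (Equiv.mulLeft g) ^ (o' * p ^ e) = 1 := by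
      ext x
      rw [mulLeft_pow_apply, mul_comm o', ← heq, pow_orderOf_eq_one, one_mul]
      rfl
    have hw := walk (Equiv.mulLeft g) (Am Q R) (fun x y => Am_mul_left Q R g x y) p hp o' e
      hfix hord N' j
    obtain ⟨z, hz⟩ := hw
    refine ⟨z, ?_⟩
    have h3 := powsum_eq sd g (N' * p ^ j)
    simp only [Equiv.coe_mulLeft] at hz
    rw [h3, hz]
    push_cast
    rfl

theorem Bc_mulVec_const (H : Subgroup G) (c : ℂ) :
    Matrix.mulVec (Bc H) (fun _ => c) = fun _ => c * (Nat.card H : ℂ) := by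
  have h1 : (fun _ : G => c) = c • (fun _ : G => (1 : ℂ)) := by
    funext x
    simp
  rw [h1, Matrix.mulVec_smul, Bc_mulVec_one]
  funext x
  simp

theorem Ac_mulVec_one (Q R : Subgroup G) :
    Matrix.mulVec (Ac Q R) (fun _ => (1 : ℂ))
      = fun _ => ((Nat.card Q * Nat.card R * Nat.card Q : ℕ) : ℂ) := by
  rw [Ac_eq, ← Matrix.mulVec_mulVec, ← Matrix.mulVec_mulVec, Bc_mulVec_one, Bc_mulVec_const,
    Bc_mulVec_const]
  funext x
  push_cast
  ring

theorem Pu_mulVec_one (sd : SD Q R S Pr) (p : ℕ) (hM : IsPModular p M)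
    (hpQ : ¬ p ∣ Nat.card Q) (hpR : ¬ p ∣ Nat.card R) :
    Matrix.mulVec (Pu M S Pr) (fun _ => (1 : ℂ)) = fun _ => (1 : ℂ) := by
  have hp : p.Prime := hM.1
  set one : G → ℂ := fun _ => (1 : ℂ) with hone
  set κ : ℂ := ((Nat.card Q * Nat.card R * Nat.card Q : ℕ) : ℂ) with hκ
  have hA : Matrix.mulVec (Ac Q R) one = κ • one := by
    rw [hone, Ac_mulVec_one]
    funext x
    simp [hκ]
  have hz : ∀ l ∈ S, l ≠ κ → Matrix.mulVec (Pr l) one = 0 := by
    intro l hl hlk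
    have h1 : Matrix.mulVec (Ac Q R * Pr l) one = l • Matrix.mulVec (Pr l) one := by
      rw [sd.eig l hl, Matrix.smul_mulVec]
    have h2 : Matrix.mulVec (Ac Q R * Pr l) one = κ • Matrix.mulVec (Pr l) one := by
      rw [sd.Ac_comm hl, ← Matrix.mulVec_mulVec, hA, Matrix.mulVec_smul]
    have h3 : (l - κ) • Matrix.mulVec (Pr l) one = 0 := by
      rw [sub_smul, ← h1, ← h2, sub_self]
    rcases smul_eq_zero.1 h3 with h | h
    · exact absurd (sub_eq_zero.1 h) hlk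
    · exact h
  have hsum : ∑ l ∈ S, Matrix.mulVec (Pr l) one = one := by
    rw [← Matrix.sum_mulVec, sd.sum, Matrix.one_mulVec]
  have hκS : κ ∈ S := by
    by_contra hk
    have h0 : ∑ l ∈ S, Matrix.mulVec (Pr l) one = 0 :=
      Finset.sum_eq_zero fun l hl => hz l hl (fun h => hk (h ▸ hl))
    rw [hsum] at h0
    have := congrFun h0 1
    simp [hone] at this
  have hκ1 : Matrix.mulVec (Pr κ) one = one := by
    rw [Finset.sum_eq_single κ (fun l hl hlk => hz l hl hlk) (fun h => absurd hκS h)] at hsum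
    exact hsum
  have hκM : ¬ MemLocalIdeal M κ := by
    rw [hκ, Cfsg.Agent.Lib.Helper21.locIdeal_natCast_iff hM]
    intro h
    rcases (Nat.Prime.dvd_mul hp).1 h with h | h
    · rcases (Nat.Prime.dvd_mul hp).1 h with h | h
      · exact hpQ h
      · exact hpR h
    · exact hpQ h
  have hκF : κ ∈ S.filter (fun l => ¬ MemLocalIdeal M l) := Finset.mem_filter.2 ⟨hκS, hκM⟩
  unfold Pu
  rw [Matrix.sum_mulVec, Finset.sum_eq_single κ
    (fun l hl hlk => hz l (Finset.mem_filter.1 hl).1 hlk) (fun h => absurd hκF h)]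
  exact hκ1

theorem c4 (sd : SD Q R S Pr) (p : ℕ) (hM : IsPModular p M)
    (hpQ : ¬ p ∣ Nat.card Q) (hpR : ¬ p ∣ Nat.card R) :
    ∑ g : G, Matrix.trace (Lm g * Pu M S Pr) = (Fintype.card G : ℂ) := by
  have h1 : ∀ g : G, Matrix.trace (Lm g * Pu M S Pr) = ∑ y : G, Pu M S Pr y (g * y) :=
    fun g => trace_Lm_mul g _
  simp_rw [h1]
  rw [Finset.sum_comm]
  have h2 : ∀ y : G, ∑ g : G, Pu M S Pr y (g * y) = 1 := by
    intro y
    have h3 : ∑ g : G, Pu M S Pr y (g * y) = ∑ x : G, Pu M S Pr y x :=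
      Fintype.sum_equiv (Equiv.mulRight y) _ _ (fun g => rfl)
    rw [h3]
    have h4 := congrFun (Pu_mulVec_one (M := M) sd p hM hpQ hpR) y
    simp only [Matrix.mulVec, dotProduct, mul_one] at h4
    exact h4
  simp_rw [h2]
  simp

theorem card_ne_zero' (H : Subgroup G) : (Nat.card H : ℂ) ≠ 0 := by
  exact_mod_cast (Nat.card_pos (α := H)).ne'

theorem Em_idem (H : Subgroup G) : Em H * Em H = Em H := by
  unfold Em
  rw [Matrix.smul_mul, Matrix.mul_smul, Bc_sq, smul_smul, smul_smul]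
  congr 1
  field_simp [card_ne_zero' H]

theorem Em_Lm_comm (H : Subgroup G) (g : G) : Lm g * Em H = Em H * Lm g := by
  unfold Em
  rw [Matrix.mul_smul, Matrix.smul_mul, Lm_Bc]

theorem Em_mul_Bc (H : Subgroup G) : Em H * Bc H = Bc H := by
  unfold Em
  rw [Matrix.smul_mul, Bc_sq, smul_smul, inv_mul_cancel₀ (card_ne_zero' H), one_smul]

/-- the partial inverse of `Ac` on the unit part. -/
def Ainv (M : Ideal AlgInt) (S : Finset ℂ) (Pr : ℂ → Matrix G G ℂ) : Matrix G G ℂ :=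
  ∑ l ∈ S.filter (fun l => ¬ MemLocalIdeal M l), l⁻¹ • Pr l

theorem Ainv_mul_Ac (sd : SD Q R S Pr) (p : ℕ) (hM : IsPModular p M) :
    Ainv M S Pr * Ac Q R = Pu M S Pr := by
  unfold Ainv Pu
  rw [Finset.sum_mul]
  refine Finset.sum_congr rfl fun l hl => ?_
  have hlS := (Finset.mem_filter.1 hl).1
  have hl0 : l ≠ 0 := by
    rintro rfl
    exact (Finset.mem_filter.1 hl).2 (Cfsg.Agent.Lib.Helper21.locIdeal_zero hM)
  rw [Matrix.smul_mul, ← sd.Ac_comm hlS, sd.eig l hlS, smul_smul, inv_mul_cancel₀ hl0, one_smul]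

theorem Ac_mul_Ainv (sd : SD Q R S Pr) (p : ℕ) (hM : IsPModular p M) :
    Ac Q R * Ainv M S Pr = Pu M S Pr := by
  unfold Ainv Pu
  rw [Finset.mul_sum]
  refine Finset.sum_congr rfl fun l hl => ?_
  have hlS := (Finset.mem_filter.1 hl).1
  have hl0 : l ≠ 0 := by
    rintro rfl
    exact (Finset.mem_filter.1 hl).2 (Cfsg.Agent.Lib.Helper21.locIdeal_zero hM)
  rw [Matrix.mul_smul, sd.eig l hlS, smul_smul, inv_mul_cancel₀ hl0, one_smul]

theorem Bc_mul_Ac (Q R : Subgroup G) : Bc Q * Ac Q R = (Nat.card Q : ℂ) • Ac Q R := by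
  rw [Ac_eq, ← mul_assoc, ← mul_assoc, Bc_sq, Matrix.smul_mul, Matrix.smul_mul]

theorem Ac_mul_Bc (Q R : Subgroup G) : Ac Q R * Bc Q = (Nat.card Q : ℂ) • Ac Q R := by
  rw [Ac_eq, mul_assoc, Bc_sq, Matrix.mul_smul]

theorem Bc_mul_Pu (sd : SD Q R S Pr) (p : ℕ) (hM : IsPModular p M) :
    Bc Q * Pu M S Pr = (Nat.card Q : ℂ) • Pu M S Pr := by
  rw [← Ac_mul_Ainv sd p hM, ← mul_assoc, Bc_mul_Ac, Matrix.smul_mul]

theorem Pu_mul_Bc (sd : SD Q R S Pr) (p : ℕ) (hM : IsPModular p M) :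
    Pu M S Pr * Bc Q = (Nat.card Q : ℂ) • Pu M S Pr := by
  rw [← Ainv_mul_Ac sd p hM, mul_assoc, Ac_mul_Bc, Matrix.mul_smul]

theorem Pu_mul_Em (sd : SD Q R S Pr) (p : ℕ) (hM : IsPModular p M) :
    Pu M S Pr * Em Q = Pu M S Pr := by
  unfold Em
  rw [Matrix.mul_smul, Pu_mul_Bc sd p hM, smul_smul, inv_mul_cancel₀ (card_ne_zero' Q), one_smul]

theorem c2 (sd : SD Q R S Pr) (p : ℕ) (hM : IsPModular p M) :
    Module.finrank ℂ (Wsp (Pu M S Pr) (Pu M S Pr)) ≤ Module.finrank ℂ (Wsp (Em Q) (Em R)) := by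
  refine inj_le (Pu M S Pr) (Em Q) (Em R) ((Nat.card Q : ℂ) • (Ainv M S Pr * Bc Q)) (Bc R)
    (fun g => Lm_Bc g R) (Pu_mul_Em sd p hM) (Em_mul_Bc R) ?_
  have h1 : Ainv M S Pr * Bc Q * Bc R * (Bc Q * Pu M S Pr) = Pu M S Pr := by
    have h2 : Ainv M S Pr * Bc Q * Bc R * (Bc Q * Pu M S Pr)
        = Ainv M S Pr * (Bc Q * Bc R * Bc Q) * Pu M S Pr := by
      simp only [mul_assoc]
    rw [h2, ← Ac_eq, Ainv_mul_Ac sd p hM, Pu_idem sd]
  rw [Bc_mul_Pu sd p hM, Matrix.mul_smul] at h1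
  rw [Matrix.smul_mul, Matrix.smul_mul]
  exact h1

theorem finrank_Em (Q R : Subgroup G) (hcop : (Nat.card Q).Coprime (Nat.card R)) :
    (Module.finrank ℂ (Wsp (Em Q) (Em R)) : ℂ)
      = (Fintype.card G : ℂ) / ((Nat.card Q : ℂ) * (Nat.card R : ℂ)) := by
  rw [tr_formula (Em Q) (Em R) (Em_idem Q) (Em_idem R) (Em_Lm_comm Q) (Em_Lm_comm R)]
  exact ab_value Q R hcop

theorem finrank_Pu (sd : SD Q R S Pr) :
    (Module.finrank ℂ (Wsp (Pu M S Pr) (Pu M S Pr)) : ℂ)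
      = (∑ g : G, Matrix.trace (Lm g * Pu M S Pr) * Matrix.trace (Lm g⁻¹ * Pu M S Pr))
          / (Fintype.card G : ℂ) :=
  tr_formula (Pu M S Pr) (Pu M S Pr) (Pu_idem sd) (Pu_idem sd) (Pu_Lm_comm sd) (Pu_Lm_comm sd)

/-- the character of the unit part. -/
def Phi (M : Ideal AlgInt) (S : Finset ℂ) (Pr : ℂ → Matrix G G ℂ) (g : G) : ℂ :=
  Matrix.trace (Lm g * Pu M S Pr)

theorem Phi_inv (sd : SD Q R S Pr) (g : G) : Phi M S Pr g⁻¹ = star (Phi M S Pr g) := by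
  unfold Phi
  rw [← Matrix.trace_conjTranspose, Matrix.conjTranspose_mul, Pu_herm sd, Lm_conjTranspose,
    ← Pu_Lm_comm sd]

theorem Phi_eq (sd : SD Q R S Pr) (p : ℕ) (hM : IsPModular p M) (a : ℕ)
    (hpQ : ¬ p ∣ Nat.card Q) (hpR : ¬ p ∣ Nat.card R)
    (hcop : (Nat.card Q).Coprime (Nat.card R))
    (hG : Fintype.card G = p ^ a * (Nat.card Q * Nat.card R))
    (hL : Nat.card {g : G // ¬ p ∣ orderOf g} = Nat.card Q * Nat.card R) (g : G) :
    Phi M S Pr g = if p ∣ orderOf g then 0 else (p : ℂ) ^ a := by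
  have hG0 : (Fintype.card G : ℂ) ≠ 0 := by exact_mod_cast Fintype.card_ne_zero
  have hQ0 := card_ne_zero' Q
  have hR0 := card_ne_zero' R
  have hGc : (Fintype.card G : ℂ) = (p : ℂ) ^ a * ((Nat.card Q : ℂ) * (Nat.card R : ℂ)) := by
    rw [hG]
    push_cast
    ring
  have hn : Module.finrank ℂ (Wsp (Pu M S Pr) (Pu M S Pr)) ≤ p ^ a := by
    have h1 := c2 (M := M) sd p hM
    have h2 := finrank_Em Q R hcop
    have h3 : Module.finrank ℂ (Wsp (Em Q) (Em R)) = p ^ a := by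
      have h4 : (Module.finrank ℂ (Wsp (Em Q) (Em R)) : ℂ) = ((p ^ a : ℕ) : ℂ) := by
        rw [h2, hGc]
        push_cast
        field_simp
      exact_mod_cast h4
    rw [← h3]
    exact h1
  have hsum1 : ∑ g : G, Phi M S Pr g * star (Phi M S Pr g)
      = (Module.finrank ℂ (Wsp (Pu M S Pr) (Pu M S Pr)) : ℂ) * (Fintype.card G : ℂ) := by
    have h1 := finrank_Pu (M := M) sd
    rw [eq_div_iff hG0] at h1
    rw [h1]
    refine Finset.sum_congr rfl fun g _ => ?_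
    rw [← Phi_inv sd]
    rfl
  have hsum2 : ∑ g : G, Phi M S Pr g = (Fintype.card G : ℂ) := c4 sd p hM hpQ hpR
  have hvan : ∀ g : G, p ∣ orderOf g → Phi M S Pr g = 0 := fun g hg => van sd p hM g hg
  generalize Module.finrank ℂ (Wsp (Pu M S Pr) (Pu M S Pr)) = n at hn hsum1
  set δ : G → ℂ := fun g => if p ∣ orderOf g then 0 else (p : ℂ) ^ a with hδ
  have hδsq : ∑ g : G, δ g ^ 2 = (p : ℂ) ^ a * (Fintype.card G : ℂ) := by
    have h1 : ∀ g : G, δ g ^ 2 = if ¬ p ∣ orderOf g then ((p : ℂ) ^ a) ^ 2 else 0 := by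
      intro g
      by_cases hg : p ∣ orderOf g <;> simp [hδ, hg]
    simp_rw [h1]
    rw [Finset.sum_ite, Finset.sum_const_zero, add_zero, Finset.sum_const, nsmul_eq_mul]
    have h2 : (Finset.univ.filter (fun g : G => ¬ p ∣ orderOf g)).card
        = Nat.card Q * Nat.card R := by
      rw [← hL, Nat.card_eq_fintype_card, Fintype.card_subtype]
    rw [h2, hGc]
    push_cast
    ring
  have hstar : star ((p : ℂ) ^ a) = (p : ℂ) ^ a := by simp
  have hkey : ∑ g : G, (Phi M S Pr g - δ g) * star (Phi M S Pr g - δ g)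
      = ((n : ℂ) - (p : ℂ) ^ a) * (Fintype.card G : ℂ) := by
    have h1 : ∀ g : G, (Phi M S Pr g - δ g) * star (Phi M S Pr g - δ g)
        = Phi M S Pr g * star (Phi M S Pr g) - (p : ℂ) ^ a * Phi M S Pr g
          - (p : ℂ) ^ a * star (Phi M S Pr g) + δ g ^ 2 := by
      intro g
      by_cases hg : p ∣ orderOf g
      · simp [hδ, hg, hvan g hg]
      · simp only [hδ, hg, if_false, star_sub, hstar]
        ring
    simp_rw [h1]
    rw [Finset.sum_add_distrib, Finset.sum_sub_distrib, Finset.sum_sub_distrib, ← Finset.mul_sum,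
      ← Finset.mul_sum, hsum1, hδsq, ← star_sum, hsum2]
    simp only [star_natCast]
    ring
  have hnn : ∀ g : G, (Phi M S Pr g - δ g) * star (Phi M S Pr g - δ g)
      = ((Complex.normSq (Phi M S Pr g - δ g) : ℝ) : ℂ) := fun g => Complex.mul_conj _
  simp_rw [hnn] at hkey
  have hreal : ∑ g : G, Complex.normSq (Phi M S Pr g - δ g)
      = ((n : ℝ) - (p : ℝ) ^ a) * (Fintype.card G : ℝ) := by
    exact_mod_cast hkey
  have hle : ∑ g : G, Complex.normSq (Phi M S Pr g - δ g) ≤ 0 := by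
    rw [hreal]
    apply mul_nonpos_of_nonpos_of_nonneg
    · have : (n : ℝ) ≤ (p : ℝ) ^ a := by exact_mod_cast hn
      linarith
    · positivity
  have hzero := (Finset.sum_eq_zero_iff_of_nonneg
    (fun g _ => Complex.normSq_nonneg (Phi M S Pr g - δ g))).1
    (le_antisymm hle (Finset.sum_nonneg fun g _ => Complex.normSq_nonneg _))
  have := Complex.normSq_eq_zero.1 (hzero g (Finset.mem_univ g))
  exact sub_eq_zero.1 this

open ComplexOrder in
theorem LmPu_eq (sd : SD Q R S Pr) (p : ℕ) (hM : IsPModular p M) (a : ℕ)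
    (hpQ : ¬ p ∣ Nat.card Q) (hpR : ¬ p ∣ Nat.card R)
    (hcop : (Nat.card Q).Coprime (Nat.card R))
    (hG : Fintype.card G = p ^ a * (Nat.card Q * Nat.card R))
    (hL : Nat.card {g : G // ¬ p ∣ orderOf g} = Nat.card Q * Nat.card R) (x : G)
    (hx : ¬ p ∣ orderOf x) : Lm x * Pu M S Pr = Pu M S Pr := by
  have hp : p.Prime := hM.1
  have hΦ := Phi_eq sd p hM a hpQ hpR hcop hG hL
  have hΦx : Phi M S Pr x = (p : ℂ) ^ a := by
    rw [hΦ, if_neg hx]
  have hΦx' : Phi M S Pr x⁻¹ = (p : ℂ) ^ a := by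
    rw [hΦ, orderOf_inv, if_neg hx]
  have hΦ1 : Phi M S Pr 1 = (p : ℂ) ^ a := by
    rw [hΦ, orderOf_one, if_neg hp.not_dvd_one]
  have htr : Matrix.trace (Pu M S Pr) = (p : ℂ) ^ a := by
    rw [← hΦ1]
    unfold Phi
    rw [Lm_one, one_mul]
  have h1 : (Lm x * Pu M S Pr - Pu M S Pr).conjTranspose = Lm x⁻¹ * Pu M S Pr - Pu M S Pr := by
    rw [Matrix.conjTranspose_sub, Matrix.conjTranspose_mul, Pu_herm sd, Lm_conjTranspose,
      ← Pu_Lm_comm sd]
  have e1 : Lm x⁻¹ * Pu M S Pr * (Lm x * Pu M S Pr) = Pu M S Pr := by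
    rw [mul_assoc, ← mul_assoc (Pu M S Pr), ← Pu_Lm_comm sd x, mul_assoc (Lm x), Pu_idem sd,
      ← mul_assoc, Lm_mul, inv_mul_cancel, Lm_one, one_mul]
  have e2 : Lm x⁻¹ * Pu M S Pr * Pu M S Pr = Lm x⁻¹ * Pu M S Pr := by
    rw [mul_assoc, Pu_idem sd]
  have e3 : Pu M S Pr * (Lm x * Pu M S Pr) = Lm x * Pu M S Pr := by
    rw [← mul_assoc, ← Pu_Lm_comm sd x, mul_assoc, Pu_idem sd]
  have hY : (Lm x * Pu M S Pr - Pu M S Pr).conjTranspose * (Lm x * Pu M S Pr - Pu M S Pr)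
      = Pu M S Pr - Lm x⁻¹ * Pu M S Pr - Lm x * Pu M S Pr + Pu M S Pr := by
    rw [h1, sub_mul, mul_sub, mul_sub, e1, e2, e3, Pu_idem sd]
    abel
  have htr0 : Matrix.trace ((Lm x * Pu M S Pr - Pu M S Pr).conjTranspose
      * (Lm x * Pu M S Pr - Pu M S Pr)) = 0 := by
    rw [hY, Matrix.trace_add, Matrix.trace_sub, Matrix.trace_sub, htr]
    change (p : ℂ) ^ a - Phi M S Pr x⁻¹ - Phi M S Pr x + (p : ℂ) ^ a = 0
    rw [hΦx, hΦx']
    ring
  exact sub_eq_zero.1 (Matrix.trace_conjTranspose_mul_self_eq_zero_iff.1 htr0)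

/-- **Main theorem of project FC.** -/
theorem main_fc (p : ℕ) [Fact p.Prime] (Q R : Subgroup G) (a : ℕ)
    (hpQ : ¬ p ∣ Nat.card Q) (hpR : ¬ p ∣ Nat.card R)
    (hcop : (Nat.card Q).Coprime (Nat.card R))
    (hG : Fintype.card G = p ^ a * (Nat.card Q * Nat.card R))
    (hL : Nat.card {g : G // ¬ p ∣ orderOf g} = Nat.card Q * Nat.card R) :
    ∃ N : Subgroup G, N.Normal ∧ Nat.card N = Nat.card Q * Nat.card R := by
  obtain ⟨M, hM⟩ := Cfsg.Agent.Lib.Helper82.exists_isPModular p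
  obtain ⟨S, Pr, sd⟩ := exists_SD Q R
  have hp : p.Prime := hM.1
  have hp0 : (p : ℂ) ^ a ≠ 0 := pow_ne_zero _ (by exact_mod_cast hp.ne_zero)
  let K : Subgroup G :=
    { carrier := {g | Lm g * Pu M S Pr = Pu M S Pr}
      one_mem' := by
        show Lm 1 * Pu M S Pr = Pu M S Pr
        rw [Lm_one, one_mul]
      mul_mem' := by
        intro g h hg hh
        have hg' : Lm g * Pu M S Pr = Pu M S Pr := hg
        have hh' : Lm h * Pu M S Pr = Pu M S Pr := hh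
        show Lm (g * h) * Pu M S Pr = Pu M S Pr
        rw [← Lm_mul, mul_assoc, hh', hg']
      inv_mem' := by
        intro g hg
        have hg' : Lm g * Pu M S Pr = Pu M S Pr := hg
        show Lm g⁻¹ * Pu M S Pr = Pu M S Pr
        have h1 : Lm g⁻¹ * (Lm g * Pu M S Pr) = Pu M S Pr := by
          rw [← mul_assoc, Lm_mul, inv_mul_cancel, Lm_one, one_mul]
        rw [hg'] at h1
        exact h1 }
  have hKmem : ∀ g : G, g ∈ K ↔ Lm g * Pu M S Pr = Pu M S Pr := fun g => Iff.rfl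
  have hK : ∀ g : G, g ∈ K ↔ ¬ p ∣ orderOf g := by
    intro g
    constructor
    · intro hg hdvd
      have hg' : Lm g * Pu M S Pr = Pu M S Pr := hg
      have h1 : Phi M S Pr g = Phi M S Pr 1 := by
        unfold Phi
        rw [hg', Lm_one, one_mul]
      rw [Phi_eq sd p hM a hpQ hpR hcop hG hL, Phi_eq sd p hM a hpQ hpR hcop hG hL, if_pos hdvd,
        orderOf_one, if_neg hp.not_dvd_one] at h1
      exact hp0 h1.symm
    · intro hg
      exact LmPu_eq sd p hM a hpQ hpR hcop hG hL g hg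
  refine ⟨K, ⟨?_⟩, ?_⟩
  · intro g hg h
    have hg' : Lm g * Pu M S Pr = Pu M S Pr := hg
    show Lm (h * g * h⁻¹) * Pu M S Pr = Pu M S Pr
    rw [← Lm_mul, ← Lm_mul, mul_assoc, Pu_Lm_comm sd h⁻¹, ← mul_assoc, mul_assoc (Lm h), hg',
      Pu_Lm_comm sd h, mul_assoc, Lm_mul, mul_inv_cancel, Lm_one, mul_one]
  · rw [← hL]
    exact Nat.card_congr (Equiv.subtypeEquivRight hK)

end

end Cfsg.Agent.Lib.Helper74.FC
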