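import Mathlib
import Cfsg.Agent.Lib.Helper78.JQDefs

/-! JQ-RCW (project JQ = S2945, helper78): a normal 2-subgroup `R` normalizing `K` and the
four-group `W` centralizes `W`. -/

set_option autoImplicit false

namespace Cfsg.Agent.Lib.Helper74.JQ

open Cfsg.Agent.Lib.Helper78.JQ Cfsg.Agent.Lib.Helper78.Jc

universe u

theorem rcw : RcwStmt.{u} := by
  intro X _ _ R K O W y hRn hR2 hRK hRW hPO hOW hyK hy3 hyW hW4 hfpf r hr
  classical
  have hrW : ∀ w ∈ W, r * w * r⁻¹ ∈ W := fun w hw =>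
    (Subgroup.mem_normalizer_iff.mp (hRW hr) w).mp hw
  have hyW' : ∀ w ∈ W, y * w * y⁻¹ ∈ W := fun w hw =>
    (Subgroup.mem_normalizer_iff.mp hyW w).mp hw
  set c := r * y * r⁻¹ * y⁻¹ with hc
  have hcR : c ∈ R := by
    have h1 : y * r⁻¹ * y⁻¹ ∈ R := hRn.conj_mem _ (R.inv_mem hr) y
    have h2 : c = r * (y * r⁻¹ * y⁻¹) := by simp [hc, mul_assoc]
    rw [h2]; exact R.mul_mem hr h1
  have hcK : c ∈ K := by
    have h1 : r * y * r⁻¹ ∈ K := (Subgroup.mem_normalizer_iff.mp (hRK hr) y).mp hyK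
    exact K.mul_mem h1 (K.inv_mem hyK)
  have hcO : c ∈ O := by
    have hz : Subgroup.zpowers c ≤ O := by
      apply hPO
      · exact (Subgroup.zpowers_le).mpr hcK
      · exact hR2.to_le ((Subgroup.zpowers_le).mpr hcR)
    exact hz (Subgroup.mem_zpowers c)
  have hcomm : ∀ w ∈ W, r * (y * w * y⁻¹) * r⁻¹ = y * (r * w * r⁻¹) * y⁻¹ := by
    intro w hw
    have h1 := hOW c hcO (y * (r * w * r⁻¹) * y⁻¹) (hyW' _ (hrW w hw))
    have h2 : r * (y * w * y⁻¹) * r⁻¹ = c * (y * (r * w * r⁻¹) * y⁻¹) * c⁻¹ := by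
      simp [hc, mul_assoc]
    rw [h2, h1]; simp [mul_assoc]
  have hcommn : ∀ n : ℕ, ∀ w ∈ W, y ^ n * w * (y ^ n)⁻¹ ∈ W ∧
      r * (y ^ n * w * (y ^ n)⁻¹) * r⁻¹ = y ^ n * (r * w * r⁻¹) * (y ^ n)⁻¹ := by
    intro n
    induction n with
    | zero => intro w hw; simp [hw]
    | succ n ih =>
      intro w hw
      obtain ⟨h1, h2⟩ := ih w hw
      have e : ∀ v : X, y ^ (n + 1) * v * (y ^ (n + 1))⁻¹ = y * (y ^ n * v * (y ^ n)⁻¹) * y⁻¹ := by
        intro v; rw [pow_succ']; simp [mul_assoc]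
      refine ⟨by rw [e]; exact hyW' _ h1, ?_⟩
      rw [e, e, hcomm _ h1, h2]
  intro w hw
  by_cases hw1 : w = 1
  · subst hw1; simp
  have ha : y * w * y⁻¹ ≠ w := fun h => hw1 (hfpf w hw h)
  have hb : y ^ 2 * w * (y ^ 2)⁻¹ ≠ w := by
    intro h
    apply ha
    have h1 : y * (y ^ 2 * w * (y ^ 2)⁻¹) * y⁻¹ = w := by
      have h2 : y * (y ^ 2 * w * (y ^ 2)⁻¹) * y⁻¹ = y ^ 3 * w * (y ^ 3)⁻¹ := by
        rw [pow_succ' y 2]; simp [mul_assoc]
      rw [h2, hy3]; simp
    rw [h] at h1; exact h1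
  have hab : y ^ 2 * w * (y ^ 2)⁻¹ ≠ y * w * y⁻¹ := by
    intro h
    apply ha
    have h' : y⁻¹ * (y ^ 2 * w * (y ^ 2)⁻¹) * y = y⁻¹ * (y * w * y⁻¹) * y := by rw [h]
    simpa [pow_two, mul_assoc] using h'
  have hpow : ∀ (i : ℕ), r * w * r⁻¹ = y ^ i * w * (y ^ i)⁻¹ →
      ∀ n : ℕ, r ^ n * w * (r ^ n)⁻¹ = y ^ (i * n) * w * (y ^ (i * n))⁻¹ := by
    intro i hi n
    induction n with
    | zero => simp
    | succ n ih =>
      have e : r ^ (n + 1) * w * (r ^ (n + 1))⁻¹ = r * (r ^ n * w * (r ^ n)⁻¹) * r⁻¹ := by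
        rw [pow_succ']; simp [mul_assoc]
      rw [e, ih, (hcommn (i * n) w hw).2, hi]
      rw [Nat.mul_succ, pow_add]; simp [mul_assoc]
  obtain ⟨k, hk⟩ := hR2 ⟨r, hr⟩
  have hk' : r ^ 2 ^ k = 1 := by
    have := congrArg Subtype.val hk
    simpa using this
  have hcontra : ∀ i : ℕ, (i = 1 ∨ i = 2) → r * w * r⁻¹ = y ^ i * w * (y ^ i)⁻¹ → False := by
    intro i hi12 hi
    have h1 := hpow i hi (2 ^ k)
    rw [hk'] at h1
    simp only [one_mul, inv_one, mul_one] at h1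
    have h3 : ¬ (3 ∣ i * 2 ^ k) := by
      intro h
      rcases (Nat.Prime.dvd_mul Nat.prime_three).mp h with h | h
      · omega
      · have := Nat.Prime.dvd_of_dvd_pow Nat.prime_three h; omega
    rw [pow_eq_pow_mod (i * 2 ^ k) hy3] at h1
    have h4 : (i * 2 ^ k) % 3 = 1 ∨ (i * 2 ^ k) % 3 = 2 := by omega
    rcases h4 with h4 | h4
    · rw [h4] at h1; simp only [pow_one] at h1; exact ha h1.symm
    · rw [h4] at h1; exact hb h1.symm
  haveI : Fintype ↥W := Fintype.ofFinite _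
  have hcard : Fintype.card ↥W = 4 := by rw [← Nat.card_eq_fintype_card]; exact hW4
  let a0 : ↥W := 1
  let a1 : ↥W := ⟨w, hw⟩
  let a2 : ↥W := ⟨y * w * y⁻¹, hyW' w hw⟩
  let a3 : ↥W := ⟨y ^ 2 * w * (y ^ 2)⁻¹, (hcommn 2 w hw).1⟩
  have hS : ({a0, a1, a2, a3} : Finset ↥W) = Finset.univ := by
    apply Finset.eq_univ_of_card
    rw [hcard]
    rw [Finset.card_insert_of_notMem, Finset.card_insert_of_notMem,
      Finset.card_insert_of_notMem, Finset.card_singleton]
    · simp only [Finset.mem_singleton, a2, a3, Subtype.mk.injEq]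
      exact fun h => hab h.symm
    · simp only [Finset.mem_insert, Finset.mem_singleton, a1, a2, a3, Subtype.mk.injEq]
      rintro (h | h)
      · exact ha h.symm
      · exact hb h.symm
    · simp only [Finset.mem_insert, Finset.mem_singleton, a0, a1, a2, a3]
      rintro (h | h | h)
      · exact hw1 (congrArg Subtype.val h).symm
      · have h' := congrArg Subtype.val h
        simp only [Subgroup.coe_one] at h'
        apply hw1
        have : w = y⁻¹ * (y * w * y⁻¹) * y := by simp [mul_assoc]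
        rw [this, ← h']; simp
      · have h' := congrArg Subtype.val h
        simp only [Subgroup.coe_one] at h'
        apply hw1
        have : w = (y ^ 2)⁻¹ * (y ^ 2 * w * (y ^ 2)⁻¹) * y ^ 2 := by simp [mul_assoc]
        rw [this, ← h']; simp
  have hmem : (⟨r * w * r⁻¹, hrW w hw⟩ : ↥W) ∈ ({a0, a1, a2, a3} : Finset ↥W) := by
    rw [hS]; exact Finset.mem_univ _
  simp only [Finset.mem_insert, Finset.mem_singleton, a0, a1, a2, a3] at hmem
  rcases hmem with h | h | h | h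
  · have h' := congrArg Subtype.val h
    simp only [Subgroup.coe_one] at h'
    exfalso; apply hw1
    have : w = r⁻¹ * (r * w * r⁻¹) * r := by simp [mul_assoc]
    rw [this, h']; simp
  · have h' : r * w * r⁻¹ = w := congrArg Subtype.val h
    calc r * w = r * w * r⁻¹ * r := by simp
      _ = w * r := by rw [h']
  · have h' : r * w * r⁻¹ = y * w * y⁻¹ := congrArg Subtype.val h
    exact (hcontra 1 (Or.inl rfl) (by simpa using h')).elim
  · have h' : r * w * r⁻¹ = y ^ 2 * w * (y ^ 2)⁻¹ := congrArg Subtype.val h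
    exact (hcontra 2 (Or.inr rfl) h').elim

end Cfsg.Agent.Lib.Helper74.JQ
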