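import Mathlib

/-!
# S4429 (character degrees of a simple group of order 7920): arithmetic lemmas
-/

set_option autoImplicit false

namespace Cfsg.Agent.Lib.Helper74.M11

/-- Divisors `d` of 7920 with `d * d ≤ 7920` and `d ≡ ±1 (mod 11)`. -/
theorem arith_deg11 (d : ℕ) (s : ℤ) (hs : s = 1 ∨ s = -1) (hd : d ∣ 7920)
    (hsq : d * d ≤ 7920) (hmod : (d : ℤ) ≡ s [ZMOD 11]) :
    (s = 1 ∧ (d = 1 ∨ d = 12 ∨ d = 45)) ∨ (s = -1 ∧ d = 10) := by
  have hle : d ≤ 88 := by nlinarith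
  have key : ∀ d ∈ Finset.range 89, d ∣ 7920 → (d % 11 = 1 → d = 1 ∨ d = 12 ∨ d = 45) ∧
      (d % 11 = 10 → d = 10) := by
    set_option maxRecDepth 100000 in decide
  have hk := key d (Finset.mem_range.2 (by omega)) hd
  unfold Int.ModEq at hmod
  rcases hs with h | h
  · left
    refine ⟨h, hk.1 ?_⟩
    rw [h] at hmod
    omega
  · right
    refine ⟨h, hk.2 ?_⟩
    rw [h] at hmod
    omega

/-- Divisors `d` of 7920 with `d * d ≤ 7920` and `d ≡ ±1 (mod 5)`. -/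
theorem arith_deg5 (d : ℕ) (s : ℤ) (hs : s = 1 ∨ s = -1) (hd : d ∣ 7920)
    (hsq : d * d ≤ 7920) (hmod : (d : ℤ) ≡ s [ZMOD 5]) :
    (s = 1 ∧ (d = 1 ∨ d = 6 ∨ d = 11 ∨ d = 16 ∨ d = 36 ∨ d = 66)) ∨
      (s = -1 ∧ (d = 4 ∨ d = 9 ∨ d = 24 ∨ d = 44)) := by
  have hle : d ≤ 88 := by nlinarith
  have key : ∀ d ∈ Finset.range 89, d ∣ 7920 →
      (d % 5 = 1 → d = 1 ∨ d = 6 ∨ d = 11 ∨ d = 16 ∨ d = 36 ∨ d = 66) ∧
      (d % 5 = 4 → d = 4 ∨ d = 9 ∨ d = 24 ∨ d = 44) := by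
    set_option maxRecDepth 100000 in decide
  have hk := key d (Finset.mem_range.2 (by omega)) hd
  unfold Int.ModEq at hmod
  rcases hs with h | h
  · left
    refine ⟨h, hk.1 ?_⟩
    rw [h] at hmod
    omega
  · right
    refine ⟨h, hk.2 ?_⟩
    rw [h] at hmod
    omega

/-- Divisors of 7920 that are multiples of 11, with square at most 7920. -/
theorem arith_mul11 (d : ℕ) (hd : d ∣ 7920) (hsq : d * d ≤ 7920) (h11 : 11 ∣ d) :
    d = 11 ∨ d = 22 ∨ d = 33 ∨ d = 44 ∨ d = 55 ∨ d = 66 ∨ d = 88 := by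
  have hle : d ≤ 88 := by nlinarith
  have key : ∀ d ∈ Finset.range 89, d ∣ 7920 → 11 ∣ d →
      d = 11 ∨ d = 22 ∨ d = 33 ∨ d = 44 ∨ d = 55 ∨ d = 66 ∨ d = 88 := by
    set_option maxRecDepth 100000 in decide
  exact key d (Finset.mem_range.2 (by omega)) hd h11

theorem e11_cases (e : ℕ) (h1 : e ≠ 1) (hd : e ∣ 10) : e = 2 ∨ e = 5 ∨ e = 10 := by
  have hle : e ≤ 10 := Nat.le_of_dvd (by norm_num) hd
  interval_cases e <;> simp_all <;> omega

theorem e5_cases (e : ℕ) (h1 : e ≠ 1) (hd : e ∣ 4) : e = 2 ∨ e = 4 := by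
  have hle : e ≤ 4 := Nat.le_of_dvd (by norm_num) hd
  interval_cases e <;> simp_all <;> omega

/-- In the principal 11-block there is a non-trivial non-exceptional character of degree 10. -/
theorem exists10 (e δ a b c d0 : ℕ) (ε : ℤ) (hε : ε = 1 ∨ ε = -1)
    (he : e = 2 ∨ e = 5 ∨ e = 10) (hδ : e ≠ 10 → δ = 1) (hδ1 : δ ≤ 1)
    (hsum : a + b + c + δ = e) (hd : d0 ∣ 7920) (hsq : d0 * d0 ≤ 7920)
    (heq : ε * (d0 : ℤ) = (δ : ℤ) + 12 * (a : ℤ) + 45 * (b : ℤ) - 10 * (c : ℤ)) : 1 ≤ c := by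
  by_contra hc
  have hc0 : c = 0 := by omega
  subst hc0
  have hle : d0 ≤ 88 := by nlinarith
  rcases he with rfl | rfl | rfl
  · have hδ' := hδ (by norm_num)
    subst hδ'
    have h : d0 = 13 ∨ d0 = 46 := by
      rcases hε with rfl | rfl <;> omega
    rcases h with rfl | rfl <;> norm_num at hd
  · have hδ' := hδ (by norm_num)
    subst hδ'
    have h : d0 = 49 ∨ d0 = 82 := by
      rcases hε with rfl | rfl <;> omega
    rcases h with rfl | rfl <;> norm_num at hd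
  · rcases hε with rfl | rfl <;> omega

/-- The two possible shapes of the principal 11-block when `e = 5`. -/
theorem e5_solutions (a b c d0 : ℕ) (ε : ℤ) (hε : ε = 1 ∨ ε = -1) (hsum : a + b + c = 4)
    (hd : d0 ∣ 7920)
    (heq : ε * (d0 : ℤ) = 1 + 12 * (a : ℤ) + 45 * (b : ℤ) - 10 * (c : ℤ))
    (hsq : 2 * d0 ^ 2 + (144 * a + 2025 * b + 100 * c) ≤ 7920) :
    (a = 2 ∧ b = 0 ∧ c = 2 ∧ d0 = 5) ∨ (a = 0 ∧ b = 1 ∧ c = 3 ∧ d0 = 16) := by
  have hle : d0 ≤ 62 := by nlinarith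
  have key : ∀ a ∈ Finset.range 5, ∀ b ∈ Finset.range 5, ∀ d0 ∈ Finset.range 63,
      a + b ≤ 4 → d0 ∣ 7920 →
      (d0 + 10 * (4 - a - b) = 1 + 12 * a + 45 * b ∨
        10 * (4 - a - b) = d0 + 1 + 12 * a + 45 * b) →
      2 * d0 ^ 2 + (144 * a + 2025 * b + 100 * (4 - a - b)) ≤ 7920 →
      (a = 2 ∧ b = 0 ∧ d0 = 5) ∨ (a = 0 ∧ b = 1 ∧ d0 = 16) := by
    set_option maxRecDepth 1000000 in decide
  have hc : c = 4 - a - b := by omega
  subst hc
  have hk := key a (Finset.mem_range.2 (by omega)) b (Finset.mem_range.2 (by omega)) d0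
    (Finset.mem_range.2 (by omega)) (by omega) hd (by rcases hε with rfl | rfl <;> omega) hsq
  rcases hk with ⟨h1, h2, h3⟩ | ⟨h1, h2, h3⟩
  · left
    subst h1 h2
    exact ⟨rfl, rfl, rfl, h3⟩
  · right
    subst h1 h2
    exact ⟨rfl, rfl, rfl, h3⟩

theorem e11_arith (n e : ℕ) (he : e = 2 ∨ e = 5 ∨ e = 10)
    (h : 7920 = (1 + n * 11) * (e * (11 * 1))) : e = 5 := by
  rcases he with rfl | rfl | rfl <;> omega

/-- `e = 2` at the prime 5: the centralizer of a Sylow 5-subgroup has even order. -/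
theorem even_v (n v : ℕ) (h : 7920 = (1 + n * 5) * (2 * (5 * v))) : Even v := by
  have h792 : 792 = (1 + n * 5) * v := by nlinarith
  have hv : v ∣ 792 := ⟨1 + n * 5, by rw [h792]; ring⟩
  have hvle : v ≤ 792 := Nat.le_of_dvd (by norm_num) hv
  have hv0 : 0 < v := Nat.pos_of_dvd_of_pos hv (by norm_num)
  have key : ∀ v ∈ Finset.range 793, v ∣ 792 → (792 / v) % 5 = 1 → v % 2 = 0 := by
    set_option maxRecDepth 1000000 in decide
  have hdiv : 792 / v = 1 + n * 5 := by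
    rw [h792]
    exact Nat.mul_div_cancel _ hv0
  have := key v (Finset.mem_range.2 (by omega)) hv (by rw [hdiv]; omega)
  exact Nat.even_iff.2 this

/-- `e = 4` at the prime 5: the Sylow 5-subgroup is self-centralizing. -/
theorem cent5_num (n v : ℕ) (h : 7920 = (1 + n * 5) * (4 * (5 * v)))
    (h16 : 16 ∣ (1 + n * 5) * 4) (h11 : 11 ∣ (1 + n * 5) * 4) : v = 1 := by
  have h396 : 396 = (1 + n * 5) * v := by nlinarith
  have hm : (1 + n * 5) ∣ 396 := ⟨v, h396⟩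
  have hmle : 1 + n * 5 ≤ 396 := Nat.le_of_dvd (by norm_num) hm
  have key : ∀ m ∈ Finset.range 397, m ∣ 396 → 16 ∣ m * 4 → 11 ∣ m * 4 → m % 5 = 1 → m = 396 := by
    set_option maxRecDepth 1000000 in decide
  have hm396 := key (1 + n * 5) (Finset.mem_range.2 (by omega)) hm h16 h11 (by omega)
  rw [hm396] at h396
  omega

/-- The principal 5-block in case B with `e = 4`. -/
theorem arith_B4 (a b c d : ℕ) (hsum : a + b + c + d = 4)
    (heq : (1 : ℤ) + 16 * (a : ℤ) + 11 * (b : ℤ) + 66 * (c : ℤ) - 44 * (d : ℤ) = 0) :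
    a = 2 ∧ b = 1 ∧ c = 0 ∧ d = 1 := by
  omega

/-- The number of characters of degree 55 from the sum of squares. -/
theorem arith_55 (c : ℕ) (h : 1 * 1 ^ 2 + 3 * 10 ^ 2 + 1 * 11 ^ 2 + 2 * 16 ^ 2 + 1 * 44 ^ 2 +
    1 * 45 ^ 2 + c * 55 ^ 2 = 7920) : c = 1 := by
  omega

end Cfsg.Agent.Lib.Helper74.M11
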