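import Mathlib

/-!
# S1022 (no simple group of order 459648), piece NC (project of helper74; proof by helper20)
-/

set_option autoImplicit false

namespace Cfsg.Agent.Lib.Helper74.NS19

universe u

namespace NCaux

/-- A simple group with a nontrivial central element is cyclic. -/
theorem isCyclic_of_central {G : Type u} [Group G] [IsSimpleGroup G] (y : G) (hy : y ≠ 1)
    (hc : ∀ g : G, y * g = g * y) : IsCyclic G := by
  have hnormal : (Subgroup.zpowers y).Normal := by
    constructor
    intro n hn g
    obtain ⟨k, rfl⟩ := Subgroup.mem_zpowers_iff.mp hn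
    have hcomm : Commute (y ^ k) g := (show Commute y g from hc g).zpow_left k
    have : g * y ^ k * g⁻¹ = y ^ k := by
      rw [← hcomm.eq, mul_inv_cancel_right]
    rw [this]
    exact Subgroup.zpow_mem_zpowers y k
  have htop : Subgroup.zpowers y = ⊤ := by
    rcases hnormal.eq_bot_or_eq_top with h | h
    · exact absurd (Subgroup.zpowers_eq_bot.mp h) hy
    · exact h
  refine ⟨⟨y, fun x => ?_⟩⟩
  have hx : x ∈ Subgroup.zpowers y := by rw [htop]; exact Subgroup.mem_top x
  exact hx

end NCaux

/-- NC: a simple group of order 459648 is not cyclic. -/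
theorem not_cyclic {G : Type u} [Group G] [Finite G] [IsSimpleGroup G]
    (hcard : Nat.card G = 459648) : ¬ IsCyclic G := by
  intro hc
  obtain ⟨g, hg⟩ := hc.exists_generator
  -- the subgroup generated by g ^ 2 is normal, nontrivial and proper
  have hord : orderOf g = 459648 := by
    rw [← hcard]; exact orderOf_eq_card_of_forall_mem_zpowers hg
  have hcomm : ∀ a b : G, a * b = b * a := by
    intro a b
    obtain ⟨i, rfl⟩ := Subgroup.mem_zpowers_iff.mp (hg a)
    obtain ⟨j, rfl⟩ := Subgroup.mem_zpowers_iff.mp (hg b)
    rw [← zpow_add, ← zpow_add, add_comm]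
  have hnormal : (Subgroup.zpowers (g ^ 2)).Normal := by
    constructor
    intro n hn x
    have : x * n * x⁻¹ = n := by rw [hcomm x n, mul_inv_cancel_right]
    rw [this]; exact hn
  have hord2 : orderOf (g ^ 2) = 229824 := by
    rw [orderOf_pow' g (by norm_num), hord]; decide
  rcases hnormal.eq_bot_or_eq_top with h | h
  · have : g ^ 2 = 1 := Subgroup.zpowers_eq_bot.mp h
    rw [this, orderOf_one] at hord2
    omega
  · have h1 : Nat.card (Subgroup.zpowers (g ^ 2)) = 229824 := by
      rw [Nat.card_zpowers, hord2]
    rw [h, Subgroup.card_top, hcard] at h1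
    omega

/-- CT: in a nonabelian simple group no nontrivial element is central. -/
theorem centralizer_ne_top {G : Type u} [Group G] [IsSimpleGroup G] (hG : ¬ IsCyclic G) (y : G)
    (hy : y ≠ 1) : Subgroup.centralizer ({y} : Set G) ≠ ⊤ := by
  intro htop
  apply hG
  apply NCaux.isCyclic_of_central y hy
  intro g
  have hg : g ∈ Subgroup.centralizer ({y} : Set G) := by rw [htop]; exact Subgroup.mem_top g
  exact (Subgroup.mem_centralizer_iff.mp hg) y (Set.mem_singleton y)

end Cfsg.Agent.Lib.Helper74.NS19
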