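import Mathlib
import Cfsg.Agent.Lib.Helper10.BR0
import Cfsg.Agent.Lib.Helper22.DOne2
import Cfsg.Agent.Lib.Helper82.PQ
import Cfsg.Agent.Lib.Helper82.CharCore
import Cfsg.Agent.Lib.Helper83.Ortho
import Cfsg.Agent.Lib.Helper66.BRX4
import Cfsg.Agent.Lib.Helper90.BRX1
import Cfsg.Agent.Lib.Helper92.BRX2
import Cfsg.Agent.Lib.Helper64.BRG5
import Cfsg.Agent.Lib.Helper34.BRG4
import Cfsg.Agent.Lib.Helper6.BRG8
import Cfsg.Agent.Lib.Helper4.BRX7
import Cfsg.Agent.Lib.Helper4.BTV2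
import Cfsg.Agent.Lib.Helper16.BTV1
import Cfsg.Agent.Lib.Helper74.BRG3
import Cfsg.Agent.Lib.Helper74.BTP4
import Cfsg.Agent.Lib.Helper74.NS19F
import Cfsg.Agent.Lib.Helper74.NS19NC
import Cfsg.Agent.Lib.Helper67.BFZCENT
import Cfsg.Agent.Lib.Helper62.Cent4B
import Cfsg.Agent.Lib.Helper79.Blk2
import Cfsg.Agent.Lib.Helper74.M11Ar

/-!
# S4429 (character degrees of a simple group of order 7920), definitions
-/

set_option autoImplicit false
set_option linter.style.haveILetI false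

namespace Cfsg.Agent.Lib.Helper74.M11

open Cfsg
open Cfsg.Agent.Lib.Helper83 (trivIrr)
open Cfsg.Agent.Lib.Helper10.BR (DOut)

universe u

/-- Case A of the principal 11-block: degrees `1, 12, 12, 10, 10, 5, 5`. -/
def CaseA (G : Type u) [Group G] : Prop :=
  (∃ χ : IrrCharacter G, charDegree (χ : G → ℂ) = 5) ∧
  ∀ χ : IrrCharacter G, χ = trivIrr G ∨ charDegree (χ : G → ℂ) = 12 ∨
    charDegree (χ : G → ℂ) = 10 ∨ charDegree (χ : G → ℂ) = 5 ∨ 11 ∣ charDegree (χ : G → ℂ)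

/-- Case B of the principal 11-block: degrees `1, 45, 10, 10, 10, 16, 16`. -/
def CaseB (G : Type u) [Group G] : Prop :=
  (∀ χ : IrrCharacter G, χ = trivIrr G ∨ charDegree (χ : G → ℂ) = 45 ∨
    charDegree (χ : G → ℂ) = 10 ∨ charDegree (χ : G → ℂ) = 16 ∨ 11 ∣ charDegree (χ : G → ℂ)) ∧
  Nat.card {χ : IrrCharacter G // charDegree (χ : G → ℂ) = 45} = 1 ∧
  Nat.card {χ : IrrCharacter G // charDegree (χ : G → ℂ) = 10} = 3 ∧
  Nat.card {χ : IrrCharacter G // charDegree (χ : G → ℂ) = 16} = 2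

end Cfsg.Agent.Lib.Helper74.M11
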