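import Mathlib
import Cfsg.Agent.Lib.Helper10.BR0
import Cfsg.Agent.Lib.Helper22.DOne2
import Cfsg.Agent.Lib.Helper82.PQ
import Cfsg.Agent.Lib.Helper82.CharCore
import Cfsg.Agent.Lib.Helper83.Ortho
import Cfsg.Agent.Lib.Helper66.BRX4
import Cfsg.Agent.Lib.Helper90.BRX1
import Cfsg.Agent.Lib.Helper92.BRX2
import Cfsg.Agent.Lib.Helper64.BRG5
import Cfsg.Agent.Lib.Helper34.BRG4
import Cfsg.Agent.Lib.Helper6.BRG8
import Cfsg.Agent.Lib.Helper4.BRX7
import Cfsg.Agent.Lib.Helper4.BTV2
import Cfsg.Agent.Lib.Helper16.BTV1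
import Cfsg.Agent.Lib.Helper74.BRG3
import Cfsg.Agent.Lib.Helper74.BTP4
import Cfsg.Agent.Lib.Helper74.NS19F
import Cfsg.Agent.Lib.Helper74.NS19NC
import Cfsg.Agent.Lib.Helper67.BFZCENT
import Cfsg.Agent.Lib.Helper62.Cent4B
import Cfsg.Agent.Lib.Helper79.Blk2
import Cfsg.Agent.Lib.Helper74.M11Ar
import Cfsg.Agent.Lib.Helper74.M11Defs

/-!
# S4429 (character degrees of a simple group of order 7920), basic lemmas
-/

set_option autoImplicit false
set_option linter.style.haveILetI false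

namespace Cfsg.Agent.Lib.Helper74.M11

open Cfsg
open Cfsg.Agent.Lib.Helper83 (trivIrr)
open Cfsg.Agent.Lib.Helper10.BR (DOut)

universe u

/-- The trivial character has degree 1. -/
theorem deg_triv {G : Type u} [Group G] :
    charDegree ((trivIrr G : IrrCharacter G) : G → ℂ) = 1 :=
  (Cfsg.Agent.Lib.Helper83.irr_charDegree_eq_one_iff (trivIrr G).2).mpr
    (Cfsg.Agent.Lib.Helper83.trivIrr_apply 1)

/-- Sum of the squares of the degrees. -/
theorem sum_sq {G : Type u} [Group G] [Fintype G] [Fintype (IrrCharacter G)] :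
    ∑ ψ : IrrCharacter G, (charDegree (ψ : G → ℂ)) ^ 2 = Nat.card G := by
  have hsum := Cfsg.Agent.Lib.Helper83.sum_degree_sq (G := G)
  have h : ((∑ ψ : IrrCharacter G, (charDegree (ψ : G → ℂ)) ^ 2 : ℕ) : ℂ) = (Nat.card G : ℂ) := by
    rw [← hsum]
    push_cast
    apply Finset.sum_congr rfl
    intro ψ _
    rw [(Cfsg.Agent.Lib.Helper83.irr_degree ψ.2).2]
  exact_mod_cast h

/-- Degrees divide the group order and have square at most the group order. -/
theorem deg_facts {G : Type u} [Group G] [Fintype G] (χ : IrrCharacter G) :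
    charDegree (χ : G → ℂ) ∣ Nat.card G ∧
      charDegree (χ : G → ℂ) * charDegree (χ : G → ℂ) ≤ Nat.card G := by
  classical
  haveI : Finite (IrrCharacter G) := Cfsg.Agent.Lib.Helper82.finite_irrCharacter G
  letI : Fintype (IrrCharacter G) := Fintype.ofFinite _
  refine ⟨Cfsg.Agent.Lib.Helper82.irr_degree_dvd_card χ, ?_⟩
  have hle : charDegree (χ : G → ℂ) ^ 2 ≤ Nat.card G := by
    rw [← sum_sq (G := G)]
    exact Finset.single_le_sum (f := fun ψ : IrrCharacter G => charDegree (ψ : G → ℂ) ^ 2)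
      (fun _ _ => Nat.zero_le _) (Finset.mem_univ χ)
  nlinarith

/-- A Sylow `p`-subgroup has order `p` when `p` divides the group order exactly once. -/
theorem sylow_card_prime {G : Type u} [Group G] [Finite G] (p : ℕ) [Fact p.Prime]
    (hp : p ∣ Nat.card G) (hp2 : ¬ p ^ 2 ∣ Nat.card G) (P : Sylow p G) : Nat.card P = p := by
  obtain ⟨n, hn⟩ := (IsPGroup.iff_card (p := p) (G := P)).mp P.isPGroup'
  have hdvd : Nat.card P ∣ Nat.card G := Subgroup.card_subgroup_dvd_card (P : Subgroup G)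
  have hpP : p ∣ Nat.card P := P.dvd_card_of_dvd_card hp
  have hp1 : p ≠ 1 := (Fact.out : p.Prime).ne_one
  rw [hn] at hdvd hpP ⊢
  have hn1 : n ≠ 0 := by
    rintro rfl
    rw [pow_zero] at hpP
    exact hp1 (Nat.dvd_one.1 hpP)
  have hn2 : n < 2 := by
    by_contra hge
    push Not at hge
    exact hp2 ((pow_dvd_pow p hge).trans hdvd)
  have : n = 1 := by omega
  subst this
  exact pow_one p

/-- A simple group of order 7920 is not cyclic. -/
theorem not_cyclic7920 {G : Type u} [Group G] [Finite G] [IsSimpleGroup G]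
    (hcard : Nat.card G = 7920) : ¬ IsCyclic G := by
  intro hc
  obtain ⟨g, hg⟩ := hc.exists_generator
  have hord : orderOf g = 7920 := by
    rw [← hcard]; exact orderOf_eq_card_of_forall_mem_zpowers hg
  have hcomm : ∀ a b : G, a * b = b * a := by
    intro a b
    obtain ⟨i, rfl⟩ := Subgroup.mem_zpowers_iff.mp (hg a)
    obtain ⟨j, rfl⟩ := Subgroup.mem_zpowers_iff.mp (hg b)
    rw [← zpow_add, ← zpow_add, add_comm]
  have hnormal : (Subgroup.zpowers (g ^ 2)).Normal := by
    constructor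
    intro n hn x
    have : x * n * x⁻¹ = n := by rw [hcomm x n, mul_inv_cancel_right]
    rw [this]; exact hn
  have hord2 : orderOf (g ^ 2) = 3960 := by
    rw [orderOf_pow' g (by norm_num), hord]; decide
  rcases hnormal.eq_bot_or_eq_top with h | h
  · have : g ^ 2 = 1 := Subgroup.zpowers_eq_bot.mp h
    rw [this, orderOf_one] at hord2
    omega
  · have h1 : Nat.card (Subgroup.zpowers (g ^ 2)) = 3960 := by
      rw [Nat.card_zpowers, hord2]
    rw [h, Subgroup.card_top, hcard] at h1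
    omega

/-- The degree equation of the principal block (Brauer-Dade data at the identity). -/
theorem block_sum {G : Type u} [Group G] [Fintype G] (p : ℕ) (hp3 : 3 ≤ p) (M : Ideal AlgInt)
    (P : Subgroup G) (e : ℕ) (X Y : Set (IrrCharacter G)) (εX : IrrCharacter G → ℤ) (ε : ℤ)
    (hD : DOut G p M P e X Y εX ε) :
    ∃ (S : Finset (IrrCharacter G)) (δ : ℕ),
      (∀ χ, χ ∈ S ↔ χ ∈ X ∧ χ ≠ trivIrr G) ∧
      (trivIrr G ∈ X → δ = 1) ∧ (trivIrr G ∉ X → δ = 0) ∧
      S.card + δ = e ∧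
      ∀ θ ∈ Y, ε * (charDegree (θ : G → ℂ) : ℤ) =
        (δ : ℤ) + ∑ χ ∈ S, εX χ * (charDegree (χ : G → ℂ) : ℤ) := by
  classical
  haveI : Finite (IrrCharacter G) := Cfsg.Agent.Lib.Helper82.finite_irrCharacter G
  letI : Fintype (IrrCharacter G) := Fintype.ofFinite _
  have hXfin : X.Finite := Set.toFinite X
  obtain ⟨S, hSmem⟩ : ∃ S : Finset (IrrCharacter G), ∀ χ, χ ∈ S ↔ χ ∈ X ∧ χ ≠ trivIrr G := by
    refine ⟨hXfin.toFinset.filter (fun χ => χ ≠ trivIrr G), fun χ => ?_⟩
    rw [Finset.mem_filter, Set.Finite.mem_toFinset]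
  have htrivS : trivIrr G ∉ S := fun h => ((hSmem _).1 h).2 rfl
  have hXS : trivIrr G ∈ X → hXfin.toFinset = insert (trivIrr G) S := by
    intro ht
    ext χ
    rw [Finset.mem_insert, hSmem, Set.Finite.mem_toFinset]
    constructor
    · intro h
      by_cases hc : χ = trivIrr G
      · exact Or.inl hc
      · exact Or.inr ⟨h, hc⟩
    · rintro (h | h)
      · rw [h]
        exact ht
      · exact h.1
  have hXS' : trivIrr G ∉ X → hXfin.toFinset = S := by
    intro ht
    ext χ
    rw [hSmem, Set.Finite.mem_toFinset]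
    exact ⟨fun h => ⟨h, fun hc => ht (hc ▸ h)⟩, fun h => h.1⟩
  have hone : ¬ p ∣ orderOf (1 : G) := by
    rw [orderOf_one]
    intro h
    have := Nat.le_of_dvd (by norm_num) h
    omega
  have hd1 : charDegree ((trivIrr G : IrrCharacter G) : G → ℂ) = 1 := deg_triv
  have hεtriv : trivIrr G ∈ X → εX (trivIrr G) = 1 := by
    intro ht
    have h1 := hD.degX _ ht
    rw [hd1] at h1
    rcases hD.signX _ ht with h | h
    · exact h
    · rw [h] at h1
      have h2 := (Int.modEq_iff_dvd.1 h1)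
      have h3 : ((p : ℤ)) ∣ 2 := by
        have h4 : (-1 : ℤ) - ((1 : ℕ) : ℤ) = -2 := by norm_num
        rw [h4] at h2
        exact (dvd_neg.1 h2)
      have h5 := Int.le_of_dvd (by norm_num) h3
      omega
  refine ⟨S, if trivIrr G ∈ X then 1 else 0, hSmem, fun h => if_pos h, fun h => if_neg h, ?_, ?_⟩
  · rw [← hD.cardX, Nat.card_coe_set_eq, Set.ncard_eq_toFinset_card X hXfin]
    by_cases ht : trivIrr G ∈ X
    · rw [if_pos ht, hXS ht, Finset.card_insert_of_notMem htrivS]
    · rw [if_neg ht, hXS' ht, add_zero]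
  · intro θ hθ
    have h1 := hD.t1 θ hθ 1 hone
    rw [finsum_mem_eq_finite_toFinset_sum _ hXfin] at h1
    have h2 : (ε : ℤ) * (charDegree (θ : G → ℂ) : ℤ) =
        ∑ χ ∈ hXfin.toFinset, εX χ * (charDegree (χ : G → ℂ) : ℤ) := by
      have h3 : ((ε * (charDegree (θ : G → ℂ) : ℤ) : ℤ) : ℂ) =
          ((∑ χ ∈ hXfin.toFinset, εX χ * (charDegree (χ : G → ℂ) : ℤ) : ℤ) : ℂ) := by
        push_cast
        rw [← (Cfsg.Agent.Lib.Helper83.irr_degree θ.2).2, h1]
        apply Finset.sum_congr rfl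
        intro χ _
        rw [(Cfsg.Agent.Lib.Helper83.irr_degree χ.2).2]
      exact_mod_cast h3
    rw [h2]
    by_cases ht : trivIrr G ∈ X
    · rw [if_pos ht, hXS ht, Finset.sum_insert htrivS, hεtriv ht, hd1]
      push_cast
      ring
    · rw [if_neg ht, hXS' ht]
      push_cast
      ring

end Cfsg.Agent.Lib.Helper74.M11
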