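import Mathlib
import Cfsg.Agent.Lib.Helper10.BR0
import Cfsg.Agent.Lib.Helper22.DOne2
import Cfsg.Agent.Lib.Helper82.PQ
import Cfsg.Agent.Lib.Helper82.CharCore
import Cfsg.Agent.Lib.Helper83.Ortho
import Cfsg.Agent.Lib.Helper66.BRX4
import Cfsg.Agent.Lib.Helper90.BRX1
import Cfsg.Agent.Lib.Helper92.BRX2
import Cfsg.Agent.Lib.Helper64.BRG5
import Cfsg.Agent.Lib.Helper34.BRG4
import Cfsg.Agent.Lib.Helper6.BRG8
import Cfsg.Agent.Lib.Helper4.BRX7
import Cfsg.Agent.Lib.Helper4.BTV2
import Cfsg.Agent.Lib.Helper16.BTV1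
import Cfsg.Agent.Lib.Helper74.BRG3
import Cfsg.Agent.Lib.Helper74.BTP4
import Cfsg.Agent.Lib.Helper74.NS19F
import Cfsg.Agent.Lib.Helper74.NS19NC
import Cfsg.Agent.Lib.Helper67.BFZCENT
import Cfsg.Agent.Lib.Helper62.Cent4B
import Cfsg.Agent.Lib.Helper79.Blk2
import Cfsg.Agent.Lib.Helper74.M11Ar
import Cfsg.Agent.Lib.Helper74.M11Defs
import Cfsg.Agent.Lib.Helper74.M11BS

/-!
# S4429 (character degrees of a simple group of order 7920), piece A4 (placeholder; project of helper74)
-/

set_option autoImplicit false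
set_option linter.style.haveILetI false

namespace Cfsg.Agent.Lib.Helper74.M11

open Cfsg
open Cfsg.Agent.Lib.Helper83 (trivIrr)
open Cfsg.Agent.Lib.Helper10.BR (DOut)

universe u

/-- A4: case A is incompatible with a principal 5-block with uniform signs. -/
theorem caseA_e4 {G : Type u} [Group G] [Fintype G] (hA : CaseA G)
    (B : Finset (IrrCharacter G)) (s : IrrCharacter G → ℤ) (htriv : trivIrr G ∈ B)
    (hs : ∀ χ ∈ B, s χ = 1 ∨ s χ = -1)
    (hdeg : ∀ χ ∈ B, (charDegree (χ : G → ℂ) : ℤ) ≡ s χ [ZMOD 5])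
    (hsum : ∑ χ ∈ B, s χ * (charDegree (χ : G → ℂ) : ℤ) = 0) : False := by
  classical
  have hd1 : charDegree ((trivIrr G : IrrCharacter G) : G → ℂ) = 1 := deg_triv
  have hst : s (trivIrr G) = 1 := by
    have h1 := hdeg _ htriv
    rw [hd1] at h1
    rcases hs _ htriv with h | h
    · exact h
    · rw [h] at h1
      unfold Int.ModEq at h1
      omega
  have h11 : ∀ χ ∈ B.erase (trivIrr G),
      (11 : ℤ) ∣ s χ * (charDegree (χ : G → ℂ) : ℤ) := by
    intro χ hχ
    have hχB := Finset.mem_of_mem_erase hχ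
    have hne := Finset.ne_of_mem_erase hχ
    have hd := hdeg χ hχB
    apply Dvd.dvd.mul_left
    rcases hA.2 χ with h | h | h | h | h
    · exact absurd h hne
    · rw [h] at hd
      exfalso
      rcases hs χ hχB with h' | h' <;> rw [h'] at hd <;> unfold Int.ModEq at hd <;> omega
    · rw [h] at hd
      exfalso
      rcases hs χ hχB with h' | h' <;> rw [h'] at hd <;> unfold Int.ModEq at hd <;> omega
    · rw [h] at hd
      exfalso
      rcases hs χ hχB with h' | h' <;> rw [h'] at hd <;> unfold Int.ModEq at hd <;> omega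
    · exact_mod_cast h
  have hsplit := Finset.add_sum_erase B
    (fun χ : IrrCharacter G => s χ * (charDegree (χ : G → ℂ) : ℤ)) htriv
  have hdv := Finset.dvd_sum h11
  rw [hsum] at hsplit
  simp only [hst, hd1] at hsplit
  obtain ⟨k, hk⟩ := hdv
  rw [hk] at hsplit
  push_cast at hsplit
  omega

end Cfsg.Agent.Lib.Helper74.M11
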