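import Mathlib
import Cfsg.Agent.Lib.Helper10.BR0
import Cfsg.Agent.Lib.Helper22.DOne2
import Cfsg.Agent.Lib.Helper82.PQ
import Cfsg.Agent.Lib.Helper82.CharCore
import Cfsg.Agent.Lib.Helper83.Ortho
import Cfsg.Agent.Lib.Helper66.BRX4
import Cfsg.Agent.Lib.Helper90.BRX1
import Cfsg.Agent.Lib.Helper92.BRX2
import Cfsg.Agent.Lib.Helper64.BRG5
import Cfsg.Agent.Lib.Helper34.BRG4
import Cfsg.Agent.Lib.Helper6.BRG8
import Cfsg.Agent.Lib.Helper4.BRX7
import Cfsg.Agent.Lib.Helper4.BTV2
import Cfsg.Agent.Lib.Helper16.BTV1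
import Cfsg.Agent.Lib.Helper74.BRG3
import Cfsg.Agent.Lib.Helper74.BTP4
import Cfsg.Agent.Lib.Helper74.NS19F
import Cfsg.Agent.Lib.Helper74.NS19NC
import Cfsg.Agent.Lib.Helper67.BFZCENT
import Cfsg.Agent.Lib.Helper62.Cent4B
import Cfsg.Agent.Lib.Helper79.Blk2
import Cfsg.Agent.Lib.Helper74.M11Ar
import Cfsg.Agent.Lib.Helper74.M11Defs
import Cfsg.Agent.Lib.Helper74.M11BS

/-!
# S4429 (character degrees of a simple group of order 7920), piece IP (placeholder; project of helper74)
-/

set_option autoImplicit false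
set_option linter.style.haveILetI false

namespace Cfsg.Agent.Lib.Helper74.M11

open Cfsg
open Cfsg.Agent.Lib.Helper83 (trivIrr)
open Cfsg.Agent.Lib.Helper10.BR (DOut)

universe u

/-- IP: a character of odd prime degree `p` takes the value `± χ(1)` at an involution whose
class size is prime to `p`. -/
theorem invol_pm {G : Type u} [Group G] [Fintype G] (p : ℕ) (hp : p.Prime) (hp2 : p ≠ 2)
    (χ : IrrCharacter G) (hdeg : charDegree (χ : G → ℂ) = p) (y : G) (hy : y * y = 1)
    (hidx : ¬ p ∣ (Subgroup.centralizer ({y} : Set G)).index) :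
    (χ : G → ℂ) y = (χ : G → ℂ) 1 ∨ (χ : G → ℂ) y = -(χ : G → ℂ) 1 := by
  obtain ⟨a, b, hab, hab1⟩ := Cfsg.Agent.Lib.Helper62.irr_invol χ y hy
  obtain ⟨hpos, h1⟩ := Cfsg.Agent.Lib.Helper83.irr_degree χ.2
  rw [hdeg] at h1
  have hsum : a + b = p := by
    have h7 : ((a + b : ℕ) : ℂ) = (p : ℂ) := by rw [Nat.cast_add, ← hab1, h1]
    exact_mod_cast h7
  have hint := Cfsg.Agent.Lib.Helper82.irr_centralChar_isIntegral χ y
  unfold centralChar at hint
  rw [hab, h1] at hint
  have hp0 : p ≠ 0 := hp.ne_zero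
  have hcase : ∀ c : ℕ, c ≤ p →
      IsIntegral ℤ ((((Subgroup.centralizer ({y} : Set G)).index * c : ℕ) : ℂ) / (p : ℂ)) →
      c = 0 ∨ c = p := by
    intro c hcp h2
    have h3 := Cfsg.Agent.Lib.Helper82.isIntegral_div_imp_dvd _ _ hp0 h2
    have h4 : p ∣ c := (hp.dvd_mul.mp h3).resolve_left hidx
    rcases Nat.eq_zero_or_pos c with h | h
    · exact Or.inl h
    · exact Or.inr (Nat.le_antisymm hcp (Nat.le_of_dvd h h4))
  have hne : a ≠ b := by
    intro h
    have h6 : 2 ∣ p := ⟨a, by omega⟩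
    exact hp2 ((Nat.prime_dvd_prime_iff_eq Nat.prime_two hp).mp h6).symm
  rcases le_total b a with hba | hab'
  · have h2 : IsIntegral ℤ ((((Subgroup.centralizer ({y} : Set G)).index * (a - b) : ℕ) : ℂ) /
        (p : ℂ)) := by
      rw [Nat.cast_mul, Nat.cast_sub hba]
      exact hint
    rcases hcase (a - b) (by omega) h2 with h | h
    · exact absurd (by omega) hne
    · left
      have hb0 : b = 0 := by omega
      rw [hab, h1, ← hsum, hb0]
      simp
  · have h2 : IsIntegral ℤ ((((Subgroup.centralizer ({y} : Set G)).index * (b - a) : ℕ) : ℂ) /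
        (p : ℂ)) := by
      have h8 := hint.neg
      rw [Nat.cast_mul, Nat.cast_sub hab']
      convert h8 using 1
      ring
    rcases hcase (b - a) (by omega) h2 with h | h
    · exact absurd (by omega) hne
    · right
      have ha0 : a = 0 := by omega
      rw [hab, h1, ← hsum, ha0]
      simp

end Cfsg.Agent.Lib.Helper74.M11
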