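import Mathlib
import Cfsg.Agent.Lib.Helper10.BR0
import Cfsg.Agent.Lib.Helper22.DOne2
import Cfsg.Agent.Lib.Helper82.PQ
import Cfsg.Agent.Lib.Helper82.CharCore
import Cfsg.Agent.Lib.Helper83.Ortho
import Cfsg.Agent.Lib.Helper66.BRX4
import Cfsg.Agent.Lib.Helper90.BRX1
import Cfsg.Agent.Lib.Helper92.BRX2
import Cfsg.Agent.Lib.Helper64.BRG5
import Cfsg.Agent.Lib.Helper34.BRG4
import Cfsg.Agent.Lib.Helper6.BRG8
import Cfsg.Agent.Lib.Helper4.BRX7
import Cfsg.Agent.Lib.Helper4.BTV2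
import Cfsg.Agent.Lib.Helper16.BTV1
import Cfsg.Agent.Lib.Helper74.BRG3
import Cfsg.Agent.Lib.Helper74.BTP4
import Cfsg.Agent.Lib.Helper74.NS19F
import Cfsg.Agent.Lib.Helper74.NS19NC
import Cfsg.Agent.Lib.Helper67.BFZCENT
import Cfsg.Agent.Lib.Helper62.Cent4B
import Cfsg.Agent.Lib.Helper79.Blk2
import Cfsg.Agent.Lib.Helper74.M11Ar
import Cfsg.Agent.Lib.Helper74.M11Defs
import Cfsg.Agent.Lib.Helper74.M11BS

/-!
# S4429 (character degrees of a simple group of order 7920), piece NP (project of helper74)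
-/

set_option autoImplicit false
set_option linter.style.haveILetI false

namespace Cfsg.Agent.Lib.Helper74.M11

open Cfsg
open Cfsg.Agent.Lib.Helper83 (trivIrr)
open Cfsg.Agent.Lib.Helper10.BR (DOut)

universe u

/-- NP: a non-trivial irreducible character of a non-abelian simple group does not take the
values `± χ(1)` at a non-identity element. -/
theorem no_pm {G : Type u} [Group G] [Fintype G] [IsSimpleGroup G] (hG : ¬ IsCyclic G)
    (χ : IrrCharacter G) (hχ : χ ≠ trivIrr G) (y : G) (hy : y ≠ 1) :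
    (χ : G → ℂ) y ≠ (χ : G → ℂ) 1 ∧ (χ : G → ℂ) y ≠ -(χ : G → ℂ) 1 := by
  refine ⟨Cfsg.Agent.Lib.Helper74.NS19.faithful hG χ hχ y hy, fun h => ?_⟩
  have hfaith : ∀ g : G, χ.1 g = χ.1 1 → g = 1 := by
    intro g hg
    by_contra hg1
    exact Cfsg.Agent.Lib.Helper74.NS19.faithful hG χ hχ g hg1 hg
  have hz : y ∈ Subgroup.center G :=
    Cfsg.Agent.Lib.Helper67.BFT.central_of_norm χ hfaith y (-1) (by simp)
      (by rw [neg_one_mul]; exact h)
  apply Cfsg.Agent.Lib.Helper74.NS19.centralizer_ne_top hG y hy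
  rw [eq_top_iff]
  intro g _
  rw [Subgroup.mem_centralizer_iff]
  intro z hz'
  rw [Set.mem_singleton_iff] at hz'
  subst hz'
  exact (Subgroup.mem_center_iff.1 hz g).symm

end Cfsg.Agent.Lib.Helper74.M11
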