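import Mathlib
import Cfsg.Agent.Lib.Helper10.BR0
import Cfsg.Agent.Lib.Helper22.DOne2
import Cfsg.Agent.Lib.Helper82.PQ
import Cfsg.Agent.Lib.Helper82.CharCore
import Cfsg.Agent.Lib.Helper83.Ortho
import Cfsg.Agent.Lib.Helper66.BRX4
import Cfsg.Agent.Lib.Helper90.BRX1
import Cfsg.Agent.Lib.Helper92.BRX2
import Cfsg.Agent.Lib.Helper64.BRG5
import Cfsg.Agent.Lib.Helper34.BRG4
import Cfsg.Agent.Lib.Helper6.BRG8
import Cfsg.Agent.Lib.Helper4.BRX7
import Cfsg.Agent.Lib.Helper4.BTV2
import Cfsg.Agent.Lib.Helper16.BTV1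
import Cfsg.Agent.Lib.Helper74.BRG3
import Cfsg.Agent.Lib.Helper74.BTP4
import Cfsg.Agent.Lib.Helper74.NS19F
import Cfsg.Agent.Lib.Helper74.NS19NC
import Cfsg.Agent.Lib.Helper67.BFZCENT
import Cfsg.Agent.Lib.Helper62.Cent4B
import Cfsg.Agent.Lib.Helper79.Blk2
import Cfsg.Agent.Lib.Helper74.M11Ar
import Cfsg.Agent.Lib.Helper74.M11Defs
import Cfsg.Agent.Lib.Helper74.M11BS
import Cfsg.Agent.Lib.Helper74.M11IP
import Cfsg.Agent.Lib.Helper74.M11NP

/-!
# S4429 (character degrees of a simple group of order 7920), piece AE (placeholder; project of helper74)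
-/

set_option autoImplicit false
set_option linter.style.haveILetI false

namespace Cfsg.Agent.Lib.Helper74.M11

open Cfsg
open Cfsg.Agent.Lib.Helper83 (trivIrr)
open Cfsg.Agent.Lib.Helper10.BR (DOut)

universe u

/-- AE: a simple group of order 7920 with an irreducible character of degree 5 cannot have a
Sylow 5-subgroup with centralizer of even order. -/
theorem caseA_even {G : Type u} [Group G] [Fintype G] [IsSimpleGroup G] (hG : ¬ IsCyclic G)
    (hcard : Nat.card G = 7920) (hA : ∃ χ : IrrCharacter G, charDegree (χ : G → ℂ) = 5)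
    (P : Sylow 5 G) (hP : Nat.card P = 5) (v : ℕ)
    (hv : Nat.card (Subgroup.centralizer ((P : Subgroup G) : Set G)) = 5 * v)
    (hev : Even v) : False := by
  classical
  obtain ⟨χ, hdeg⟩ := hA
  have h2 : 2 ∣ Nat.card (Subgroup.centralizer ((P : Subgroup G) : Set G)) := by
    rw [hv]
    exact Dvd.dvd.mul_left hev.two_dvd 5
  haveI : Fact (Nat.Prime 2) := ⟨Nat.prime_two⟩
  obtain ⟨x, hx⟩ := exists_prime_orderOf_dvd_card'
    (G := Subgroup.centralizer ((P : Subgroup G) : Set G)) 2 h2
  have hy1 : (x : G) ≠ 1 := by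
    intro h
    have hx1 : x = 1 := Subtype.ext h
    rw [hx1, orderOf_one] at hx
    omega
  have hyy : (x : G) * (x : G) = 1 := by
    have h := pow_orderOf_eq_one x
    rw [hx, pow_two] at h
    have h' := congrArg Subtype.val h
    simpa using h'
  have hxc := x.2
  have hPle : (P : Subgroup G) ≤ Subgroup.centralizer ({(x : G)} : Set G) := by
    intro g hg
    rw [Subgroup.mem_centralizer_iff]
    intro h hh
    rw [Set.mem_singleton_iff] at hh
    subst hh
    have := Subgroup.mem_centralizer_iff.mp hxc g hg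
    exact this.symm
  have h5 : 5 ∣ Nat.card (Subgroup.centralizer ({(x : G)} : Set G)) := by
    have := Subgroup.card_dvd_of_le hPle
    rwa [hP] at this
  have hidx : ¬ 5 ∣ (Subgroup.centralizer ({(x : G)} : Set G)).index := by
    intro h
    have hmul := Subgroup.card_mul_index (Subgroup.centralizer ({(x : G)} : Set G))
    rw [hcard] at hmul
    have : 5 * 5 ∣ 7920 := by
      rw [← hmul]
      exact Nat.mul_dvd_mul h5 h
    omega
  have hne : χ ≠ trivIrr G := by
    intro h
    rw [h, deg_triv] at hdeg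
    omega
  have h1 := invol_pm 5 (by norm_num) (by norm_num) χ hdeg (x : G) hyy hidx
  have h2' := no_pm hG χ hne (x : G) hy1
  rcases h1 with h | h
  · exact h2'.1 h
  · exact h2'.2 h

end Cfsg.Agent.Lib.Helper74.M11
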