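import Mathlib
import Cfsg.Agent.Lib.Helper10.BR0
import Cfsg.Agent.Lib.Helper22.DOne2
import Cfsg.Agent.Lib.Helper82.PQ
import Cfsg.Agent.Lib.Helper82.CharCore
import Cfsg.Agent.Lib.Helper83.Ortho
import Cfsg.Agent.Lib.Helper66.BRX4
import Cfsg.Agent.Lib.Helper90.BRX1
import Cfsg.Agent.Lib.Helper92.BRX2
import Cfsg.Agent.Lib.Helper64.BRG5
import Cfsg.Agent.Lib.Helper34.BRG4
import Cfsg.Agent.Lib.Helper6.BRG8
import Cfsg.Agent.Lib.Helper4.BRX7
import Cfsg.Agent.Lib.Helper4.BTV2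
import Cfsg.Agent.Lib.Helper16.BTV1
import Cfsg.Agent.Lib.Helper74.BRG3
import Cfsg.Agent.Lib.Helper74.BTP4
import Cfsg.Agent.Lib.Helper74.NS19F
import Cfsg.Agent.Lib.Helper74.NS19NC
import Cfsg.Agent.Lib.Helper67.BFZCENT
import Cfsg.Agent.Lib.Helper62.Cent4B
import Cfsg.Agent.Lib.Helper79.Blk2
import Cfsg.Agent.Lib.Helper74.M11Ar
import Cfsg.Agent.Lib.Helper74.M11Defs
import Cfsg.Agent.Lib.Helper74.M11BS

/-!
# S4429 (character degrees of a simple group of order 7920), piece B2 (placeholder; project of helper74)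
-/

set_option autoImplicit false
set_option linter.style.haveILetI false

namespace Cfsg.Agent.Lib.Helper74.M11

open Cfsg
open Cfsg.Agent.Lib.Helper83 (trivIrr)
open Cfsg.Agent.Lib.Helper10.BR (DOut)

universe u

/-- B2: case B is incompatible with `e = 2` at the prime 5. -/
theorem caseB_e2 {G : Type u} [Group G] [Fintype G] [IsSimpleGroup G] (hG : ¬ IsCyclic G)
    (hcard : Nat.card G = 7920) (hB : CaseB G) (M : Ideal AlgInt) (hM : IsPModular 5 M)
    (P : Subgroup G) (hP : Nat.card P = 5) (X Y : Set (IrrCharacter G))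
    (εX : IrrCharacter G → ℤ) (ε : ℤ) (hD : DOut G 5 M P 2 X Y εX ε) : False := by
  classical
  obtain ⟨htX, -⟩ := Cfsg.Agent.Lib.Helper10.BR.triv_mem hG 5 M hM P hP 2 X Y εX ε hD (by norm_num)
  obtain ⟨S, δ, hS, hδ1, -, hSc, hsum⟩ := block_sum 5 (by norm_num) M P 2 X Y εX ε hD
  have hδ : δ = 1 := hδ1 htX
  subst hδ
  have hSc1 : S.card = 1 := by omega
  obtain ⟨χ, hχS⟩ := Finset.card_eq_one.mp hSc1
  have hχ : χ ∈ X ∧ χ ≠ trivIrr G := (hS χ).mp (by rw [hχS]; exact Finset.mem_singleton_self χ)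
  have hYc : Nat.card Y = 2 := by
    rw [hD.cardY]
  have hYne : Nonempty Y := by
    by_contra h
    rw [not_nonempty_iff] at h
    rw [Nat.card_of_isEmpty] at hYc
    omega
  obtain ⟨⟨θ, hθ⟩⟩ := hYne
  have hθne : θ ≠ trivIrr G := by
    intro h
    rw [h] at hθ
    exact Set.disjoint_left.mp hD.disj htX hθ
  have hdegθ := hD.degY θ hθ
  have hdegχ := hD.degX χ hχ.1
  have hsθ := hsum θ hθ
  rw [hχS, Finset.sum_singleton] at hsθ
  unfold Int.ModEq at hdegθ hdegχ
  have h11θ : 11 ∣ charDegree (θ : G → ℂ) := by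
    rcases hB.1 θ with h | h | h | h | h
    · exact absurd h hθne
    · rw [h] at hdegθ
      rcases hD.signY with h' | h' <;> rw [h'] at hdegθ <;> omega
    · rw [h] at hdegθ
      rcases hD.signY with h' | h' <;> rw [h'] at hdegθ <;> omega
    · rw [h] at hdegθ
      rcases hD.signY with h' | h' <;> rw [h'] at hdegθ <;> omega
    · exact h
  obtain ⟨k, hk⟩ := h11θ
  rw [hk] at hsθ
  rcases hB.1 χ with h | h | h | h | h
  · exact hχ.2 h
  · rw [h] at hdegχ
    rcases hD.signX χ hχ.1 with h' | h' <;> rw [h'] at hdegχ <;> omega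
  · rw [h] at hdegχ
    rcases hD.signX χ hχ.1 with h' | h' <;> rw [h'] at hdegχ <;> omega
  · rw [h] at hdegχ hsθ
    rcases hD.signX χ hχ.1 with h' | h'
    · rw [h'] at hsθ
      rcases hD.signY with h'' | h'' <;> rw [h''] at hsθ <;> push_cast at hsθ <;> omega
    · rw [h'] at hdegχ
      omega
  · obtain ⟨m, hm⟩ := h
    rw [hm] at hsθ
    rcases hD.signX χ hχ.1 with h' | h' <;> rcases hD.signY with h'' | h'' <;>
      rw [h', h''] at hsθ <;> push_cast at hsθ <;> omega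

end Cfsg.Agent.Lib.Helper74.M11
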