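import Mathlib
import Cfsg.Agent.Lib.Helper10.BR0
import Cfsg.Agent.Lib.Helper22.DOne2
import Cfsg.Agent.Lib.Helper82.PQ
import Cfsg.Agent.Lib.Helper82.CharCore
import Cfsg.Agent.Lib.Helper83.Ortho
import Cfsg.Agent.Lib.Helper66.BRX4
import Cfsg.Agent.Lib.Helper90.BRX1
import Cfsg.Agent.Lib.Helper92.BRX2
import Cfsg.Agent.Lib.Helper64.BRG5
import Cfsg.Agent.Lib.Helper34.BRG4
import Cfsg.Agent.Lib.Helper6.BRG8
import Cfsg.Agent.Lib.Helper4.BRX7
import Cfsg.Agent.Lib.Helper4.BTV2
import Cfsg.Agent.Lib.Helper16.BTV1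
import Cfsg.Agent.Lib.Helper74.BRG3
import Cfsg.Agent.Lib.Helper74.BTP4
import Cfsg.Agent.Lib.Helper74.NS19F
import Cfsg.Agent.Lib.Helper74.NS19NC
import Cfsg.Agent.Lib.Helper67.BFZCENT
import Cfsg.Agent.Lib.Helper62.Cent4B
import Cfsg.Agent.Lib.Helper79.Blk2
import Cfsg.Agent.Lib.Helper74.M11Ar
import Cfsg.Agent.Lib.Helper74.M11Defs
import Cfsg.Agent.Lib.Helper74.M11BS

/-!
# S4429 (character degrees of a simple group of order 7920), piece BC (placeholder; project of helper74)
-/

set_option autoImplicit false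
set_option linter.style.haveILetI false

namespace Cfsg.Agent.Lib.Helper74.M11

open Cfsg
open Cfsg.Agent.Lib.Helper83 (trivIrr)
open Cfsg.Agent.Lib.Helper10.BR (DOut)

universe u

/-- BC: in case B a principal 5-block with uniform signs and 5 members has degrees
`1, 16, 16, 11, 44`. -/
theorem caseB_counts {G : Type u} [Group G] [Fintype G] [IsSimpleGroup G] (hG : ¬ IsCyclic G)
    (hcard : Nat.card G = 7920) (hB : CaseB G)
    (B : Finset (IrrCharacter G)) (s : IrrCharacter G → ℤ) (htriv : trivIrr G ∈ B)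
    (hBcard : B.card = 5)
    (hs : ∀ χ ∈ B, s χ = 1 ∨ s χ = -1)
    (hdeg : ∀ χ ∈ B, (charDegree (χ : G → ℂ) : ℤ) ≡ s χ [ZMOD 5])
    (hsum : ∑ χ ∈ B, s χ * (charDegree (χ : G → ℂ) : ℤ) = 0) :
    (∀ χ ∈ B, χ = trivIrr G ∨ charDegree (χ : G → ℂ) = 16 ∨ charDegree (χ : G → ℂ) = 11 ∨
      charDegree (χ : G → ℂ) = 44) ∧
    (B.filter (fun χ : IrrCharacter G => charDegree (χ : G → ℂ) = 16)).card = 2 ∧
    (B.filter (fun χ : IrrCharacter G => charDegree (χ : G → ℂ) = 11)).card = 1 ∧
    (B.filter (fun χ : IrrCharacter G => charDegree (χ : G → ℂ) = 44)).card = 1 := by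
  classical
  have hperf := Cfsg.Agent.Lib.Helper10.BR.X4.perfect hG
  have hd1 : charDegree ((trivIrr G : IrrCharacter G) : G → ℂ) = 1 := deg_triv
  -- degrees of the non-trivial members of B
  have hBdeg : ∀ χ ∈ B, χ ≠ trivIrr G →
      (s χ = 1 ∧ (charDegree (χ : G → ℂ) = 16 ∨ charDegree (χ : G → ℂ) = 11 ∨
        charDegree (χ : G → ℂ) = 66)) ∨ (s χ = -1 ∧ charDegree (χ : G → ℂ) = 44) := by
    intro χ hχ hne
    have h2 := Cfsg.Agent.Lib.Helper10.BR.X4.two_le_deg hperf χ hne
    have hf := deg_facts χ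
    rw [hcard] at hf
    have hcase := hB.1 χ
    rcases arith_deg5 _ _ (hs χ hχ) hf.1 hf.2 (hdeg χ hχ) with
      ⟨h1, h | h | h | h | h | h⟩ | ⟨h1, h | h | h | h⟩
    · omega
    · rcases hcase with hc | hc | hc | hc | hc
      · exact absurd hc hne
      · omega
      · omega
      · omega
      · omega
    · exact Or.inl ⟨h1, Or.inr (Or.inl h)⟩
    · exact Or.inl ⟨h1, Or.inl h⟩
    · rcases hcase with hc | hc | hc | hc | hc
      · exact absurd hc hne
      · omega
      · omega
      · omega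
      · omega
    · exact Or.inl ⟨h1, Or.inr (Or.inr h)⟩
    · rcases hcase with hc | hc | hc | hc | hc
      · exact absurd hc hne
      · omega
      · omega
      · omega
      · omega
    · rcases hcase with hc | hc | hc | hc | hc
      · exact absurd hc hne
      · omega
      · omega
      · omega
      · omega
    · rcases hcase with hc | hc | hc | hc | hc
      · exact absurd hc hne
      · omega
      · omega
      · omega
      · omega
    · exact Or.inr ⟨h1, h⟩
  obtain ⟨S, hS⟩ : ∃ S : Finset (IrrCharacter G), S = B.erase (trivIrr G) := ⟨_, rfl⟩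
  have hSmem : ∀ χ, χ ∈ S ↔ χ ≠ trivIrr G ∧ χ ∈ B := by
    intro χ
    rw [hS, Finset.mem_erase]
  have hScard : S.card = 4 := by
    rw [hS, Finset.card_erase_of_mem htriv, hBcard]
  have hBS : B = insert (trivIrr G) S := by
    rw [hS, Finset.insert_erase htriv]
  have htrivS : trivIrr G ∉ S := fun h => ((hSmem _).1 h).1 rfl
  have hSdeg : ∀ χ ∈ S,
      (s χ = 1 ∧ (charDegree (χ : G → ℂ) = 16 ∨ charDegree (χ : G → ℂ) = 11 ∨
        charDegree (χ : G → ℂ) = 66)) ∨ (s χ = -1 ∧ charDegree (χ : G → ℂ) = 44) :=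
    fun χ hχ => hBdeg χ ((hSmem χ).1 hχ).2 ((hSmem χ).1 hχ).1
  have hmaps : ∀ χ ∈ S, (fun χ : IrrCharacter G => charDegree (χ : G → ℂ)) χ ∈
      ({16, 11, 66, 44} : Finset ℕ) := by
    intro χ hχ
    rcases hSdeg χ hχ with ⟨_, h | h | h⟩ | ⟨_, h⟩ <;> simp [h]
  have hstriv : s (trivIrr G) = 1 := by
    have h1 := hdeg _ htriv
    rw [hd1] at h1
    rcases hs _ htriv with h | h
    · exact h
    · rw [h] at h1
      unfold Int.ModEq at h1
      omega
  -- the count
  have hcount : (S.filter (fun χ : IrrCharacter G => charDegree (χ : G → ℂ) = 16)).card +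
      (S.filter (fun χ : IrrCharacter G => charDegree (χ : G → ℂ) = 11)).card +
      (S.filter (fun χ : IrrCharacter G => charDegree (χ : G → ℂ) = 66)).card +
      (S.filter (fun χ : IrrCharacter G => charDegree (χ : G → ℂ) = 44)).card = 4 := by
    have h := Finset.card_eq_sum_card_fiberwise
      (f := fun χ : IrrCharacter G => charDegree (χ : G → ℂ)) (s := S)
      (t := ({16, 11, 66, 44} : Finset ℕ)) hmaps
    rw [Finset.sum_insert (by decide), Finset.sum_insert (by decide),
      Finset.sum_insert (by decide), Finset.sum_singleton] at h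
    omega
  -- the signed sum
  have hSsum : ∑ χ ∈ S, s χ * (charDegree (χ : G → ℂ) : ℤ) =
      16 * ((S.filter (fun χ : IrrCharacter G => charDegree (χ : G → ℂ) = 16)).card : ℤ)
        + 11 * ((S.filter (fun χ : IrrCharacter G => charDegree (χ : G → ℂ) = 11)).card : ℤ)
        + 66 * ((S.filter (fun χ : IrrCharacter G => charDegree (χ : G → ℂ) = 66)).card : ℤ)
        - 44 * ((S.filter (fun χ : IrrCharacter G => charDegree (χ : G → ℂ) = 44)).card : ℤ) := by
    rw [← Finset.sum_fiberwise_of_maps_to hmaps]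
    rw [Finset.sum_insert (by decide), Finset.sum_insert (by decide),
      Finset.sum_insert (by decide), Finset.sum_singleton]
    have hc : ∀ (b : ℕ) (c : ℤ), (∀ χ ∈ S, charDegree (χ : G → ℂ) = b →
        s χ * (charDegree (χ : G → ℂ) : ℤ) = c) →
        ∑ χ ∈ S.filter (fun χ : IrrCharacter G => charDegree (χ : G → ℂ) = b),
          s χ * (charDegree (χ : G → ℂ) : ℤ) =
        c * ((S.filter (fun χ : IrrCharacter G => charDegree (χ : G → ℂ) = b)).card : ℤ) := by
      intro b c hbc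
      rw [Finset.sum_congr rfl (fun χ hχ => hbc χ (Finset.mem_filter.1 hχ).1
        (Finset.mem_filter.1 hχ).2), Finset.sum_const, nsmul_eq_mul, mul_comm]
    rw [hc 16 16, hc 11 11, hc 66 66, hc 44 (-44)]
    · ring
    · intro χ hχ hb
      rcases hSdeg χ hχ with ⟨hs1, h⟩ | ⟨hs1, h⟩
      · omega
      · rw [hs1, hb]
        norm_num
    · intro χ hχ hb
      rcases hSdeg χ hχ with ⟨hs1, h⟩ | ⟨hs1, h⟩
      · rw [hs1, hb]
        norm_num
      · omega
    · intro χ hχ hb
      rcases hSdeg χ hχ with ⟨hs1, h⟩ | ⟨hs1, h⟩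
      · rw [hs1, hb]
        norm_num
      · omega
    · intro χ hχ hb
      rcases hSdeg χ hχ with ⟨hs1, h⟩ | ⟨hs1, h⟩
      · rw [hs1, hb]
        norm_num
      · omega
  have heq : (1 : ℤ) +
      16 * ((S.filter (fun χ : IrrCharacter G => charDegree (χ : G → ℂ) = 16)).card : ℤ)
        + 11 * ((S.filter (fun χ : IrrCharacter G => charDegree (χ : G → ℂ) = 11)).card : ℤ)
        + 66 * ((S.filter (fun χ : IrrCharacter G => charDegree (χ : G → ℂ) = 66)).card : ℤ)
        - 44 * ((S.filter (fun χ : IrrCharacter G => charDegree (χ : G → ℂ) = 44)).card : ℤ)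
      = 0 := by
    have h := hsum
    rw [hBS, Finset.sum_insert htrivS, hSsum, hstriv, hd1] at h
    push_cast at h
    linarith
  obtain ⟨ha, hb, hc, hd⟩ := arith_B4 _ _ _ _ hcount heq
  have hfilt : ∀ n : ℕ, n ≠ 1 →
      B.filter (fun χ : IrrCharacter G => charDegree (χ : G → ℂ) = n) =
        S.filter (fun χ : IrrCharacter G => charDegree (χ : G → ℂ) = n) := by
    intro n hn
    ext χ
    rw [Finset.mem_filter, Finset.mem_filter, hSmem]
    constructor
    · rintro ⟨h1, h2⟩
      refine ⟨⟨?_, h1⟩, h2⟩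
      intro h
      rw [h, hd1] at h2
      exact hn h2.symm
    · rintro ⟨⟨-, h1⟩, h2⟩
      exact ⟨h1, h2⟩
  refine ⟨?_, ?_, ?_, ?_⟩
  · intro χ hχ
    by_cases hne : χ = trivIrr G
    · exact Or.inl hne
    · right
      have hχS : χ ∈ S := (hSmem χ).2 ⟨hne, hχ⟩
      rcases hSdeg χ hχS with ⟨_, h | h | h⟩ | ⟨_, h⟩
      · exact Or.inl h
      · exact Or.inr (Or.inl h)
      · exfalso
        have hmem : χ ∈ S.filter (fun χ : IrrCharacter G => charDegree (χ : G → ℂ) = 66) :=
          Finset.mem_filter.2 ⟨hχS, h⟩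
        rw [Finset.card_eq_zero.1 hc] at hmem
        exact Finset.notMem_empty _ hmem
      · exact Or.inr (Or.inr h)
  · rw [hfilt 16 (by norm_num)]
    exact ha
  · rw [hfilt 11 (by norm_num)]
    exact hb
  · rw [hfilt 44 (by norm_num)]
    exact hd

end Cfsg.Agent.Lib.Helper74.M11
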