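import Mathlib
import Cfsg.Agent.Lib.Helper10.BR0
import Cfsg.Agent.Lib.Helper22.DOne2
import Cfsg.Agent.Lib.Helper82.PQ
import Cfsg.Agent.Lib.Helper82.CharCore
import Cfsg.Agent.Lib.Helper83.Ortho
import Cfsg.Agent.Lib.Helper66.BRX4
import Cfsg.Agent.Lib.Helper90.BRX1
import Cfsg.Agent.Lib.Helper92.BRX2
import Cfsg.Agent.Lib.Helper64.BRG5
import Cfsg.Agent.Lib.Helper34.BRG4
import Cfsg.Agent.Lib.Helper6.BRG8
import Cfsg.Agent.Lib.Helper4.BRX7
import Cfsg.Agent.Lib.Helper4.BTV2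
import Cfsg.Agent.Lib.Helper16.BTV1
import Cfsg.Agent.Lib.Helper74.BRG3
import Cfsg.Agent.Lib.Helper74.BTP4
import Cfsg.Agent.Lib.Helper74.NS19F
import Cfsg.Agent.Lib.Helper74.NS19NC
import Cfsg.Agent.Lib.Helper67.BFZCENT
import Cfsg.Agent.Lib.Helper62.Cent4B
import Cfsg.Agent.Lib.Helper79.Blk2
import Cfsg.Agent.Lib.Helper74.M11Ar
import Cfsg.Agent.Lib.Helper74.M11Defs
import Cfsg.Agent.Lib.Helper74.M11BS

/-!
# S4429 (character degrees of a simple group of order 7920), piece C11 (placeholder; project of helper74)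
-/

set_option autoImplicit false
set_option linter.style.haveILetI false

namespace Cfsg.Agent.Lib.Helper74.M11

open Cfsg
open Cfsg.Agent.Lib.Helper83 (trivIrr)
open Cfsg.Agent.Lib.Helper10.BR (DOut)

universe u

/-- C11: degrees of the non-trivial non-exceptional characters of the principal 11-block. -/
theorem counts11 {G : Type u} [Group G] [Fintype G] [IsSimpleGroup G] (hG : ¬ IsCyclic G)
    (hcard : Nat.card G = 7920) (M : Ideal AlgInt) (P : Subgroup G) (e : ℕ)
    (X Y : Set (IrrCharacter G)) (εX : IrrCharacter G → ℤ) (ε : ℤ)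
    (hD : DOut G 11 M P e X Y εX ε) (S : Finset (IrrCharacter G))
    (hS : ∀ χ ∈ S, χ ∈ X ∧ χ ≠ trivIrr G) :
    (∀ χ ∈ S, (εX χ = 1 ∧ (charDegree (χ : G → ℂ) = 12 ∨ charDegree (χ : G → ℂ) = 45)) ∨
      (εX χ = -1 ∧ charDegree (χ : G → ℂ) = 10)) ∧
    (S.filter (fun χ : IrrCharacter G => charDegree (χ : G → ℂ) = 12)).card +
      (S.filter (fun χ : IrrCharacter G => charDegree (χ : G → ℂ) = 45)).card +
      (S.filter (fun χ : IrrCharacter G => charDegree (χ : G → ℂ) = 10)).card = S.card ∧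
    ∑ χ ∈ S, εX χ * (charDegree (χ : G → ℂ) : ℤ) =
      12 * ((S.filter (fun χ : IrrCharacter G => charDegree (χ : G → ℂ) = 12)).card : ℤ)
      + 45 * ((S.filter (fun χ : IrrCharacter G => charDegree (χ : G → ℂ) = 45)).card : ℤ)
      - 10 * ((S.filter (fun χ : IrrCharacter G => charDegree (χ : G → ℂ) = 10)).card : ℤ) ∧
    ∑ χ ∈ S, charDegree (χ : G → ℂ) ^ 2 =
      144 * (S.filter (fun χ : IrrCharacter G => charDegree (χ : G → ℂ) = 12)).card
      + 2025 * (S.filter (fun χ : IrrCharacter G => charDegree (χ : G → ℂ) = 45)).card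
      + 100 * (S.filter (fun χ : IrrCharacter G => charDegree (χ : G → ℂ) = 10)).card := by
  classical
  have hperf := Cfsg.Agent.Lib.Helper10.BR.X4.perfect hG
  have hSdeg : ∀ χ ∈ S, (εX χ = 1 ∧ (charDegree (χ : G → ℂ) = 12 ∨ charDegree (χ : G → ℂ) = 45)) ∨
      (εX χ = -1 ∧ charDegree (χ : G → ℂ) = 10) := by
    intro χ hχ
    obtain ⟨hX, hne⟩ := hS χ hχ
    have h2 := Cfsg.Agent.Lib.Helper10.BR.X4.two_le_deg hperf χ hne
    have hf := deg_facts χ
    rw [hcard] at hf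
    rcases arith_deg11 _ _ (hD.signX χ hX) hf.1 hf.2 (hD.degX χ hX) with
      ⟨hs, h | h | h⟩ | ⟨hs, h⟩
    · omega
    · exact Or.inl ⟨hs, Or.inl h⟩
    · exact Or.inl ⟨hs, Or.inr h⟩
    · exact Or.inr ⟨hs, h⟩
  have hmaps : ∀ χ ∈ S, (fun χ : IrrCharacter G => charDegree (χ : G → ℂ)) χ ∈
      ({12, 45, 10} : Finset ℕ) := by
    intro χ hχ
    rcases hSdeg χ hχ with ⟨_, h | h⟩ | ⟨_, h⟩ <;> simp [h]
  refine ⟨hSdeg, ?_, ?_, ?_⟩
  · have h := Finset.card_eq_sum_card_fiberwise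
      (f := fun χ : IrrCharacter G => charDegree (χ : G → ℂ)) (s := S)
      (t := ({12, 45, 10} : Finset ℕ)) hmaps
    rw [Finset.sum_insert (by decide), Finset.sum_insert (by decide), Finset.sum_singleton] at h
    omega
  · rw [← Finset.sum_fiberwise_of_maps_to hmaps]
    rw [Finset.sum_insert (by decide), Finset.sum_insert (by decide), Finset.sum_singleton]
    have hc : ∀ (b : ℕ) (c : ℤ), (∀ χ ∈ S, charDegree (χ : G → ℂ) = b →
        εX χ * (charDegree (χ : G → ℂ) : ℤ) = c) →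
        ∑ χ ∈ S.filter (fun χ : IrrCharacter G => charDegree (χ : G → ℂ) = b),
          εX χ * (charDegree (χ : G → ℂ) : ℤ) =
        c * ((S.filter (fun χ : IrrCharacter G => charDegree (χ : G → ℂ) = b)).card : ℤ) := by
      intro b c hbc
      rw [Finset.sum_congr rfl (fun χ hχ => hbc χ (Finset.mem_filter.1 hχ).1
        (Finset.mem_filter.1 hχ).2), Finset.sum_const, nsmul_eq_mul, mul_comm]
    rw [hc 12 12, hc 45 45, hc 10 (-10)]
    · ring
    · intro χ hχ hb
      rcases hSdeg χ hχ with ⟨hs, h⟩ | ⟨hs, h⟩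
      · omega
      · rw [hs, hb]
        norm_num
    · intro χ hχ hb
      rcases hSdeg χ hχ with ⟨hs, h⟩ | ⟨hs, h⟩
      · rw [hs, hb]
        norm_num
      · omega
    · intro χ hχ hb
      rcases hSdeg χ hχ with ⟨hs, h⟩ | ⟨hs, h⟩
      · rw [hs, hb]
        norm_num
      · omega
  · rw [← Finset.sum_fiberwise_of_maps_to hmaps]
    rw [Finset.sum_insert (by decide), Finset.sum_insert (by decide), Finset.sum_singleton]
    have hc : ∀ (b : ℕ),
        ∑ χ ∈ S.filter (fun χ : IrrCharacter G => charDegree (χ : G → ℂ) = b),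
          charDegree (χ : G → ℂ) ^ 2 =
        b ^ 2 * (S.filter (fun χ : IrrCharacter G => charDegree (χ : G → ℂ) = b)).card := by
      intro b
      rw [Finset.sum_congr rfl (fun χ hχ => by rw [(Finset.mem_filter.1 hχ).2]),
        Finset.sum_const, smul_eq_mul, mul_comm]
    rw [hc 12, hc 45, hc 10]
    norm_num
    ring

end Cfsg.Agent.Lib.Helper74.M11
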