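import Mathlib
import Cfsg.Agent.Lib.Helper10.BR0
import Cfsg.Agent.Lib.Helper22.DOne2
import Cfsg.Agent.Lib.Helper82.PQ
import Cfsg.Agent.Lib.Helper82.CharCore
import Cfsg.Agent.Lib.Helper83.Ortho
import Cfsg.Agent.Lib.Helper66.BRX4
import Cfsg.Agent.Lib.Helper90.BRX1
import Cfsg.Agent.Lib.Helper92.BRX2
import Cfsg.Agent.Lib.Helper64.BRG5
import Cfsg.Agent.Lib.Helper34.BRG4
import Cfsg.Agent.Lib.Helper6.BRG8
import Cfsg.Agent.Lib.Helper4.BRX7
import Cfsg.Agent.Lib.Helper4.BTV2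
import Cfsg.Agent.Lib.Helper16.BTV1
import Cfsg.Agent.Lib.Helper74.BRG3
import Cfsg.Agent.Lib.Helper74.BTP4
import Cfsg.Agent.Lib.Helper74.NS19F
import Cfsg.Agent.Lib.Helper74.NS19NC
import Cfsg.Agent.Lib.Helper67.BFZCENT
import Cfsg.Agent.Lib.Helper62.Cent4B
import Cfsg.Agent.Lib.Helper79.Blk2
import Cfsg.Agent.Lib.Helper74.M11Ar
import Cfsg.Agent.Lib.Helper74.M11Defs
import Cfsg.Agent.Lib.Helper74.M11BS

/-!
# S4429 (character degrees of a simple group of order 7920), piece CD (placeholder; project of helper74)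
-/

set_option autoImplicit false
set_option linter.style.haveILetI false

namespace Cfsg.Agent.Lib.Helper74.M11

open Cfsg
open Cfsg.Agent.Lib.Helper83 (trivIrr)
open Cfsg.Agent.Lib.Helper10.BR (DOut)

universe u

/-- CD: a character of degree `p - 1` with value `-1` on `(P \ 1) × (p'-part of C(P))` forces
`C_G(P) = P` in a simple group. -/
theorem cent_of_deg {G : Type u} [Group G] [Fintype G] [IsSimpleGroup G] (p : ℕ)
    [Fact p.Prime] (P : Sylow p G) (hP : Nat.card P = p) (χ : IrrCharacter G)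
    (hdeg : charDegree (χ : G → ℂ) = p - 1)
    (hval : ∀ x : G, x ∈ (P : Subgroup G) → x ≠ 1 →
      ∀ y : G, y ∈ Subgroup.centralizer ((P : Subgroup G) : Set G) → ¬ p ∣ orderOf y →
        (χ : G → ℂ) (x * y) = -1) :
    Subgroup.centralizer ((P : Subgroup G) : Set G) = (P : Subgroup G) := by
  have hp : p.Prime := Fact.out
  have hdeg' : (χ : G → ℂ) 1 = ((p - 1 : ℕ) : ℂ) := by
    rw [(Cfsg.Agent.Lib.Helper83.irr_degree χ.2).2, hdeg]
  have hker : ∀ y ∈ Subgroup.centralizer ((P : Subgroup G) : Set G), ¬ p ∣ orderOf y →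
      (χ : G → ℂ) y = (χ : G → ℂ) 1 :=
    fun y hy hyp =>
      Cfsg.Agent.Lib.Helper10.BT.ker_val p hp (P : Subgroup G) hP χ hdeg' hval y hy hyp
  have hcore : ∀ M : Subgroup G, M.Normal → (Nat.card M).Coprime p → M = ⊥ := by
    intro M hM hcop
    rcases hM.eq_bot_or_eq_top with h | h
    · exact h
    · exfalso
      rw [h, Subgroup.card_top] at hcop
      have hdvd : p ∣ Nat.card G := by
        rw [← hP]
        exact Subgroup.card_subgroup_dvd_card _
      have h1 : p ∣ Nat.gcd (Nat.card G) p := Nat.dvd_gcd hdvd dvd_rfl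
      rw [Nat.Coprime] at hcop
      rw [hcop] at h1
      exact hp.one_lt.ne' (Nat.dvd_one.1 h1)
  have hne : ∀ x ∈ (P : Subgroup G), x ≠ 1 → (χ : G → ℂ) x ≠ (χ : G → ℂ) 1 := by
    intro x hx hx1 heq
    have h1 := hval x hx hx1 1 (Subgroup.one_mem _)
      (by rw [orderOf_one]; exact hp.not_dvd_one)
    rw [mul_one] at h1
    rw [h1, hdeg'] at heq
    have h2 : ((-1 : ℤ) : ℂ) = (((p - 1 : ℕ) : ℤ) : ℂ) := by
      push_cast
      exact heq
    have h3 : (-1 : ℤ) = ((p - 1 : ℕ) : ℤ) := by exact_mod_cast h2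
    omega
  exact Cfsg.Agent.Lib.Helper10.BT.cent_of_ker p P hP hcore χ hne hker

end Cfsg.Agent.Lib.Helper74.M11
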