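import Mathlib
import Cfsg.Agent.Lib.Helper10.BR0
import Cfsg.Agent.Lib.Helper22.DOne2
import Cfsg.Agent.Lib.Helper82.PQ
import Cfsg.Agent.Lib.Helper82.CharCore
import Cfsg.Agent.Lib.Helper83.Ortho
import Cfsg.Agent.Lib.Helper66.BRX4
import Cfsg.Agent.Lib.Helper90.BRX1
import Cfsg.Agent.Lib.Helper92.BRX2
import Cfsg.Agent.Lib.Helper64.BRG5
import Cfsg.Agent.Lib.Helper34.BRG4
import Cfsg.Agent.Lib.Helper6.BRG8
import Cfsg.Agent.Lib.Helper4.BRX7
import Cfsg.Agent.Lib.Helper4.BTV2
import Cfsg.Agent.Lib.Helper16.BTV1
import Cfsg.Agent.Lib.Helper74.BRG3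
import Cfsg.Agent.Lib.Helper74.BTP4
import Cfsg.Agent.Lib.Helper74.NS19F
import Cfsg.Agent.Lib.Helper74.NS19NC
import Cfsg.Agent.Lib.Helper67.BFZCENT
import Cfsg.Agent.Lib.Helper62.Cent4B
import Cfsg.Agent.Lib.Helper79.Blk2
import Cfsg.Agent.Lib.Helper74.M11Ar
import Cfsg.Agent.Lib.Helper74.M11Defs
import Cfsg.Agent.Lib.Helper74.M11BS

/-!
# S4429 (character degrees of a simple group of order 7920), piece FC (placeholder; project of helper74)
-/

set_option autoImplicit false
set_option linter.style.haveILetI false

namespace Cfsg.Agent.Lib.Helper74.M11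

open Cfsg
open Cfsg.Agent.Lib.Helper83 (trivIrr)
open Cfsg.Agent.Lib.Helper10.BR (DOut)

universe u

/-- FC: the final census of degrees. -/
theorem final_census {G : Type u} [Group G] [Fintype G] [IsSimpleGroup G] (hG : ¬ IsCyclic G)
    (hcard : Nat.card G = 7920) (hB : CaseB G)
    (B : Finset (IrrCharacter G)) (htriv : trivIrr G ∈ B) (hBcard : B.card = 5)
    (hBdeg : ∀ χ ∈ B, χ = trivIrr G ∨ charDegree (χ : G → ℂ) = 16 ∨
      charDegree (χ : G → ℂ) = 11 ∨ charDegree (χ : G → ℂ) = 44)
    (h16 : (B.filter (fun χ : IrrCharacter G => charDegree (χ : G → ℂ) = 16)).card = 2)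
    (h11 : (B.filter (fun χ : IrrCharacter G => charDegree (χ : G → ℂ) = 11)).card = 1)
    (h44 : (B.filter (fun χ : IrrCharacter G => charDegree (χ : G → ℂ) = 44)).card = 1)
    (hout : ∀ χ : IrrCharacter G, χ ∉ B → 5 ∣ charDegree (χ : G → ℂ)) :
    Nat.card (IrrCharacter G) = 10 ∧
    ∀ n : ℕ, Nat.card {χ : IrrCharacter G // charDegree (χ : G → ℂ) = n} =
      (if n = 1 ∨ n = 11 ∨ n = 44 ∨ n = 45 ∨ n = 55 then 1 else if n = 10 then 3
        else if n = 16 then 2 else 0) := by
  classical
  haveI : Finite (IrrCharacter G) := Cfsg.Agent.Lib.Helper82.finite_irrCharacter G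
  letI : Fintype (IrrCharacter G) := Fintype.ofFinite _
  have hperf := Cfsg.Agent.Lib.Helper10.BR.X4.perfect hG
  obtain ⟨hall, h45, h10, h16'⟩ := hB
  have hc : ∀ n : ℕ, Nat.card {χ : IrrCharacter G // charDegree (χ : G → ℂ) = n}
      = (Finset.univ.filter (fun χ : IrrCharacter G => charDegree (χ : G → ℂ) = n)).card := by
    intro n
    rw [Nat.card_eq_fintype_card, Fintype.card_subtype]
  rw [hc 45] at h45
  rw [hc 10] at h10
  rw [hc 16] at h16'
  -- every degree lies in the list
  have hD : ∀ χ : IrrCharacter G, charDegree (χ : G → ℂ) = 1 ∨ charDegree (χ : G → ℂ) = 10 ∨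
      charDegree (χ : G → ℂ) = 11 ∨ charDegree (χ : G → ℂ) = 16 ∨
      charDegree (χ : G → ℂ) = 44 ∨ charDegree (χ : G → ℂ) = 45 ∨
      charDegree (χ : G → ℂ) = 55 := by
    intro χ
    by_cases hχB : χ ∈ B
    · rcases hBdeg χ hχB with h | h | h | h
      · left
        rw [h]
        exact deg_triv
      · right; right; right; left; exact h
      · right; right; left; exact h
      · right; right; right; right; left; exact h
    · have h5 := hout χ hχB
      rcases hall χ with h | h | h | h | h
      · exact absurd (h ▸ htriv) hχB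
      · right; right; right; right; right; left; exact h
      · right; left; exact h
      · exfalso
        rw [h] at h5
        omega
      · have hf := deg_facts χ
        rw [hcard] at hf
        rcases arith_mul11 _ hf.1 hf.2 h with h' | h' | h' | h' | h' | h' | h'
        · exfalso; rw [h'] at h5; omega
        · exfalso; rw [h'] at h5; omega
        · exfalso; rw [h'] at h5; omega
        · exfalso; rw [h'] at h5; omega
        · right; right; right; right; right; right; exact h'
        · exfalso; rw [h'] at h5; omega
        · exfalso; rw [h'] at h5; omega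
  -- the individual counts
  have c1 : (Finset.univ.filter
      (fun χ : IrrCharacter G => charDegree (χ : G → ℂ) = 1)).card = 1 := by
    rw [Finset.card_eq_one]
    refine ⟨trivIrr G, ?_⟩
    ext χ
    simp only [Finset.mem_filter, Finset.mem_univ, true_and, Finset.mem_singleton]
    constructor
    · intro h
      by_contra hne
      have := Cfsg.Agent.Lib.Helper10.BR.X4.two_le_deg hperf χ hne
      omega
    · rintro rfl
      exact deg_triv
  have c11 : (Finset.univ.filter
      (fun χ : IrrCharacter G => charDegree (χ : G → ℂ) = 11)).card = 1 := by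
    rw [← h11]
    congr 1
    ext χ
    simp only [Finset.mem_filter, Finset.mem_univ, true_and]
    constructor
    · intro h
      refine ⟨?_, h⟩
      by_contra hχB
      have := hout χ hχB
      rw [h] at this
      omega
    · exact fun h => h.2
  have c44 : (Finset.univ.filter
      (fun χ : IrrCharacter G => charDegree (χ : G → ℂ) = 44)).card = 1 := by
    rw [← h44]
    congr 1
    ext χ
    simp only [Finset.mem_filter, Finset.mem_univ, true_and]
    constructor
    · intro h
      refine ⟨?_, h⟩
      by_contra hχB
      have := hout χ hχB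
      rw [h] at this
      omega
    · exact fun h => h.2
  -- fiberwise decomposition
  have hmaps : ∀ χ ∈ (Finset.univ : Finset (IrrCharacter G)),
      charDegree (χ : G → ℂ) ∈ ({1, 10, 11, 16, 44, 45, 55} : Finset ℕ) := by
    intro χ _
    simp only [Finset.mem_insert, Finset.mem_singleton]
    exact hD χ
  have hinner : ∀ n : ℕ, ∑ χ ∈ Finset.univ.filter
      (fun χ : IrrCharacter G => charDegree (χ : G → ℂ) = n), charDegree (χ : G → ℂ) ^ 2
      = (Finset.univ.filter
        (fun χ : IrrCharacter G => charDegree (χ : G → ℂ) = n)).card * n ^ 2 := by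
    intro n
    rw [Finset.sum_congr rfl (fun χ hχ => by rw [(Finset.mem_filter.mp hχ).2]),
      Finset.sum_const, smul_eq_mul]
  have hss := sum_sq (G := G)
  rw [hcard] at hss
  have hfib := Finset.sum_fiberwise_of_maps_to
    (g := fun χ : IrrCharacter G => charDegree (χ : G → ℂ)) hmaps
    (fun χ : IrrCharacter G => charDegree (χ : G → ℂ) ^ 2)
  rw [hss] at hfib
  simp only [hinner] at hfib
  rw [Finset.sum_insert (by decide), Finset.sum_insert (by decide), Finset.sum_insert (by decide),
    Finset.sum_insert (by decide), Finset.sum_insert (by decide), Finset.sum_insert (by decide),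
    Finset.sum_singleton, c1, h10, c11, h16', c44, h45] at hfib
  have c55 : (Finset.univ.filter
      (fun χ : IrrCharacter G => charDegree (χ : G → ℂ) = 55)).card = 1 := by
    apply arith_55
    omega
  have hcardfib := Finset.card_eq_sum_card_fiberwise
    (f := fun χ : IrrCharacter G => charDegree (χ : G → ℂ)) hmaps
  rw [Finset.sum_insert (by decide), Finset.sum_insert (by decide), Finset.sum_insert (by decide),
    Finset.sum_insert (by decide), Finset.sum_insert (by decide), Finset.sum_insert (by decide),
    Finset.sum_singleton, c1, h10, c11, h16', c44, h45, c55] at hcardfib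
  refine ⟨?_, ?_⟩
  · rw [Nat.card_eq_fintype_card, ← Finset.card_univ]
    omega
  · intro n
    rw [hc n]
    by_cases h1 : n = 1
    · subst h1
      rw [c1]
      simp
    by_cases hn10 : n = 10
    · subst hn10
      rw [h10]
      simp
    by_cases hn11 : n = 11
    · subst hn11
      rw [c11]
      simp
    by_cases hn16 : n = 16
    · subst hn16
      rw [h16']
      simp
    by_cases hn44 : n = 44
    · subst hn44
      rw [c44]
      simp
    by_cases hn45 : n = 45
    · subst hn45
      rw [h45]
      simp
    by_cases hn55 : n = 55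
    · subst hn55
      rw [c55]
      simp
    have hempty : (Finset.univ.filter
        (fun χ : IrrCharacter G => charDegree (χ : G → ℂ) = n)).card = 0 := by
      rw [Finset.card_eq_zero, Finset.filter_eq_empty_iff]
      intro χ _ h
      rcases hD χ with h' | h' | h' | h' | h' | h' | h' <;> omega
    rw [hempty]
    simp [h1, hn10, hn11, hn16, hn44, hn45, hn55]

end Cfsg.Agent.Lib.Helper74.M11
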