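import Mathlib
import Cfsg.Agent.Lib.Helper10.BR0
import Cfsg.Agent.Lib.Helper22.DOne2
import Cfsg.Agent.Lib.Helper82.PQ
import Cfsg.Agent.Lib.Helper82.CharCore
import Cfsg.Agent.Lib.Helper83.Ortho
import Cfsg.Agent.Lib.Helper66.BRX4
import Cfsg.Agent.Lib.Helper90.BRX1
import Cfsg.Agent.Lib.Helper92.BRX2
import Cfsg.Agent.Lib.Helper64.BRG5
import Cfsg.Agent.Lib.Helper34.BRG4
import Cfsg.Agent.Lib.Helper6.BRG8
import Cfsg.Agent.Lib.Helper4.BRX7
import Cfsg.Agent.Lib.Helper4.BTV2
import Cfsg.Agent.Lib.Helper16.BTV1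
import Cfsg.Agent.Lib.Helper74.BRG3
import Cfsg.Agent.Lib.Helper74.BTP4
import Cfsg.Agent.Lib.Helper74.NS19F
import Cfsg.Agent.Lib.Helper74.NS19NC
import Cfsg.Agent.Lib.Helper67.BFZCENT
import Cfsg.Agent.Lib.Helper62.Cent4B
import Cfsg.Agent.Lib.Helper79.Blk2
import Cfsg.Agent.Lib.Helper74.M11Ar
import Cfsg.Agent.Lib.Helper74.M11Defs
import Cfsg.Agent.Lib.Helper74.M11BS

/-!
# S4429 (character degrees of a simple group of order 7920), piece GB (placeholder; project of helper74)
-/

set_option autoImplicit false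
set_option linter.style.haveILetI false

namespace Cfsg.Agent.Lib.Helper74.M11

open Cfsg
open Cfsg.Agent.Lib.Helper83 (trivIrr)
open Cfsg.Agent.Lib.Helper10.BR (DOut)

universe u

/-- GB: case B from the shape `1, 45, 10, 10, 10 | 16, 16` of the principal 11-block. -/
theorem globalB {G : Type u} [Group G] [Fintype G]
    (X Y : Set (IrrCharacter G))
    (hall : ∀ χ : IrrCharacter G, χ ∈ X ∨ χ ∈ Y ∨ 11 ∣ charDegree (χ : G → ℂ))
    (S : Finset (IrrCharacter G)) (hS : ∀ χ, χ ∈ S ↔ χ ∈ X ∧ χ ≠ trivIrr G)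
    (hSdeg : ∀ χ ∈ S, charDegree (χ : G → ℂ) = 12 ∨ charDegree (χ : G → ℂ) = 45 ∨
      charDegree (χ : G → ℂ) = 10)
    (h12 : (S.filter (fun χ : IrrCharacter G => charDegree (χ : G → ℂ) = 12)).card = 0)
    (h45 : (S.filter (fun χ : IrrCharacter G => charDegree (χ : G → ℂ) = 45)).card = 1)
    (h10 : (S.filter (fun χ : IrrCharacter G => charDegree (χ : G → ℂ) = 10)).card = 3)
    (hY : ∀ θ ∈ Y, charDegree (θ : G → ℂ) = 16) (hcY : Nat.card Y = 2) : CaseB G := by
  have htriv : charDegree ((trivIrr G : IrrCharacter G) : G → ℂ) = 1 := deg_triv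
  have hno12 : ∀ χ ∈ S, charDegree (χ : G → ℂ) ≠ 12 := by
    intro χ hχ h
    have h1 : χ ∈ S.filter (fun χ : IrrCharacter G => charDegree (χ : G → ℂ) = 12) :=
      Finset.mem_filter.2 ⟨hχ, h⟩
    rw [Finset.card_eq_zero.1 h12] at h1
    exact absurd h1 (Finset.notMem_empty _)
  have hSdeg' : ∀ χ ∈ S, charDegree (χ : G → ℂ) = 45 ∨ charDegree (χ : G → ℂ) = 10 := by
    intro χ hχ
    rcases hSdeg χ hχ with h | h | h
    · exact absurd h (hno12 χ hχ)
    · exact Or.inl h
    · exact Or.inr h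
  refine ⟨?_, ?_, ?_, ?_⟩
  · intro χ
    rcases hall χ with h | h | h
    · by_cases ht : χ = trivIrr G
      · exact Or.inl ht
      · rcases hSdeg' χ ((hS χ).2 ⟨h, ht⟩) with h1 | h1
        · exact Or.inr (Or.inl h1)
        · exact Or.inr (Or.inr (Or.inl h1))
    · exact Or.inr (Or.inr (Or.inr (Or.inl (hY χ h))))
    · exact Or.inr (Or.inr (Or.inr (Or.inr h)))
  · rw [← h45]
    refine Nat.subtype_card _ (fun χ => ?_)
    rw [Finset.mem_filter]
    constructor
    · exact fun h => h.2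
    · intro h
      refine ⟨?_, h⟩
      rcases hall χ with h1 | h1 | h1
      · refine (hS χ).2 ⟨h1, ?_⟩
        intro ht
        rw [ht, htriv] at h
        omega
      · have := hY χ h1
        omega
      · rw [h] at h1
        omega
  · rw [← h10]
    refine Nat.subtype_card _ (fun χ => ?_)
    rw [Finset.mem_filter]
    constructor
    · exact fun h => h.2
    · intro h
      refine ⟨?_, h⟩
      rcases hall χ with h1 | h1 | h1
      · refine (hS χ).2 ⟨h1, ?_⟩
        intro ht
        rw [ht, htriv] at h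
        omega
      · have := hY χ h1
        omega
      · rw [h] at h1
        omega
  · rw [← hcY]
    refine Nat.card_congr (Equiv.subtypeEquivRight (fun χ => ?_))
    constructor
    · intro h
      rcases hall χ with h1 | h1 | h1
      · exfalso
        by_cases ht : χ = trivIrr G
        · rw [ht, htriv] at h
          omega
        · rcases hSdeg' χ ((hS χ).2 ⟨h1, ht⟩) with h2 | h2 <;> omega
      · exact h1
      · exfalso
        rw [h] at h1
        omega
    · exact fun h => hY χ h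

end Cfsg.Agent.Lib.Helper74.M11
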