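import Mathlib
import Cfsg.Agent.Lib.Helper10.BR0
import Cfsg.Agent.Lib.Helper22.DOne2
import Cfsg.Agent.Lib.Helper82.PQ
import Cfsg.Agent.Lib.Helper82.CharCore
import Cfsg.Agent.Lib.Helper83.Ortho
import Cfsg.Agent.Lib.Helper66.BRX4
import Cfsg.Agent.Lib.Helper90.BRX1
import Cfsg.Agent.Lib.Helper92.BRX2
import Cfsg.Agent.Lib.Helper64.BRG5
import Cfsg.Agent.Lib.Helper34.BRG4
import Cfsg.Agent.Lib.Helper6.BRG8
import Cfsg.Agent.Lib.Helper4.BRX7
import Cfsg.Agent.Lib.Helper4.BTV2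
import Cfsg.Agent.Lib.Helper16.BTV1
import Cfsg.Agent.Lib.Helper74.BRG3
import Cfsg.Agent.Lib.Helper74.BTP4
import Cfsg.Agent.Lib.Helper74.NS19F
import Cfsg.Agent.Lib.Helper74.NS19NC
import Cfsg.Agent.Lib.Helper67.BFZCENT
import Cfsg.Agent.Lib.Helper62.Cent4B
import Cfsg.Agent.Lib.Helper79.Blk2
import Cfsg.Agent.Lib.Helper74.M11Ar
import Cfsg.Agent.Lib.Helper74.M11Defs
import Cfsg.Agent.Lib.Helper74.M11BS

/-!
# S4429 (character degrees of a simple group of order 7920), piece SQ (project of helper74; proved by helper88)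
-/

set_option autoImplicit false
set_option linter.style.haveILetI false

namespace Cfsg.Agent.Lib.Helper74.M11

open Cfsg
open Cfsg.Agent.Lib.Helper83 (trivIrr)
open Cfsg.Agent.Lib.Helper10.BR (DOut)

universe u

/-- SQ: the squares of the degrees of the characters in the principal block sum to at most
`|G|`. -/
theorem sq_bound {G : Type u} [Group G] [Fintype G] (p : ℕ) (hp : p.Prime) (M : Ideal AlgInt)
    (P : Subgroup G) (e : ℕ) (X Y : Set (IrrCharacter G)) (εX : IrrCharacter G → ℤ) (ε : ℤ)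
    (hD : DOut G p M P e X Y εX ε) (S : Finset (IrrCharacter G)) (hS : ∀ χ ∈ S, χ ∈ X)
    (θ : IrrCharacter G) (hθ : θ ∈ Y) :
    Nat.card Y * charDegree (θ : G → ℂ) ^ 2 + ∑ χ ∈ S, charDegree (χ : G → ℂ) ^ 2 ≤
      Nat.card G := by
  classical
  haveI : Finite (IrrCharacter G) := Cfsg.Agent.Lib.Helper82.finite_irrCharacter G
  letI : Fintype (IrrCharacter G) := Fintype.ofFinite _
  have hYfin : Y.Finite := Set.toFinite Y
  have hdegY : ∀ θ' ∈ Y, charDegree (θ' : G → ℂ) = charDegree (θ : G → ℂ) := by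
    intro θ' hθ'
    have h1 : ¬ p ∣ orderOf (1 : G) := by
      rw [orderOf_one]
      intro h
      exact hp.one_lt.ne' (Nat.dvd_one.1 h)
    have h := hD.regY θ' hθ' θ hθ 1 h1
    have a := (Cfsg.Agent.Lib.Helper83.irr_degree θ'.2).2
    have b := (Cfsg.Agent.Lib.Helper83.irr_degree θ.2).2
    rw [a, b] at h
    exact_mod_cast h
  have hdisj : Disjoint S hYfin.toFinset := by
    rw [Finset.disjoint_left]
    intro χ hχS hχY
    rw [Set.Finite.mem_toFinset] at hχY
    exact Set.disjoint_left.1 hD.disj (hS χ hχS) hχY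
  have hsumY : ∑ χ ∈ hYfin.toFinset, charDegree (χ : G → ℂ) ^ 2 =
      Nat.card Y * charDegree (θ : G → ℂ) ^ 2 := by
    rw [Finset.sum_congr rfl (fun χ hχ => by
      rw [hdegY χ ((Set.Finite.mem_toFinset _).1 hχ)])]
    rw [Finset.sum_const, smul_eq_mul, Nat.card_coe_set_eq,
      Set.ncard_eq_toFinset_card Y hYfin]
  calc Nat.card Y * charDegree (θ : G → ℂ) ^ 2 + ∑ χ ∈ S, charDegree (χ : G → ℂ) ^ 2
      = ∑ χ ∈ S ∪ hYfin.toFinset, charDegree (χ : G → ℂ) ^ 2 := by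
        rw [Finset.sum_union hdisj, hsumY]; ring
    _ ≤ ∑ χ : IrrCharacter G, charDegree (χ : G → ℂ) ^ 2 :=
        Finset.sum_le_sum_of_subset (Finset.subset_univ _)
    _ = Nat.card G := sum_sq

end Cfsg.Agent.Lib.Helper74.M11
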