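import Mathlib
import Cfsg.Agent.Lib.Helper10.BR0
import Cfsg.Agent.Lib.Helper22.DOne2
import Cfsg.Agent.Lib.Helper82.PQ
import Cfsg.Agent.Lib.Helper82.CharCore
import Cfsg.Agent.Lib.Helper83.Ortho
import Cfsg.Agent.Lib.Helper66.BRX4
import Cfsg.Agent.Lib.Helper90.BRX1
import Cfsg.Agent.Lib.Helper92.BRX2
import Cfsg.Agent.Lib.Helper64.BRG5
import Cfsg.Agent.Lib.Helper34.BRG4
import Cfsg.Agent.Lib.Helper6.BRG8
import Cfsg.Agent.Lib.Helper4.BRX7
import Cfsg.Agent.Lib.Helper4.BTV2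
import Cfsg.Agent.Lib.Helper16.BTV1
import Cfsg.Agent.Lib.Helper74.BRG3
import Cfsg.Agent.Lib.Helper74.BTP4
import Cfsg.Agent.Lib.Helper74.NS19F
import Cfsg.Agent.Lib.Helper74.NS19NC
import Cfsg.Agent.Lib.Helper67.BFZCENT
import Cfsg.Agent.Lib.Helper62.Cent4B
import Cfsg.Agent.Lib.Helper79.Blk2
import Cfsg.Agent.Lib.Helper74.M11Ar
import Cfsg.Agent.Lib.Helper74.M11Defs
import Cfsg.Agent.Lib.Helper74.M11BS

/-!
# S4429 (character degrees of a simple group of order 7920), piece UT (placeholder; project of helper74)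
-/

set_option autoImplicit false
set_option linter.style.haveILetI false

namespace Cfsg.Agent.Lib.Helper74.M11

open Cfsg
open Cfsg.Agent.Lib.Helper83 (trivIrr)
open Cfsg.Agent.Lib.Helper10.BR (DOut)

universe u

/-- UT: when `e = p - 1` all characters of the principal block carry a sign `s` with
`χ(1) ≡ s (mod p)`, `χ(x) = s` on `P \ 1` and `Σ s χ(1) = 0`. -/
theorem uniform_t1 {G : Type u} [Group G] [Fintype G] (p : ℕ) (hp : p.Prime) (hp3 : 3 ≤ p)
    (M : Ideal AlgInt) (hM : IsPModular p M) (P : Subgroup G) (hP : Nat.card P = p)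
    (X Y : Set (IrrCharacter G)) (εX : IrrCharacter G → ℤ) (ε : ℤ)
    (hD : DOut G p M P (p - 1) X Y εX ε) :
    ∃ (B : Finset (IrrCharacter G)) (s : IrrCharacter G → ℤ),
      (∀ χ, χ ∈ B ↔ χ ∈ principalBlock M G) ∧ B.card = p ∧
      (∀ χ ∈ B, s χ = 1 ∨ s χ = -1) ∧
      (∀ χ ∈ B, (charDegree (χ : G → ℂ) : ℤ) ≡ s χ [ZMOD p]) ∧
      (∀ χ ∈ B, ∀ x ∈ P, x ≠ 1 → (χ : G → ℂ) x = (s χ : ℂ)) ∧
      ∑ χ ∈ B, s χ * (charDegree (χ : G → ℂ) : ℤ) = 0 := by
  classical
  haveI : Finite (IrrCharacter G) := Cfsg.Agent.Lib.Helper82.finite_irrCharacter G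
  have hXfin : X.Finite := Set.toFinite X
  have hp1 : 1 ≤ p - 1 := by omega
  have hdiv : (p - 1) / (p - 1) = 1 := Nat.div_self (by omega)
  have hcY : Nat.card Y = 1 := by rw [hD.cardY, hdiv]
  obtain ⟨θ, hθ⟩ : ∃ θ, Y = {θ} := by
    rw [Nat.card_coe_set_eq] at hcY
    exact Set.ncard_eq_one.mp hcY
  have hθY : θ ∈ Y := by
    rw [hθ]
    exact Set.mem_singleton θ
  have hθX : θ ∉ X := fun h => Set.disjoint_left.mp hD.disj h hθY
  have hθX' : θ ∉ hXfin.toFinset := by
    rw [Set.Finite.mem_toFinset]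
    exact hθX
  have hone : ¬ p ∣ orderOf (1 : G) := by
    rw [orderOf_one]
    intro h
    have := Nat.le_of_dvd one_pos h
    omega
  have hmemY : ∀ χ : IrrCharacter G, χ ∈ Y ↔ χ = θ := by
    intro χ
    rw [hθ, Set.mem_singleton_iff]
  refine ⟨insert θ hXfin.toFinset, fun χ => if χ ∈ X then εX χ else -ε, ?_, ?_, ?_, ?_, ?_, ?_⟩
  · intro χ
    rw [Finset.mem_insert, Set.Finite.mem_toFinset, hD.block, Set.mem_union, hmemY]
    tauto
  · rw [Finset.card_insert_of_notMem hθX']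
    have hc : hXfin.toFinset.card = p - 1 := by
      rw [← hD.cardX, Nat.card_coe_set_eq, Set.ncard_eq_toFinset_card X hXfin]
    omega
  · intro χ hχ
    by_cases hX : χ ∈ X
    · simp only [if_pos hX]
      exact hD.signX χ hX
    · simp only [if_neg hX]
      rcases hD.signY with h | h
      · right
        rw [h]
      · left
        rw [h]
        norm_num
  · intro χ hχ
    rw [Finset.mem_insert, Set.Finite.mem_toFinset] at hχ
    by_cases hX : χ ∈ X
    · simp only [if_pos hX]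
      exact hD.degX χ hX
    · simp only [if_neg hX]
      have hχθ : χ = θ := by tauto
      have h1 := hD.degY θ hθY
      rw [hχθ]
      refine h1.trans ?_
      rw [Int.modEq_iff_dvd]
      refine ⟨-ε, ?_⟩
      have hc1 : ((p - 1 : ℕ) : ℤ) = (p : ℤ) - 1 := by
        have h1p : 1 ≤ p := by omega
        rw [Nat.cast_sub h1p]
        norm_num
      rw [hc1]
      ring
  · intro χ hχ x hx hx1
    rw [Finset.mem_insert, Set.Finite.mem_toFinset] at hχ
    by_cases hX : χ ∈ X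
    · simp only [if_pos hX]
      have h := hD.valX χ hX x hx hx1 1 (Subgroup.one_mem _) hone
      rwa [mul_one] at h
    · simp only [if_neg hX]
      have hχθ : χ = θ := by tauto
      have h1 := Cfsg.Agent.Lib.Helper10.BT.exc_sum p M hM P hP (p - 1) X Y εX ε hD
        (by rw [hdiv]) x hx hx1
      rw [hθ, finsum_mem_singleton] at h1
      rw [hχθ, h1]
      push_cast
      rfl
  · rw [Finset.sum_insert hθX']
    simp only [if_neg hθX]
    have h1 := hD.t1 θ hθY 1 hone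
    rw [finsum_mem_eq_finite_toFinset_sum _ hXfin] at h1
    have h2 : (ε : ℤ) * (charDegree (θ : G → ℂ) : ℤ) =
        ∑ χ ∈ hXfin.toFinset, εX χ * (charDegree (χ : G → ℂ) : ℤ) := by
      have h3 : ((ε * (charDegree (θ : G → ℂ) : ℤ) : ℤ) : ℂ) =
          ((∑ χ ∈ hXfin.toFinset, εX χ * (charDegree (χ : G → ℂ) : ℤ) : ℤ) : ℂ) := by
        push_cast
        rw [← (Cfsg.Agent.Lib.Helper83.irr_degree θ.2).2, h1]
        apply Finset.sum_congr rfl
        intro χ _
        rw [(Cfsg.Agent.Lib.Helper83.irr_degree χ.2).2]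
      exact_mod_cast h3
    have h4 : ∑ χ ∈ hXfin.toFinset,
        (if χ ∈ X then εX χ else -ε) * (charDegree (χ : G → ℂ) : ℤ) =
        ∑ χ ∈ hXfin.toFinset, εX χ * (charDegree (χ : G → ℂ) : ℤ) := by
      apply Finset.sum_congr rfl
      intro χ hχ
      rw [if_pos ((Set.Finite.mem_toFinset hXfin).mp hχ)]
    rw [h4, ← h2]
    ring

end Cfsg.Agent.Lib.Helper74.M11
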