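import Mathlib
import Cfsg.Agent.Lib.Helper10.BR0
import Cfsg.Agent.Lib.Helper22.DOne2
import Cfsg.Agent.Lib.Helper82.PQ
import Cfsg.Agent.Lib.Helper82.CharCore
import Cfsg.Agent.Lib.Helper83.Ortho
import Cfsg.Agent.Lib.Helper66.BRX4
import Cfsg.Agent.Lib.Helper90.BRX1
import Cfsg.Agent.Lib.Helper92.BRX2
import Cfsg.Agent.Lib.Helper64.BRG5
import Cfsg.Agent.Lib.Helper34.BRG4
import Cfsg.Agent.Lib.Helper6.BRG8
import Cfsg.Agent.Lib.Helper4.BRX7
import Cfsg.Agent.Lib.Helper4.BTV2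
import Cfsg.Agent.Lib.Helper16.BTV1
import Cfsg.Agent.Lib.Helper74.BRG3
import Cfsg.Agent.Lib.Helper74.BTP4
import Cfsg.Agent.Lib.Helper74.NS19F
import Cfsg.Agent.Lib.Helper74.NS19NC
import Cfsg.Agent.Lib.Helper67.BFZCENT
import Cfsg.Agent.Lib.Helper62.Cent4B
import Cfsg.Agent.Lib.Helper79.Blk2
import Cfsg.Agent.Lib.Helper74.M11Ar
import Cfsg.Agent.Lib.Helper74.M11Defs
import Cfsg.Agent.Lib.Helper74.M11BS
import Cfsg.Agent.Lib.Helper74.M11SQ
import Cfsg.Agent.Lib.Helper74.M11C11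
import Cfsg.Agent.Lib.Helper74.M11CD
import Cfsg.Agent.Lib.Helper74.M11GB
import Cfsg.Agent.Lib.Helper74.M11IP
import Cfsg.Agent.Lib.Helper74.M11NP
import Cfsg.Agent.Lib.Helper74.M11AE
import Cfsg.Agent.Lib.Helper74.M11A4
import Cfsg.Agent.Lib.Helper74.M11B2
import Cfsg.Agent.Lib.Helper74.M11UT
import Cfsg.Agent.Lib.Helper74.M11BC
import Cfsg.Agent.Lib.Helper74.M11FC

/-!
# S4429 (character degrees of a simple group of order 7920), assembly
-/

set_option autoImplicit false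
set_option linter.style.haveILetI false

namespace Cfsg.Agent.Lib.Helper74.M11

open Cfsg
open Cfsg.Agent.Lib.Helper83 (trivIrr)
open Cfsg.Agent.Lib.Helper10.BR (DOut)

universe u

/-- Stage 1: the principal 11-block has one of two shapes. -/
theorem stage1 {G : Type u} [Group G] [Fintype G] [IsSimpleGroup G] (hG : ¬ IsCyclic G)
    (hcard : Nat.card G = 7920) : CaseA G ∨ CaseB G := by
  classical
  haveI : Fact (Nat.Prime 11) := ⟨by norm_num⟩
  have hp : Nat.Prime 11 := by norm_num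
  obtain ⟨P⟩ : Nonempty (Sylow 11 G) := inferInstance
  have hP : Nat.card P = 11 :=
    sylow_card_prime 11 (by rw [hcard]; norm_num) (by rw [hcard]; norm_num) P
  obtain ⟨n, v, hS, hv, hCc, hNc, hidx, hcardG⟩ :=
    Cfsg.Agent.Lib.Helper10.BR.card_decomp 11 P hP
  obtain ⟨e, hedef⟩ : ∃ e, (Subgroup.centralizer ((P : Subgroup G) : Set G)).relIndex
      (Subgroup.normalizer ((P : Subgroup G) : Set G)) = e := ⟨_, rfl⟩
  have he1 : e ≠ 1 := by
    rw [← hedef]
    exact Cfsg.Agent.Lib.Helper10.BR.relIndex_ne_one hG 11 P hP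
  have hedvd : e ∣ 10 := by
    rw [← hedef]
    exact Cfsg.Agent.Lib.Helper10.BR.relIndex_dvd 11 P hP
  rw [hedef] at hNc hidx hcardG
  have hecases := e11_cases e he1 hedvd
  obtain ⟨M, hM⟩ := Cfsg.Agent.Lib.Helper82.exists_isPModular 11
  obtain ⟨X, Y, hblock, hdisj, hcX, hcY, εX, ε, hX, hε, hdY, hregY, ht1⟩ :=
    Cfsg.Agent.Lib.Helper22.DOne.core 11 M hM P hP e hedef
  have hD : DOut G 11 M (P : Subgroup G) e X Y εX ε :=
    ⟨hblock, hdisj, hcX, hcY, fun χ hχ => (hX χ hχ).1, fun χ hχ => (hX χ hχ).2.1,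
      fun χ hχ => (hX χ hχ).2.2, hε, hdY, hregY, ht1⟩
  obtain ⟨S, δ, hSmem, hδ1, hδ0, hScard, hSsum⟩ :=
    block_sum 11 (by norm_num) M (P : Subgroup G) e X Y εX ε hD
  obtain ⟨hSdeg, hScount, hSsign, hSsq⟩ :=
    counts11 hG hcard M (P : Subgroup G) e X Y εX ε hD S (fun χ hχ => (hSmem χ).1 hχ)
  have hYne : Y.Nonempty := by
    have h1 : 1 ≤ Nat.card Y := by
      rw [hcY]
      rcases hecases with rfl | rfl | rfl <;> norm_num
    by_contra hne
    rw [Set.not_nonempty_iff_eq_empty] at hne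
    rw [hne] at h1
    simp at h1
  obtain ⟨θ0, hθ0⟩ := hYne
  obtain ⟨d0, hd0⟩ : ∃ d0, charDegree (θ0 : G → ℂ) = d0 := ⟨_, rfl⟩
  have hd0f := deg_facts θ0
  rw [hcard, hd0] at hd0f
  obtain ⟨a, ha⟩ : ∃ a, (S.filter (fun χ : IrrCharacter G =>
    charDegree (χ : G → ℂ) = 12)).card = a := ⟨_, rfl⟩
  obtain ⟨b, hb⟩ : ∃ b, (S.filter (fun χ : IrrCharacter G =>
    charDegree (χ : G → ℂ) = 45)).card = b := ⟨_, rfl⟩
  obtain ⟨c, hc⟩ : ∃ c, (S.filter (fun χ : IrrCharacter G =>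
    charDegree (χ : G → ℂ) = 10)).card = c := ⟨_, rfl⟩
  rw [ha, hb, hc] at hScount hSsign hSsq
  have heq : ε * (d0 : ℤ) = (δ : ℤ) + 12 * (a : ℤ) + 45 * (b : ℤ) - 10 * (c : ℤ) := by
    rw [← hd0, hSsum θ0 hθ0, hSsign]
    ring
  have hδle : δ ≤ 1 := by
    by_cases ht : trivIrr G ∈ X
    · rw [hδ1 ht]
    · rw [hδ0 ht]
      norm_num
  have hδe : e ≠ 10 → δ = 1 := by
    intro hne
    apply hδ1
    have ht : 2 ≤ (11 - 1) / e := by
      rcases hecases with rfl | rfl | rfl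
      · norm_num
      · norm_num
      · exact absurd rfl hne
    exact (Cfsg.Agent.Lib.Helper10.BR.triv_mem hG 11 M hM (P : Subgroup G) hP e X Y εX ε hD ht).1
  have hc1 : 1 ≤ c :=
    exists10 e δ a b c d0 ε hε hecases hδe hδle (by omega) hd0f.1 hd0f.2 heq
  obtain ⟨χ, hχ⟩ : ∃ χ, χ ∈ S.filter (fun χ : IrrCharacter G =>
      charDegree (χ : G → ℂ) = 10) := by
    have hpos : 0 < (S.filter (fun χ : IrrCharacter G => charDegree (χ : G → ℂ) = 10)).card := by
      rw [hc]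
      exact hc1
    exact Finset.card_pos.1 hpos
  have hχS := (Finset.mem_filter.1 hχ).1
  have hχ10 : charDegree (χ : G → ℂ) = 10 := (Finset.mem_filter.1 hχ).2
  have hχX := ((hSmem χ).1 hχS).1
  have hεχ : εX χ = -1 := by
    rcases hSdeg χ hχS with ⟨_, h | h⟩ | ⟨h, _⟩
    · omega
    · omega
    · exact h
  have hC : Subgroup.centralizer ((P : Subgroup G) : Set G) = (P : Subgroup G) := by
    apply cent_of_deg 11 P hP χ hχ10
    intro x hx hx1 y hy hyp
    have h := hD.valX χ hχX x hx hx1 y hy hyp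
    rw [h, hεχ]
    norm_num
  have hv1 : v = 1 := by
    rw [hC, hP] at hCc
    omega
  subst hv1
  have he5 : e = 5 := e11_arith n e hecases (by rw [← hcard]; exact hcardG)
  subst he5
  have hδ : δ = 1 := hδe (by norm_num)
  subst hδ
  have hcY2 : Nat.card Y = 2 := by
    rw [hcY]
  have hsq := sq_bound 11 hp M (P : Subgroup G) 5 X Y εX ε hD S
    (fun χ hχ => ((hSmem χ).1 hχ).1) θ0 hθ0
  rw [hcY2, hSsq, hcard, hd0] at hsq
  have hsol := e5_solutions a b c d0 ε hε (by omega) hd0f.1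
    (by rw [heq]; push_cast; ring) hsq
  have hall : ∀ χ : IrrCharacter G, χ ∈ X ∨ χ ∈ Y ∨ 11 ∣ charDegree (χ : G → ℂ) := by
    intro ψ
    by_cases h11 : 11 ∣ charDegree (ψ : G → ℂ)
    · exact Or.inr (Or.inr h11)
    · have h := Cfsg.Agent.Lib.Helper10.BR.mem_principal_of_self_centralizing 11 M hM P hP hC
        ψ h11
      rw [hblock] at h
      rcases h with h | h
      · exact Or.inl h
      · exact Or.inr (Or.inl h)
  have hYdeg : ∀ θ ∈ Y, charDegree (θ : G → ℂ) = d0 := by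
    intro θ hθ
    have h1 := hregY θ hθ θ0 hθ0 1 (by rw [orderOf_one]; norm_num)
    have h2 := (Cfsg.Agent.Lib.Helper83.irr_degree θ.2).2
    have h3 := (Cfsg.Agent.Lib.Helper83.irr_degree θ0.2).2
    rw [h2, h3, hd0] at h1
    exact_mod_cast h1
  have hSdeg' : ∀ χ ∈ S, charDegree (χ : G → ℂ) = 12 ∨ charDegree (χ : G → ℂ) = 45 ∨
      charDegree (χ : G → ℂ) = 10 := by
    intro χ hχ
    rcases hSdeg χ hχ with ⟨_, h | h⟩ | ⟨_, h⟩
    · exact Or.inl h
    · exact Or.inr (Or.inl h)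
    · exact Or.inr (Or.inr h)
  rcases hsol with ⟨ha2, hb0, hc2, hd5⟩ | ⟨ha0, hb1, hc3, hd16⟩
  · left
    refine ⟨⟨θ0, hd0.trans hd5⟩, fun ψ => ?_⟩
    rcases hall ψ with h | h | h
    · by_cases ht : ψ = trivIrr G
      · exact Or.inl ht
      · have hψS := (hSmem ψ).2 ⟨h, ht⟩
        rcases hSdeg' ψ hψS with h12 | h45 | h10
        · exact Or.inr (Or.inl h12)
        · exfalso
          have hmem : ψ ∈ S.filter (fun χ : IrrCharacter G => charDegree (χ : G → ℂ) = 45) :=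
            Finset.mem_filter.2 ⟨hψS, h45⟩
          have hpos := Finset.card_pos.2 ⟨ψ, hmem⟩
          omega
        · exact Or.inr (Or.inr (Or.inl h10))
    · exact Or.inr (Or.inr (Or.inr (Or.inl ((hYdeg ψ h).trans hd5))))
    · exact Or.inr (Or.inr (Or.inr (Or.inr h)))
  · right
    exact globalB X Y hall S hSmem hSdeg' (ha.trans ha0) (hb.trans hb1) (hc.trans hc3)
      (fun θ hθ => (hYdeg θ hθ).trans hd16) hcY2

/-- Stage 2: the prime 5. -/
theorem stage2 {G : Type u} [Group G] [Fintype G] [IsSimpleGroup G] (hG : ¬ IsCyclic G)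
    (hcard : Nat.card G = 7920) (hAB : CaseA G ∨ CaseB G) :
    Nat.card (IrrCharacter G) = 10 ∧
    ∀ n : ℕ, Nat.card {χ : IrrCharacter G // charDegree (χ : G → ℂ) = n} =
      (if n = 1 ∨ n = 11 ∨ n = 44 ∨ n = 45 ∨ n = 55 then 1 else if n = 10 then 3
        else if n = 16 then 2 else 0) := by
  classical
  haveI : Fact (Nat.Prime 5) := ⟨by norm_num⟩
  have hp : Nat.Prime 5 := by norm_num
  obtain ⟨P⟩ : Nonempty (Sylow 5 G) := inferInstance
  have hP : Nat.card P = 5 :=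
    sylow_card_prime 5 (by rw [hcard]; norm_num) (by rw [hcard]; norm_num) P
  obtain ⟨n, v, hS, hv, hCc, hNc, hidx, hcardG⟩ :=
    Cfsg.Agent.Lib.Helper10.BR.card_decomp 5 P hP
  obtain ⟨e, hedef⟩ : ∃ e, (Subgroup.centralizer ((P : Subgroup G) : Set G)).relIndex
      (Subgroup.normalizer ((P : Subgroup G) : Set G)) = e := ⟨_, rfl⟩
  have he1 : e ≠ 1 := by
    rw [← hedef]
    exact Cfsg.Agent.Lib.Helper10.BR.relIndex_ne_one hG 5 P hP
  have hedvd : e ∣ 4 := by
    rw [← hedef]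
    exact Cfsg.Agent.Lib.Helper10.BR.relIndex_dvd 5 P hP
  rw [hedef] at hNc hidx hcardG
  obtain ⟨M, hM⟩ := Cfsg.Agent.Lib.Helper82.exists_isPModular 5
  obtain ⟨X, Y, hblock, hdisj, hcX, hcY, εX, ε, hX, hε, hdY, hregY, ht1⟩ :=
    Cfsg.Agent.Lib.Helper22.DOne.core 5 M hM P hP e hedef
  have hD : DOut G 5 M (P : Subgroup G) e X Y εX ε :=
    ⟨hblock, hdisj, hcX, hcY, fun χ hχ => (hX χ hχ).1, fun χ hχ => (hX χ hχ).2.1,
      fun χ hχ => (hX χ hχ).2.2, hε, hdY, hregY, ht1⟩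
  rcases e5_cases e he1 hedvd with rfl | rfl
  · rcases hAB with hA | hB
    · exact (caseA_even hG hcard hA.1 P hP v hCc
        (even_v n v (by rw [← hcard]; exact hcardG))).elim
    · exact (caseB_e2 hG hcard hB M hM (P : Subgroup G) hP X Y εX ε hD).elim
  · obtain ⟨B, s, hBmem, hBcard, hs, hdeg, hval, hsum⟩ :=
      uniform_t1 5 hp (by norm_num) M hM (P : Subgroup G) hP X Y εX ε hD
    have htriv : trivIrr G ∈ B :=
      (hBmem _).2 (Cfsg.Agent.Lib.Helper79.trivIrr_mem_principalBlock hM)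
    rcases hAB with hA | hB
    · exact (caseA_e4 hA B s htriv hs hdeg hsum).elim
    · obtain ⟨hBdeg, h16, h11, h44⟩ := caseB_counts hG hcard hB B s htriv hBcard hs hdeg hsum
      have hdvd : ∀ χ ∈ B, charDegree (χ : G → ℂ) ∣
          (Subgroup.centralizer ((P : Subgroup G) : Set G)).index :=
        fun χ hχ => Cfsg.Agent.Lib.Helper10.BR.deg_dvd 5 hp (P : Subgroup G) hP χ (s χ)
          (hs χ hχ) (hval χ hχ)
      obtain ⟨χ16, hχ16⟩ : ∃ χ, χ ∈ B.filter (fun χ : IrrCharacter G =>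
          charDegree (χ : G → ℂ) = 16) :=
        Finset.card_pos.1 (by rw [h16]; norm_num)
      obtain ⟨χ11, hχ11⟩ : ∃ χ, χ ∈ B.filter (fun χ : IrrCharacter G =>
          charDegree (χ : G → ℂ) = 11) :=
        Finset.card_pos.1 (by rw [h11]; norm_num)
      have h16d : 16 ∣ (1 + n * 5) * 4 := by
        have h := hdvd χ16 (Finset.mem_filter.1 hχ16).1
        rw [(Finset.mem_filter.1 hχ16).2, hidx] at h
        exact h
      have h11d : 11 ∣ (1 + n * 5) * 4 := by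
        have h := hdvd χ11 (Finset.mem_filter.1 hχ11).1
        rw [(Finset.mem_filter.1 hχ11).2, hidx] at h
        exact h
      have hv1 : v = 1 := cent5_num n v (by rw [← hcard]; exact hcardG) h16d h11d
      subst hv1
      have hC := Cfsg.Agent.Lib.Helper10.BR.cent_eq 5 P hP (by rw [hCc])
      refine final_census hG hcard hB B htriv hBcard hBdeg h16 h11 h44 (fun χ hχ => ?_)
      by_contra h5
      exact hχ ((hBmem χ).2
        (Cfsg.Agent.Lib.Helper10.BR.mem_principal_of_self_centralizing 5 M hM P hP hC χ h5))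

/-- S4429: the character degrees of a simple group of order 7920. -/
theorem main {G : Type u} [Group G] [Finite G] [IsSimpleGroup G] (hcard : Nat.card G = 7920) :
    Nat.card (IrrCharacter G) = 10 ∧
    ∀ n : ℕ, Nat.card {χ : IrrCharacter G // charDegree (χ : G → ℂ) = n} =
      (if n = 1 ∨ n = 11 ∨ n = 44 ∨ n = 45 ∨ n = 55 then 1 else if n = 10 then 3
        else if n = 16 then 2 else 0) := by
  classical
  letI : Fintype G := Fintype.ofFinite G
  have hG := not_cyclic7920 hcard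
  exact stage2 hG hcard (stage1 hG hcard)

end Cfsg.Agent.Lib.Helper74.M11
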