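import Mathlib
import Cfsg.Agent.Lib.Helper10.BR0
import Cfsg.Agent.Lib.Helper22.DOne2
import Cfsg.Agent.Lib.Helper82.PQ
import Cfsg.Agent.Lib.Helper82.CharCore
import Cfsg.Agent.Lib.Helper83.Ortho
import Cfsg.Agent.Lib.Helper66.BRX4
import Cfsg.Agent.Lib.Helper90.BRX1
import Cfsg.Agent.Lib.Helper92.BRX2
import Cfsg.Agent.Lib.Helper85.BRX8
import Cfsg.Agent.Lib.Helper64.BRG5
import Cfsg.Agent.Lib.Helper34.BRG4
import Cfsg.Agent.Lib.Helper6.BRG8
import Cfsg.Agent.Lib.Helper4.BRX7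
import Cfsg.Agent.Lib.Helper4.BTV2
import Cfsg.Agent.Lib.Helper16.BTV1
import Cfsg.Agent.Lib.Helper74.BRG3
import Cfsg.Agent.Lib.Helper74.BTP4
import Cfsg.Agent.Lib.Helper74.NS19F
import Cfsg.Agent.Lib.Helper74.NS19NC
import Cfsg.Agent.Lib.Helper67.BFZCENT
import Cfsg.Agent.Lib.Helper62.Cent4B
import Cfsg.Agent.Lib.Helper79.Blk2
import Cfsg.Agent.Lib.Helper74.M11Ar
import Cfsg.Agent.Lib.Helper74.M11Defs
import Cfsg.Agent.Lib.Helper74.M11BS

/-!
# S0435 (involution centralizers in a simple group of order 7920), definitions (names of the ten characters, 11-block table)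
-/

set_option autoImplicit false
set_option linter.style.haveILetI false

namespace Cfsg.Agent.Lib.Helper74.M11

open Cfsg
open Cfsg.Agent.Lib.Helper83 (trivIrr)
open Cfsg.Agent.Lib.Helper10.BR (DOut)

universe u

/-- The ten irreducible characters of a simple group of order 7920, named by degree:
`1, a b c (10), d11, f g (16), d44, d45, d55`. -/
structure Names (G : Type u) [Group G] (a b c d11 f g d44 d45 d55 : IrrCharacter G) : Prop where
  nodup : [trivIrr G, a, b, c, d11, f, g, d44, d45, d55].Nodup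
  mem : ∀ χ : IrrCharacter G, χ ∈ [trivIrr G, a, b, c, d11, f, g, d44, d45, d55]
  dega : charDegree (a : G → ℂ) = 10
  degb : charDegree (b : G → ℂ) = 10
  degc : charDegree (c : G → ℂ) = 10
  deg11 : charDegree (d11 : G → ℂ) = 11
  degf : charDegree (f : G → ℂ) = 16
  degg : charDegree (g : G → ℂ) = 16
  deg44 : charDegree (d44 : G → ℂ) = 44
  deg45 : charDegree (d45 : G → ℂ) = 45
  deg55 : charDegree (d55 : G → ℂ) = 55

/-- Character-table facts coming from the principal 11-block: the relations on 11-regular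
elements and the values on the non-identity elements of a Sylow 11-subgroup `P`. -/
structure Table11 (G : Type u) [Group G] (P : Subgroup G)
    (a b c d11 f g d44 d45 d55 : IrrCharacter G) : Prop where
  reg : ∀ y : G, ¬ 11 ∣ orderOf y → (f : G → ℂ) y = (g : G → ℂ) y ∧
    (f : G → ℂ) y = 1 + (d45 : G → ℂ) y - (a : G → ℂ) y - (b : G → ℂ) y - (c : G → ℂ) y
  sing : ∀ t : G, t ∈ P → t ≠ 1 → (a : G → ℂ) t = -1 ∧ (b : G → ℂ) t = -1 ∧ (c : G → ℂ) t = -1 ∧
    (d45 : G → ℂ) t = 1 ∧ (f : G → ℂ) t + (g : G → ℂ) t = -1 ∧ (d11 : G → ℂ) t = 0 ∧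
    (d44 : G → ℂ) t = 0 ∧ (d55 : G → ℂ) t = 0

end Cfsg.Agent.Lib.Helper74.M11
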