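import Mathlib
import Cfsg.Agent.Lib.Helper10.BR0
import Cfsg.Agent.Lib.Helper22.DOne2
import Cfsg.Agent.Lib.Helper82.PQ
import Cfsg.Agent.Lib.Helper82.CharCore
import Cfsg.Agent.Lib.Helper83.Ortho
import Cfsg.Agent.Lib.Helper66.BRX4
import Cfsg.Agent.Lib.Helper90.BRX1
import Cfsg.Agent.Lib.Helper92.BRX2
import Cfsg.Agent.Lib.Helper85.BRX8
import Cfsg.Agent.Lib.Helper64.BRG5
import Cfsg.Agent.Lib.Helper34.BRG4
import Cfsg.Agent.Lib.Helper6.BRG8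
import Cfsg.Agent.Lib.Helper4.BRX7
import Cfsg.Agent.Lib.Helper4.BTV2
import Cfsg.Agent.Lib.Helper16.BTV1
import Cfsg.Agent.Lib.Helper74.BRG3
import Cfsg.Agent.Lib.Helper74.BTP4
import Cfsg.Agent.Lib.Helper74.NS19F
import Cfsg.Agent.Lib.Helper74.NS19NC
import Cfsg.Agent.Lib.Helper67.BFZCENT
import Cfsg.Agent.Lib.Helper62.Cent4B
import Cfsg.Agent.Lib.Helper79.Blk2
import Cfsg.Agent.Lib.Helper74.M11Ar
import Cfsg.Agent.Lib.Helper74.M11Defs
import Cfsg.Agent.Lib.Helper74.M11BS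
import Cfsg.Agent.Lib.Helper74.M11XDefs

/-!
# S0435 (involution centralizers in a simple group of order 7920), piece XAr (project of helper74; proof by helper21)
-/

set_option autoImplicit false
set_option linter.style.haveILetI false

namespace Cfsg.Agent.Lib.Helper74.M11

open Cfsg
open Cfsg.Agent.Lib.Helper83 (trivIrr)
open Cfsg.Agent.Lib.Helper10.BR (DOut)

universe u

set_option maxHeartbeats 2000000 in
/-- XAr, step A: the solutions of the class-multiplication relation. -/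
theorem arith_invol_auxA (v w T s : ℤ) (hT0 : 0 ≤ T)
    (h2 : 720 + 16 * v ^ 2 = 288 * T + 45 * w ^ 2) (h1 : w = 1 + v - 2 * s)
    (hv1 : v ≤ 11) (hv3 : -11 ≤ v) (hw1 : w ≤ 8) (hw3 : -8 ≤ w) :
    (v = 3 ∧ w = 0 ∧ T = 3) ∨ (v = -3 ∧ w = 0 ∧ T = 3) ∨ (v = 9 ∧ w = 0 ∧ T = 7) ∨
      (v = -9 ∧ w = 0 ∧ T = 7) := by
  interval_cases v <;> interval_cases w <;> omega

/-- XAr, step B1: three squares with sum `3` do not have roots with sum `2`. -/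
theorem arith_invol_auxB1 (a1 a2 a3 : ℤ) (hT : (3 : ℤ) = a1 ^ 2 + a2 ^ 2 + a3 ^ 2)
    (hs : a1 + a2 + a3 = 2) : False := by
  have b1 : a1 ^ 2 ≤ 3 := by nlinarith [sq_nonneg a2, sq_nonneg a3]
  have b2 : a2 ^ 2 ≤ 3 := by nlinarith [sq_nonneg a1, sq_nonneg a3]
  have b3 : a3 ^ 2 ≤ 3 := by nlinarith [sq_nonneg a1, sq_nonneg a2]
  have c1 : a1 ≤ 1 := by nlinarith
  have c1' : -1 ≤ a1 := by nlinarith
  have c2 : a2 ≤ 1 := by nlinarith
  have c2' : -1 ≤ a2 := by nlinarith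
  have c3 : a3 ≤ 1 := by nlinarith
  have c3' : -1 ≤ a3 := by nlinarith
  clear b1 b2 b3
  interval_cases a1 <;> interval_cases a2 <;> interval_cases a3 <;> omega

/-- XAr, step B2: `7` is not a sum of three squares. -/
theorem arith_invol_auxB2 (a1 a2 a3 : ℤ) (hT : (7 : ℤ) = a1 ^ 2 + a2 ^ 2 + a3 ^ 2) : False := by
  have b1 : a1 ^ 2 ≤ 7 := by nlinarith [sq_nonneg a2, sq_nonneg a3]
  have b2 : a2 ^ 2 ≤ 7 := by nlinarith [sq_nonneg a1, sq_nonneg a3]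
  have b3 : a3 ^ 2 ≤ 7 := by nlinarith [sq_nonneg a1, sq_nonneg a2]
  have c1 : a1 ≤ 2 := by nlinarith
  have c1' : -2 ≤ a1 := by nlinarith
  have c2 : a2 ≤ 2 := by nlinarith
  have c2' : -2 ≤ a2 := by nlinarith
  have c3 : a3 ≤ 2 := by nlinarith
  have c3' : -2 ≤ a3 := by nlinarith
  clear b1 b2 b3
  interval_cases a1 <;> interval_cases a2 <;> interval_cases a3 <;> norm_num at hT

/-- XAr, step C0: the divisors of `144` that are at least `22`. -/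
theorem arith_invol_auxC0 (C : ℕ) (h5 : C ∣ 144) (hC22 : 22 ≤ C) :
    C = 24 ∨ C = 36 ∨ C = 48 ∨ C = 72 ∨ C = 144 := by
  have hC : C ≤ 144 := Nat.le_of_dvd (by norm_num) h5
  interval_cases C <;> omega

set_option maxHeartbeats 4000000 in
/-- XAr, step C: the remaining three character values. -/
theorem arith_invol_auxC (c44 c55 : ℤ) (C : ℕ)
    (h4 : (C : ℤ) = 22 + (14 - 4 * c44 - 5 * c55) ^ 2 + c44 ^ 2 + c55 ^ 2)
    (h5 : C = 24 ∨ C = 36 ∨ C = 48 ∨ C = 72 ∨ C = 144) : C = 48 := by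
  have hCz : (C : ℤ) ≤ 144 := by
    have : C ≤ 144 := by omega
    exact_mod_cast this
  have b44 : c44 ^ 2 ≤ 122 := by nlinarith [sq_nonneg (14 - 4 * c44 - 5 * c55), sq_nonneg c55]
  have b55 : c55 ^ 2 ≤ 122 := by nlinarith [sq_nonneg (14 - 4 * c44 - 5 * c55), sq_nonneg c44]
  have d1 : c44 ≤ 11 := by nlinarith
  have d1' : -11 ≤ c44 := by nlinarith
  have d2 : c55 ≤ 11 := by nlinarith
  have d2' : -11 ≤ c55 := by nlinarith
  clear b44 b55 hCz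
  interval_cases c44 <;> interval_cases c55 <;> norm_num at h4 <;> omega

/-- XAr: the arithmetic of the character values at an involution. -/
theorem arith_invol (u1 u2 u3 v w c11 c44 c55 : ℤ) (C : ℕ)
    (hu1 : Even u1) (hu2 : Even u2) (hu3 : Even u3)
    (h1 : w = 1 + v - u1 - u2 - u3)
    (h2 : 720 + 16 * v ^ 2 = 72 * (u1 ^ 2 + u2 ^ 2 + u3 ^ 2) + 45 * w ^ 2)
    (h3 : 1 + 10 * (u1 + u2 + u3) + 11 * c11 + 32 * w + 44 * c44 + 45 * v + 55 * c55 = 0)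
    (h4 : (C : ℤ) = 1 + u1 ^ 2 + u2 ^ 2 + u3 ^ 2 + c11 ^ 2 + 2 * w ^ 2 + c44 ^ 2 + v ^ 2 +
      c55 ^ 2)
    (h5 : C ∣ 144) : C = 48 := by
  have hC : C ≤ 144 := Nat.le_of_dvd (by norm_num) h5
  have hCz : (C : ℤ) ≤ 144 := by exact_mod_cast hC
  obtain ⟨a1, rfl⟩ := hu1
  obtain ⟨a2, rfl⟩ := hu2
  obtain ⟨a3, rfl⟩ := hu3
  obtain ⟨T, hT⟩ : ∃ T : ℤ, T = a1 ^ 2 + a2 ^ 2 + a3 ^ 2 := ⟨_, rfl⟩
  have hT0 : 0 ≤ T := by rw [hT]; positivity
  have h2' : 720 + 16 * v ^ 2 = 288 * T + 45 * w ^ 2 := by rw [hT]; linear_combination h2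
  have h4' : (C : ℤ) = 1 + 4 * T + c11 ^ 2 + 2 * w ^ 2 + c44 ^ 2 + v ^ 2 + c55 ^ 2 := by
    rw [hT]; linear_combination h4
  have h1' : w = 1 + v - 2 * (a1 + a2 + a3) := by linear_combination h1
  have h3' : 1 + 20 * (a1 + a2 + a3) + 11 * c11 + 32 * w + 44 * c44 + 45 * v + 55 * c55 = 0 := by
    linear_combination h3
  clear h1 h2 h3 h4
  have hv2 : v ^ 2 ≤ 143 := by
    nlinarith [sq_nonneg c11, sq_nonneg c44, sq_nonneg c55, sq_nonneg w]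
  have hw2 : w ^ 2 ≤ 71 := by
    nlinarith [sq_nonneg c11, sq_nonneg c44, sq_nonneg c55, sq_nonneg v]
  have hv1 : v ≤ 11 := by nlinarith
  have hv3 : -11 ≤ v := by nlinarith
  have hw1 : w ≤ 8 := by nlinarith
  have hw3 : -8 ≤ w := by nlinarith
  have hA := arith_invol_auxA v w T (a1 + a2 + a3) hT0 h2' h1' hv1 hv3 hw1 hw3
  have hB : v = -3 ∧ w = 0 ∧ T = 3 := by
    rcases hA with ⟨rfl, rfl, rfl⟩ | ⟨rfl, rfl, rfl⟩ | ⟨rfl, rfl, rfl⟩ | ⟨rfl, rfl, rfl⟩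
    · exact (arith_invol_auxB1 a1 a2 a3 hT (by omega)).elim
    · exact ⟨rfl, rfl, rfl⟩
    · exact (arith_invol_auxB2 a1 a2 a3 hT).elim
    · exact (arith_invol_auxB2 a1 a2 a3 hT).elim
  obtain ⟨rfl, rfl, rfl⟩ := hB
  have hs : a1 + a2 + a3 = -1 := by omega
  have hc11 : c11 = 14 - 4 * c44 - 5 * c55 := by omega
  subst hc11
  have h4'' : (C : ℤ) = 22 + (14 - 4 * c44 - 5 * c55) ^ 2 + c44 ^ 2 + c55 ^ 2 := by
    linear_combination h4'
  have hC22 : 22 ≤ C := by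
    have h : (22 : ℤ) ≤ C := by
      nlinarith [sq_nonneg (14 - 4 * c44 - 5 * c55), sq_nonneg c44, sq_nonneg c55]
    exact_mod_cast h
  exact arith_invol_auxC c44 c55 C h4'' (arith_invol_auxC0 C h5 hC22)

end Cfsg.Agent.Lib.Helper74.M11
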