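import Mathlib
import Cfsg.Agent.Lib.Helper10.BR0
import Cfsg.Agent.Lib.Helper22.DOne2
import Cfsg.Agent.Lib.Helper82.PQ
import Cfsg.Agent.Lib.Helper82.CharCore
import Cfsg.Agent.Lib.Helper83.Ortho
import Cfsg.Agent.Lib.Helper66.BRX4
import Cfsg.Agent.Lib.Helper90.BRX1
import Cfsg.Agent.Lib.Helper92.BRX2
import Cfsg.Agent.Lib.Helper85.BRX8
import Cfsg.Agent.Lib.Helper64.BRG5
import Cfsg.Agent.Lib.Helper34.BRG4
import Cfsg.Agent.Lib.Helper6.BRG8
import Cfsg.Agent.Lib.Helper4.BRX7
import Cfsg.Agent.Lib.Helper4.BTV2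
import Cfsg.Agent.Lib.Helper16.BTV1
import Cfsg.Agent.Lib.Helper74.BRG3
import Cfsg.Agent.Lib.Helper74.BTP4
import Cfsg.Agent.Lib.Helper74.NS19F
import Cfsg.Agent.Lib.Helper74.NS19NC
import Cfsg.Agent.Lib.Helper67.BFZCENT
import Cfsg.Agent.Lib.Helper62.Cent4B
import Cfsg.Agent.Lib.Helper79.Blk2
import Cfsg.Agent.Lib.Helper74.M11Ar
import Cfsg.Agent.Lib.Helper74.M11Defs
import Cfsg.Agent.Lib.Helper74.M11BS
import Cfsg.Agent.Lib.Helper74.M11XDefs

/-!
# S0435 (involution centralizers in a simple group of order 7920), piece XCd (project of helper74; proved by helper33)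
-/

set_option autoImplicit false
set_option linter.style.haveILetI false

namespace Cfsg.Agent.Lib.Helper74.M11

open Cfsg
open Cfsg.Agent.Lib.Helper83 (trivIrr)
open Cfsg.Agent.Lib.Helper10.BR (DOut)

universe u

/-- XCd: if a Sylow `p`-subgroup of order `p` is self-centralizing, the centralizer of a
non-identity `p`-regular element has order prime to `p`. -/
theorem cent_coprime {G : Type u} [Group G] [Finite G] (p : ℕ) [Fact p.Prime] (P : Sylow p G)
    (hP : Nat.card P = p)
    (hC : Subgroup.centralizer ((P : Subgroup G) : Set G) = (P : Subgroup G)) (x : G)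
    (hx : ¬ p ∣ orderOf x) (hx1 : x ≠ 1) :
    ¬ p ∣ Nat.card (Subgroup.centralizer ({x} : Set G)) := by
  intro hdvd
  obtain ⟨y, hy⟩ := exists_prime_orderOf_dvd_card' p hdvd
  have hyG : orderOf (y : G) = p := by rw [Subgroup.orderOf_coe]; exact hy
  have hpg : IsPGroup p (Subgroup.zpowers (y : G)) := by
    apply IsPGroup.of_card (n := 1)
    rw [Nat.card_zpowers, hyG, pow_one]
  obtain ⟨Q, hQ⟩ := hpg.exists_le_sylow
  obtain ⟨c, hc⟩ := MulAction.exists_smul_eq G Q P
  have hyQ : (y : G) ∈ (Q : Subgroup G) := hQ (Subgroup.mem_zpowers _)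
  have hy'P : c * (y : G) * c⁻¹ ∈ (P : Subgroup G) := by
    rw [← hc, Sylow.coe_subgroup_smul]
    have := Subgroup.smul_mem_pointwise_smul (y : G) (MulAut.conj c) (Q : Subgroup G) hyQ
    simpa [MulAut.smul_def] using this
  have hy'ord : orderOf (c * (y : G) * c⁻¹) = p := by
    rw [← hyG]
    exact (MulAut.conj c).orderOf_eq (y : G)
  have hPz : Subgroup.zpowers (c * (y : G) * c⁻¹) = (P : Subgroup G) := by
    apply Subgroup.eq_of_le_of_card_ge
    · rw [Subgroup.zpowers_le]; exact hy'P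
    · rw [Nat.card_zpowers, hy'ord]
      exact le_of_eq hP
  have hxy : x * (y : G) = (y : G) * x := by
    have := y.2
    rw [Subgroup.mem_centralizer_iff] at this
    exact this x rfl
  have hx'P : c * x * c⁻¹ ∈ (P : Subgroup G) := by
    rw [← hC, ← hPz, Subgroup.mem_centralizer_iff]
    intro b hb
    rw [SetLike.mem_coe, Subgroup.mem_zpowers_iff] at hb
    obtain ⟨k, rfl⟩ := hb
    have h1 : (c * (y : G) * c⁻¹) * (c * x * c⁻¹) = (c * x * c⁻¹) * (c * (y : G) * c⁻¹) := by
      calc (c * (y : G) * c⁻¹) * (c * x * c⁻¹) = c * ((y : G) * x) * c⁻¹ := by group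
        _ = c * (x * (y : G)) * c⁻¹ := by rw [hxy]
        _ = _ := by group
    exact (Commute.zpow_left (show Commute (c * (y : G) * c⁻¹) (c * x * c⁻¹) from h1) k).eq
  have hx'ord : orderOf (c * x * c⁻¹) = orderOf x := (MulAut.conj c).orderOf_eq x
  have hdv : orderOf x ∣ p := by
    rw [← hx'ord]
    have := orderOf_dvd_natCard (⟨c * x * c⁻¹, hx'P⟩ : (P : Subgroup G))
    rw [hP, ← Subgroup.orderOf_coe] at this
    exact this
  rcases (Nat.dvd_prime (Fact.out : p.Prime)).mp hdv with h | h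
  · exact hx1 (orderOf_eq_one_iff.mp h)
  · exact hx (h ▸ dvd_rfl)

end Cfsg.Agent.Lib.Helper74.M11
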