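import Mathlib
import Cfsg.Agent.Lib.Helper10.BR0
import Cfsg.Agent.Lib.Helper22.DOne2
import Cfsg.Agent.Lib.Helper82.PQ
import Cfsg.Agent.Lib.Helper82.CharCore
import Cfsg.Agent.Lib.Helper83.Ortho
import Cfsg.Agent.Lib.Helper66.BRX4
import Cfsg.Agent.Lib.Helper90.BRX1
import Cfsg.Agent.Lib.Helper92.BRX2
import Cfsg.Agent.Lib.Helper85.BRX8
import Cfsg.Agent.Lib.Helper64.BRG5
import Cfsg.Agent.Lib.Helper34.BRG4
import Cfsg.Agent.Lib.Helper6.BRG8
import Cfsg.Agent.Lib.Helper4.BRX7
import Cfsg.Agent.Lib.Helper4.BTV2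
import Cfsg.Agent.Lib.Helper16.BTV1
import Cfsg.Agent.Lib.Helper74.BRG3
import Cfsg.Agent.Lib.Helper74.BTP4
import Cfsg.Agent.Lib.Helper74.NS19F
import Cfsg.Agent.Lib.Helper74.NS19NC
import Cfsg.Agent.Lib.Helper67.BFZCENT
import Cfsg.Agent.Lib.Helper62.Cent4B
import Cfsg.Agent.Lib.Helper79.Blk2
import Cfsg.Agent.Lib.Helper74.M11Ar
import Cfsg.Agent.Lib.Helper74.M11Defs
import Cfsg.Agent.Lib.Helper74.M11BS
import Cfsg.Agent.Lib.Helper74.M11XDefs

/-!
# S0435 (involution centralizers in a simple group of order 7920), piece XNames (placeholder; project of helper74)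
-/

set_option autoImplicit false
set_option linter.style.haveILetI false

namespace Cfsg.Agent.Lib.Helper74.M11

open Cfsg
open Cfsg.Agent.Lib.Helper83 (trivIrr)
open Cfsg.Agent.Lib.Helper10.BR (DOut)

universe u

/-- XNames: from the census of degrees to explicit names for the ten irreducible characters. -/
theorem names {G : Type u} [Group G] [Fintype G]
    (hcount : ∀ n : ℕ, Nat.card {χ : IrrCharacter G // charDegree (χ : G → ℂ) = n} =
      (if n = 1 ∨ n = 11 ∨ n = 44 ∨ n = 45 ∨ n = 55 then 1 else if n = 10 then 3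
        else if n = 16 then 2 else 0)) :
    ∃ a b c d11 f g d44 d45 d55 : IrrCharacter G, Names G a b c d11 f g d44 d45 d55 := by
  classical
  haveI : Finite (IrrCharacter G) := Cfsg.Agent.Lib.Helper82.finite_irrCharacter G
  letI : Fintype (IrrCharacter G) := Fintype.ofFinite _
  have hc : ∀ n : ℕ,
      (Finset.univ.filter (fun χ : IrrCharacter G => charDegree (χ : G → ℂ) = n)).card =
      (if n = 1 ∨ n = 11 ∨ n = 44 ∨ n = 45 ∨ n = 55 then 1 else if n = 10 then 3
        else if n = 16 then 2 else 0) := by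
    intro n
    rw [← hcount n, Nat.card_eq_fintype_card, Fintype.card_subtype]
  have mem_iff : ∀ (n : ℕ) (χ : IrrCharacter G),
      χ ∈ Finset.univ.filter (fun χ : IrrCharacter G => charDegree (χ : G → ℂ) = n) ↔
        charDegree (χ : G → ℂ) = n := by
    intro n χ
    simp
  have h1 := hc 1
  have h10 := hc 10
  have h11 := hc 11
  have h16 := hc 16
  have h44 := hc 44
  have h45 := hc 45
  have h55 := hc 55
  norm_num at h1 h10 h11 h16 h44 h45 h55
  obtain ⟨x1, hx1⟩ := Finset.card_eq_one.mp h1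
  obtain ⟨a, b, c, hab, hac, hbc, habc⟩ := Finset.card_eq_three.mp h10
  obtain ⟨d11, hd11⟩ := Finset.card_eq_one.mp h11
  obtain ⟨f, g, hfg, hfg'⟩ := Finset.card_eq_two.mp h16
  obtain ⟨d44, hd44⟩ := Finset.card_eq_one.mp h44
  obtain ⟨d45, hd45⟩ := Finset.card_eq_one.mp h45
  obtain ⟨d55, hd55⟩ := Finset.card_eq_one.mp h55
  have dt : charDegree ((trivIrr G : IrrCharacter G) : G → ℂ) = 1 := deg_triv
  have dx1 : x1 = trivIrr G := by
    have h : trivIrr G ∈ Finset.univ.filter
        (fun χ : IrrCharacter G => charDegree (χ : G → ℂ) = 1) := (mem_iff 1 _).mpr dt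
    rw [hx1, Finset.mem_singleton] at h
    exact h.symm
  have da : charDegree (a : G → ℂ) = 10 := (mem_iff 10 a).mp (by rw [habc]; simp)
  have db : charDegree (b : G → ℂ) = 10 := (mem_iff 10 b).mp (by rw [habc]; simp)
  have dc : charDegree (c : G → ℂ) = 10 := (mem_iff 10 c).mp (by rw [habc]; simp)
  have dd11 : charDegree (d11 : G → ℂ) = 11 := (mem_iff 11 d11).mp (by rw [hd11]; simp)
  have df : charDegree (f : G → ℂ) = 16 := (mem_iff 16 f).mp (by rw [hfg']; simp)
  have dg : charDegree (g : G → ℂ) = 16 := (mem_iff 16 g).mp (by rw [hfg']; simp)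
  have dd44 : charDegree (d44 : G → ℂ) = 44 := (mem_iff 44 d44).mp (by rw [hd44]; simp)
  have dd45 : charDegree (d45 : G → ℂ) = 45 := (mem_iff 45 d45).mp (by rw [hd45]; simp)
  have dd55 : charDegree (d55 : G → ℂ) = 55 := (mem_iff 55 d55).mp (by rw [hd55]; simp)
  refine ⟨a, b, c, d11, f, g, d44, d45, d55, ⟨?_, ?_, da, db, dc, dd11, df, dg, dd44, dd45, dd55⟩⟩
  · have hne : ∀ x y : IrrCharacter G,
        charDegree (x : G → ℂ) ≠ charDegree (y : G → ℂ) → x ≠ y :=
      fun x y h e => h (by rw [e])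
    simp only [List.nodup_cons, List.mem_cons, List.not_mem_nil, or_false, not_or,
      List.nodup_nil, and_true, not_false_eq_true]
    repeat' constructor
    all_goals first
      | exact hab
      | exact hac
      | exact hbc
      | exact hfg
      | (apply hne; simp only [dt, da, db, dc, dd11, df, dg, dd44, dd45, dd55]; norm_num)
  · intro χ
    have hχ : χ ∈ Finset.univ.filter (fun ψ : IrrCharacter G =>
        charDegree (ψ : G → ℂ) = charDegree (χ : G → ℂ)) := (mem_iff _ χ).mpr rfl
    have hpos : 0 < (Finset.univ.filter (fun ψ : IrrCharacter G =>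
        charDegree (ψ : G → ℂ) = charDegree (χ : G → ℂ))).card := Finset.card_pos.mpr ⟨χ, hχ⟩
    rw [hc] at hpos
    have hcases : charDegree (χ : G → ℂ) = 1 ∨ charDegree (χ : G → ℂ) = 11 ∨
        charDegree (χ : G → ℂ) = 44 ∨ charDegree (χ : G → ℂ) = 45 ∨
        charDegree (χ : G → ℂ) = 55 ∨ charDegree (χ : G → ℂ) = 10 ∨
        charDegree (χ : G → ℂ) = 16 := by
      by_contra hcon
      push Not at hcon
      rw [if_neg (by tauto), if_neg hcon.2.2.2.2.2.1, if_neg hcon.2.2.2.2.2.2] at hpos
      exact lt_irrefl 0 hpos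
    rcases hcases with h | h | h | h | h | h | h
    · have h' := (mem_iff 1 χ).mpr h
      rw [hx1, Finset.mem_singleton, dx1] at h'
      simp [h']
    · have h' := (mem_iff 11 χ).mpr h
      rw [hd11, Finset.mem_singleton] at h'
      simp [h']
    · have h' := (mem_iff 44 χ).mpr h
      rw [hd44, Finset.mem_singleton] at h'
      simp [h']
    · have h' := (mem_iff 45 χ).mpr h
      rw [hd45, Finset.mem_singleton] at h'
      simp [h']
    · have h' := (mem_iff 55 χ).mpr h
      rw [hd55, Finset.mem_singleton] at h'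
      simp [h']
    · have h' := (mem_iff 10 χ).mpr h
      rw [habc] at h'
      simp only [Finset.mem_insert, Finset.mem_singleton] at h'
      rcases h' with h' | h' | h' <;> simp [h']
    · have h' := (mem_iff 16 χ).mpr h
      rw [hfg'] at h'
      simp only [Finset.mem_insert, Finset.mem_singleton] at h'
      rcases h' with h' | h' <;> simp [h']

end Cfsg.Agent.Lib.Helper74.M11
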