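import Mathlib
import Cfsg.Agent.Lib.Helper10.BR0
import Cfsg.Agent.Lib.Helper22.DOne2
import Cfsg.Agent.Lib.Helper82.PQ
import Cfsg.Agent.Lib.Helper82.CharCore
import Cfsg.Agent.Lib.Helper83.Ortho
import Cfsg.Agent.Lib.Helper66.BRX4
import Cfsg.Agent.Lib.Helper90.BRX1
import Cfsg.Agent.Lib.Helper92.BRX2
import Cfsg.Agent.Lib.Helper85.BRX8
import Cfsg.Agent.Lib.Helper64.BRG5
import Cfsg.Agent.Lib.Helper34.BRG4
import Cfsg.Agent.Lib.Helper6.BRG8
import Cfsg.Agent.Lib.Helper4.BRX7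
import Cfsg.Agent.Lib.Helper4.BTV2
import Cfsg.Agent.Lib.Helper16.BTV1
import Cfsg.Agent.Lib.Helper74.BRG3
import Cfsg.Agent.Lib.Helper74.BTP4
import Cfsg.Agent.Lib.Helper74.NS19F
import Cfsg.Agent.Lib.Helper74.NS19NC
import Cfsg.Agent.Lib.Helper67.BFZCENT
import Cfsg.Agent.Lib.Helper62.Cent4B
import Cfsg.Agent.Lib.Helper79.Blk2
import Cfsg.Agent.Lib.Helper74.M11Ar
import Cfsg.Agent.Lib.Helper74.M11Defs
import Cfsg.Agent.Lib.Helper74.M11BS
import Cfsg.Agent.Lib.Helper74.M11XDefs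

/-!
# S0435 (involution centralizers in a simple group of order 7920), piece XNoInv (project of helper74; proved by helper77)
-/

set_option autoImplicit false
set_option linter.style.haveILetI false

namespace Cfsg.Agent.Lib.Helper74.M11

open Cfsg
open Cfsg.Agent.Lib.Helper83 (trivIrr)
open Cfsg.Agent.Lib.Helper10.BR (DOut)

universe u

/-- XNoInv: if `N(P)/C(P)` has odd order (`|P| = p` odd), a non-identity element of `P` is not
inverted by an involution, hence is not the inverse of a product of two elements of order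
dividing 2. -/
theorem no_invol_prod {G : Type u} [Group G] [Finite G] (p : ℕ) [Fact p.Prime] (hp2 : p ≠ 2)
    (P : Sylow p G) (hP : Nat.card P = p)
    (hodd : Odd ((Subgroup.centralizer ((P : Subgroup G) : Set G)).relIndex
      (Subgroup.normalizer ((P : Subgroup G) : Set G))))
    (t : G) (ht : t ∈ (P : Subgroup G)) (ht1 : t ≠ 1) (g h : G) (hg : g * g = 1)
    (hh : h * h = 1) : g * h * t ≠ 1 := by
  intro hprod
  have hp : p.Prime := Fact.out
  have hginv : g⁻¹ = g := inv_eq_of_mul_eq_one_left hg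
  have hhinv : h⁻¹ = h := inv_eq_of_mul_eq_one_left hh
  have hgh : (g * h)⁻¹ = t := inv_eq_of_mul_eq_one_right hprod
  have htinv : t⁻¹ = g * h := by rw [← hgh, inv_inv]
  have ht' : t = h * g := by rw [← hgh, mul_inv_rev, hginv, hhinv]
  have hconj : g * t * g⁻¹ = t⁻¹ := by
    rw [htinv, ht', hginv, mul_assoc, mul_assoc, hg, mul_one]
  have hord : orderOf t = p := by
    have h1 : orderOf (⟨t, ht⟩ : ↥(P : Subgroup G)) ∣ p := by
      have h0 := orderOf_dvd_natCard (⟨t, ht⟩ : ↥(P : Subgroup G))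
      have hP' : Nat.card ↥(P : Subgroup G) = p := hP
      rwa [hP'] at h0
    rw [Subgroup.orderOf_mk] at h1
    rcases (Nat.dvd_prime hp).1 h1 with h2 | h2
    · exact absurd (orderOf_eq_one_iff.1 h2) ht1
    · exact h2
  have hPz : (P : Subgroup G) = Subgroup.zpowers t := by
    symm
    apply Subgroup.eq_of_le_of_card_ge ((Subgroup.zpowers_le).2 ht)
    rw [Nat.card_zpowers, hord]
    exact hP.le
  have hfw : ∀ x ∈ (P : Subgroup G), g * x * g⁻¹ ∈ (P : Subgroup G) := by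
    intro x hx
    rw [hPz] at hx
    obtain ⟨k, rfl⟩ := Subgroup.mem_zpowers_iff.1 hx
    rw [← conj_zpow, hconj]
    exact Subgroup.zpow_mem _ (Subgroup.inv_mem _ ht) k
  have hgN : g ∈ Subgroup.normalizer ((P : Subgroup G) : Set G) := by
    rw [Subgroup.mem_normalizer_iff]
    intro x
    refine ⟨hfw x, fun hx => ?_⟩
    have h1 := hfw _ hx
    have e : g * (g * x * g⁻¹) * g⁻¹ = x := by
      rw [hginv]
      calc g * (g * x * g) * g = (g * g) * x * (g * g) := by group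
        _ = x := by rw [hg]; group
    rwa [e] at h1
  have hpg : IsPGroup 2 (Subgroup.zpowers (⟨g, hgN⟩ :
      ↥(Subgroup.normalizer ((P : Subgroup G) : Set G)))) := by
    intro x
    refine ⟨1, ?_⟩
    obtain ⟨k, hk⟩ := Subgroup.mem_zpowers_iff.1 x.2
    apply Subtype.ext
    show (x : ↥(Subgroup.normalizer ((P : Subgroup G) : Set G))) ^ 2 ^ 1 = 1
    have hg'2 : (⟨g, hgN⟩ : ↥(Subgroup.normalizer ((P : Subgroup G) : Set G))) ^ 2 = 1 := by
      apply Subtype.ext
      show g ^ 2 = 1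
      rw [pow_two, hg]
    rw [← hk, pow_one, ← zpow_natCast, ← zpow_mul, mul_comm, zpow_mul, zpow_natCast, hg'2,
      one_zpow]
  have h2p : Fact (Nat.Prime 2) := ⟨Nat.prime_two⟩
  have hodd' : ¬ 2 ∣ Nat.card (↥(Subgroup.normalizer ((P : Subgroup G) : Set G)) ⧸
      (Subgroup.centralizer ((P : Subgroup G) : Set G)).subgroupOf
        (Subgroup.normalizer ((P : Subgroup G) : Set G))) := by
    intro h2
    have h3 : 2 ∣ (Subgroup.centralizer ((P : Subgroup G) : Set G)).relIndex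
        (Subgroup.normalizer ((P : Subgroup G) : Set G)) := h2
    exact (Nat.not_even_iff_odd.2 hodd) (even_iff_two_dvd.2 h3)
  obtain ⟨q, hq⟩ := hpg.nonempty_fixed_point_of_prime_not_dvd_card _ hodd'
  obtain ⟨n, rfl⟩ := QuotientGroup.mk_surjective q
  have h1 := hq ⟨⟨g, hgN⟩, Subgroup.mem_zpowers _⟩
  have h2 : (((⟨g, hgN⟩ : ↥(Subgroup.normalizer ((P : Subgroup G) : Set G))) * n :
      ↥(Subgroup.normalizer ((P : Subgroup G) : Set G))) :
      ↥(Subgroup.normalizer ((P : Subgroup G) : Set G)) ⧸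
        (Subgroup.centralizer ((P : Subgroup G) : Set G)).subgroupOf
          (Subgroup.normalizer ((P : Subgroup G) : Set G))) = (n : _ ⧸ _) := h1
  rw [QuotientGroup.eq] at h2
  have h3 := Subgroup.mem_subgroupOf.mp h2
  have h4 : (n : G)⁻¹ * g⁻¹ * (n : G) ∈ Subgroup.centralizer ((P : Subgroup G) : Set G) := by
    have e : ((((⟨g, hgN⟩ : ↥(Subgroup.normalizer ((P : Subgroup G) : Set G))) * n)⁻¹ * n :
        ↥(Subgroup.normalizer ((P : Subgroup G) : Set G))) : G) =
        (n : G)⁻¹ * g⁻¹ * (n : G) := by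
      show ((g * (n : G))⁻¹ * (n : G)) = _
      rw [mul_inv_rev]
    rwa [e] at h3
  have hnt : (n : G)⁻¹ * t * (n : G) ∈ (P : Subgroup G) :=
    (Subgroup.mem_normalizer_iff''.1 n.2 t).1 ht
  have h5 := (Subgroup.mem_centralizer_iff.1 h4) _ hnt
  have h6 : t * g⁻¹ = g⁻¹ * t := by
    have e1 : (n : G)⁻¹ * t * n * ((n : G)⁻¹ * g⁻¹ * n) = (n : G)⁻¹ * (t * g⁻¹) * n := by group
    have e2 : (n : G)⁻¹ * g⁻¹ * n * ((n : G)⁻¹ * t * n) = (n : G)⁻¹ * (g⁻¹ * t) * n := by group
    rw [e1, e2] at h5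
    exact mul_left_cancel (mul_right_cancel h5)
  have h7 : g * t * g⁻¹ = t := by
    rw [mul_assoc, h6, ← mul_assoc, mul_inv_cancel, one_mul]
  have h8 : t * t = 1 := by
    have : t⁻¹ = t := by rw [← hconj, h7]
    calc t * t = t * t⁻¹ := by rw [this]
      _ = 1 := mul_inv_cancel t
  have h9 : orderOf t ∣ 2 := orderOf_dvd_of_pow_eq_one (by rw [pow_two, h8])
  rw [hord] at h9
  exact hp2 ((Nat.prime_dvd_prime_iff_eq hp Nat.prime_two).1 h9)

end Cfsg.Agent.Lib.Helper74.M11
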