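import Mathlib
import Cfsg.Agent.Lib.Helper10.BR0
import Cfsg.Agent.Lib.Helper22.DOne2
import Cfsg.Agent.Lib.Helper82.PQ
import Cfsg.Agent.Lib.Helper82.CharCore
import Cfsg.Agent.Lib.Helper83.Ortho
import Cfsg.Agent.Lib.Helper66.BRX4
import Cfsg.Agent.Lib.Helper90.BRX1
import Cfsg.Agent.Lib.Helper92.BRX2
import Cfsg.Agent.Lib.Helper85.BRX8
import Cfsg.Agent.Lib.Helper64.BRG5
import Cfsg.Agent.Lib.Helper34.BRG4
import Cfsg.Agent.Lib.Helper6.BRG8
import Cfsg.Agent.Lib.Helper4.BRX7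
import Cfsg.Agent.Lib.Helper4.BTV2
import Cfsg.Agent.Lib.Helper16.BTV1
import Cfsg.Agent.Lib.Helper74.BRG3
import Cfsg.Agent.Lib.Helper74.BTP4
import Cfsg.Agent.Lib.Helper74.NS19F
import Cfsg.Agent.Lib.Helper74.NS19NC
import Cfsg.Agent.Lib.Helper67.BFZCENT
import Cfsg.Agent.Lib.Helper62.Cent4B
import Cfsg.Agent.Lib.Helper79.Blk2
import Cfsg.Agent.Lib.Helper74.M11Ar
import Cfsg.Agent.Lib.Helper74.M11Defs
import Cfsg.Agent.Lib.Helper74.M11BS
import Cfsg.Agent.Lib.Helper74.M11XDefs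

/-!
# S0435 (involution centralizers in a simple group of order 7920), piece XSc (project of helper74; proof by helper58)
-/

set_option autoImplicit false
set_option linter.style.haveILetI false

namespace Cfsg.Agent.Lib.Helper74.M11

open Cfsg
open Cfsg.Agent.Lib.Helper83 (trivIrr)
open Cfsg.Agent.Lib.Helper10.BR (DOut)

universe u

/-- XSc: the class-multiplication sum vanishes when `t⁻¹` is not a product of two elements of
order dividing 2. -/
theorem sc_sum {G : Type u} [Group G] [Fintype G] [Fintype (IrrCharacter G)] (x t : G)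
    (hx : x * x = 1) (hno : ∀ g h : G, g * g = 1 → h * h = 1 → g * h * t ≠ 1) :
    ∑ χ : IrrCharacter G,
      (χ : G → ℂ) x * (χ : G → ℂ) x * (χ : G → ℂ) t / (χ : G → ℂ) 1 = 0 := by
  have hcc := Cfsg.Agent.Lib.Helper82.class_constant x x t
  have hconj : ∀ g : G, IsConj x g → g * g = 1 := by
    intro g hg
    obtain ⟨c, rfl⟩ := isConj_iff.mp hg
    calc c * x * c⁻¹ * (c * x * c⁻¹) = c * (x * x) * c⁻¹ := by group
      _ = 1 := by rw [hx]; group
  have hidx : ((Subgroup.centralizer ({x} : Set G)).index : ℂ) ≠ 0 := by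
    exact_mod_cast (Subgroup.index_ne_zero_of_finite (H := Subgroup.centralizer ({x} : Set G)))
  have hfac : ∑ χ : IrrCharacter G,
      (((Subgroup.centralizer ({x} : Set G)).index : ℂ) * (χ : G → ℂ) x)
        * (((Subgroup.centralizer ({x} : Set G)).index : ℂ) * (χ : G → ℂ) x)
        * (χ : G → ℂ) t / (χ : G → ℂ) 1
      = ((Subgroup.centralizer ({x} : Set G)).index : ℂ) ^ 2 *
        ∑ χ : IrrCharacter G,
          (χ : G → ℂ) x * (χ : G → ℂ) x * (χ : G → ℂ) t / (χ : G → ℂ) 1 := by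
    rw [Finset.mul_sum]
    refine Finset.sum_congr rfl fun χ _ => ?_
    ring
  have h0 : ((Subgroup.centralizer ({x} : Set G)).index : ℂ) ^ 2 *
      ∑ χ : IrrCharacter G,
        (χ : G → ℂ) x * (χ : G → ℂ) x * (χ : G → ℂ) t / (χ : G → ℂ) 1 = 0 := by
    rw [← hfac, ← hcc]
    apply mul_eq_zero_of_right
    apply Finset.sum_eq_zero
    intro g _
    apply Finset.sum_eq_zero
    intro h _
    by_cases hg : IsConj x g
    · by_cases hh : IsConj x h
      · rw [if_neg (hno g h (hconj g hg) (hconj h hh)), mul_zero]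
      · rw [if_neg hh, mul_zero, zero_mul]
    · rw [if_neg hg, zero_mul, zero_mul]
  rcases mul_eq_zero.mp h0 with h | h
  · exact absurd h (pow_ne_zero 2 hidx)
  · exact h

end Cfsg.Agent.Lib.Helper74.M11
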