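import Mathlib
import Cfsg.Agent.Lib.Helper10.BR0
import Cfsg.Agent.Lib.Helper22.DOne2
import Cfsg.Agent.Lib.Helper82.PQ
import Cfsg.Agent.Lib.Helper82.CharCore
import Cfsg.Agent.Lib.Helper83.Ortho
import Cfsg.Agent.Lib.Helper66.BRX4
import Cfsg.Agent.Lib.Helper90.BRX1
import Cfsg.Agent.Lib.Helper92.BRX2
import Cfsg.Agent.Lib.Helper85.BRX8
import Cfsg.Agent.Lib.Helper64.BRG5
import Cfsg.Agent.Lib.Helper34.BRG4
import Cfsg.Agent.Lib.Helper6.BRG8
import Cfsg.Agent.Lib.Helper4.BRX7
import Cfsg.Agent.Lib.Helper4.BTV2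
import Cfsg.Agent.Lib.Helper16.BTV1
import Cfsg.Agent.Lib.Helper74.BRG3
import Cfsg.Agent.Lib.Helper74.BTP4
import Cfsg.Agent.Lib.Helper74.NS19F
import Cfsg.Agent.Lib.Helper74.NS19NC
import Cfsg.Agent.Lib.Helper67.BFZCENT
import Cfsg.Agent.Lib.Helper62.Cent4B
import Cfsg.Agent.Lib.Helper79.Blk2
import Cfsg.Agent.Lib.Helper74.M11Ar
import Cfsg.Agent.Lib.Helper74.M11Defs
import Cfsg.Agent.Lib.Helper74.M11BS
import Cfsg.Agent.Lib.Helper74.M11XDefs

/-!
# S0435 (involution centralizers in a simple group of order 7920), piece XTbl (placeholder; project of helper74)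
-/

set_option autoImplicit false
set_option linter.style.haveILetI false

namespace Cfsg.Agent.Lib.Helper74.M11

open Cfsg
open Cfsg.Agent.Lib.Helper83 (trivIrr)
open Cfsg.Agent.Lib.Helper10.BR (DOut)

universe u

theorem xtbl_finsum5 {α : Type*} (F : α → ℂ) (x1 x2 x3 x4 x5 : α) (h12 : x1 ≠ x2) (h13 : x1 ≠ x3)
    (h14 : x1 ≠ x4) (h15 : x1 ≠ x5) (h23 : x2 ≠ x3) (h24 : x2 ≠ x4) (h25 : x2 ≠ x5)
    (h34 : x3 ≠ x4) (h35 : x3 ≠ x5) (h45 : x4 ≠ x5) :
    ∑ᶠ i ∈ ({x1, x2, x3, x4, x5} : Set α), F i = F x1 + F x2 + F x3 + F x4 + F x5 := by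
  rw [finsum_mem_insert _ (by simp [h12, h13, h14, h15]) (Set.toFinite _),
    finsum_mem_insert _ (by simp [h23, h24, h25]) (Set.toFinite _),
    finsum_mem_insert _ (by simp [h34, h35]) (Set.toFinite _), finsum_mem_pair h45]
  ring

/-- XTbl: the 11-block relations and the values on a Sylow 11-subgroup, for the named
characters. -/
theorem table11 {G : Type u} [Group G] [Fintype G] (P : Sylow 11 G) (M : Ideal AlgInt)
    (X Y : Set (IrrCharacter G)) (εX : IrrCharacter G → ℤ) (ε : ℤ) (hM : IsPModular 11 M)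
    (hP : Nat.card P = 11)
    (hC : Subgroup.centralizer ((P : Subgroup G) : Set G) = (P : Subgroup G))
    (hD : DOut G 11 M (P : Subgroup G) 5 X Y εX ε)
    (a b c d11 f g d44 d45 d55 : IrrCharacter G) (hN : Names G a b c d11 f g d44 d45 d55) :
    Table11 G (P : Subgroup G) a b c d11 f g d44 d45 d55 := by
  classical
  haveI : Fact (Nat.Prime 11) := ⟨by norm_num⟩
  have dt : charDegree ((trivIrr G : IrrCharacter G) : G → ℂ) = 1 := deg_triv
  have hnd := hN.nodup
  simp only [List.nodup_cons, List.mem_cons, List.not_mem_nil, or_false, not_or,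
    List.nodup_nil, and_true, not_false_eq_true] at hnd
  obtain ⟨⟨hta, htb, htc, -, -, -, -, htd45, -⟩, ⟨hab, hac, -, -, -, -, had45, -⟩,
    ⟨hbc, -, -, -, -, hbd45, -⟩, ⟨-, -, -, -, hcd45, -⟩, -, ⟨hfg, -⟩, -⟩ := hnd
  have hXY : ∀ χ : IrrCharacter G, ¬ 11 ∣ charDegree (χ : G → ℂ) → χ ∈ X ∪ Y := by
    intro χ h
    rw [← hD.block]
    exact Cfsg.Agent.Lib.Helper10.BR.mem_principal_of_self_centralizing 11 M hM P hP hC χ h
  have hXmod : ∀ χ ∈ X, (εX χ = 1 ∧ charDegree (χ : G → ℂ) % 11 = 1) ∨
      (εX χ = -1 ∧ charDegree (χ : G → ℂ) % 11 = 10) := by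
    intro χ hχ
    have h1 := hD.degX χ hχ
    unfold Int.ModEq at h1
    rcases hD.signX χ hχ with h | h
    · left
      refine ⟨h, ?_⟩
      rw [h] at h1
      omega
    · right
      refine ⟨h, ?_⟩
      rw [h] at h1
      omega
  have hYmod : ∀ θ ∈ Y, (ε = 1 ∧ charDegree (θ : G → ℂ) % 11 = 5) ∨
      (ε = -1 ∧ charDegree (θ : G → ℂ) % 11 = 6) := by
    intro θ hθ
    have h1 := hD.degY θ hθ
    unfold Int.ModEq at h1
    rcases hD.signY with h | h
    · left
      refine ⟨h, ?_⟩
      rw [h] at h1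
      omega
    · right
      refine ⟨h, ?_⟩
      rw [h] at h1
      omega
  have hinX : ∀ χ : IrrCharacter G, charDegree (χ : G → ℂ) % 11 = 1 ∨
      charDegree (χ : G → ℂ) % 11 = 10 → χ ∈ X := by
    intro χ h
    rcases hXY χ (by omega) with hx | hy
    · exact hx
    · rcases hYmod χ hy with ⟨_, h5⟩ | ⟨_, h6⟩ <;> omega
  have hinY : ∀ χ : IrrCharacter G, charDegree (χ : G → ℂ) % 11 = 5 → χ ∈ Y ∧ ε = 1 := by
    intro χ h
    rcases hXY χ (by omega) with hx | hy
    · rcases hXmod χ hx with ⟨_, h1⟩ | ⟨_, h1⟩ <;> omega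
    · rcases hYmod χ hy with ⟨he, _⟩ | ⟨_, h6⟩
      · exact ⟨hy, he⟩
      · omega
  have htX : trivIrr G ∈ X := hinX _ (by simp [dt])
  have haX : a ∈ X := hinX _ (by simp [hN.dega])
  have hbX : b ∈ X := hinX _ (by simp [hN.degb])
  have hcX : c ∈ X := hinX _ (by simp [hN.degc])
  have hdX : d45 ∈ X := hinX _ (by simp [hN.deg45])
  have hfY := hinY f (by simp [hN.degf])
  have hgY := hinY g (by simp [hN.degg])
  have hε : ε = 1 := hfY.2
  have sgn1 : ∀ χ ∈ X, charDegree (χ : G → ℂ) % 11 = 1 → εX χ = 1 := by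
    intro χ hχ h
    rcases hXmod χ hχ with ⟨h1, _⟩ | ⟨_, h2⟩
    · exact h1
    · omega
  have sgn10 : ∀ χ ∈ X, charDegree (χ : G → ℂ) % 11 = 10 → εX χ = -1 := by
    intro χ hχ h
    rcases hXmod χ hχ with ⟨_, h1⟩ | ⟨h2, _⟩
    · omega
    · exact h2
  have st : εX (trivIrr G) = 1 := sgn1 _ htX (by simp [dt])
  have sa : εX a = -1 := sgn10 _ haX (by simp [hN.dega])
  have sb : εX b = -1 := sgn10 _ hbX (by simp [hN.degb])
  have sc : εX c = -1 := sgn10 _ hcX (by simp [hN.degc])
  have sd : εX d45 = 1 := sgn1 _ hdX (by simp [hN.deg45])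
  have hXset : X = {trivIrr G, a, b, c, d45} := by
    ext χ
    simp only [Set.mem_insert_iff, Set.mem_singleton_iff]
    constructor
    · intro hχ
      have hmod := hXmod χ hχ
      have hmem := hN.mem χ
      simp only [List.mem_cons, List.not_mem_nil, or_false] at hmem
      rcases hmem with h | h | h | h | h | h | h | h | h | h
      · exact Or.inl h
      · exact Or.inr (Or.inl h)
      · exact Or.inr (Or.inr (Or.inl h))
      · exact Or.inr (Or.inr (Or.inr (Or.inl h)))
      · exfalso
        subst h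
        rw [hN.deg11] at hmod
        omega
      · exfalso
        subst h
        rw [hN.degf] at hmod
        omega
      · exfalso
        subst h
        rw [hN.degg] at hmod
        omega
      · exfalso
        subst h
        rw [hN.deg44] at hmod
        omega
      · exact Or.inr (Or.inr (Or.inr (Or.inr h)))
      · exfalso
        subst h
        rw [hN.deg55] at hmod
        omega
    · rintro (h | h | h | h | h) <;> rw [h] <;> assumption
  have hYset : Y = {f, g} := by
    ext χ
    simp only [Set.mem_insert_iff, Set.mem_singleton_iff]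
    constructor
    · intro hχ
      have hmod := hYmod χ hχ
      have hmem := hN.mem χ
      simp only [List.mem_cons, List.not_mem_nil, or_false] at hmem
      rcases hmem with h | h | h | h | h | h | h | h | h | h
      · exfalso
        subst h
        rw [dt] at hmod
        omega
      · exfalso
        subst h
        rw [hN.dega] at hmod
        omega
      · exfalso
        subst h
        rw [hN.degb] at hmod
        omega
      · exfalso
        subst h
        rw [hN.degc] at hmod
        omega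
      · exfalso
        subst h
        rw [hN.deg11] at hmod
        omega
      · exact Or.inl h
      · exact Or.inr h
      · exfalso
        subst h
        rw [hN.deg44] at hmod
        omega
      · exfalso
        subst h
        rw [hN.deg45] at hmod
        omega
      · exfalso
        subst h
        rw [hN.deg55] at hmod
        omega
    · rintro (h | h)
      · rw [h]
        exact hfY.1
      · rw [h]
        exact hgY.1
  refine ⟨?_, ?_⟩
  · intro y hy
    refine ⟨hD.regY f hfY.1 g hgY.1 y hy, ?_⟩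
    have h1 := hD.t1 f hfY.1 y hy
    rw [hXset, xtbl_finsum5 _ _ _ _ _ _ hta htb htc htd45 hab hac had45 hbc hbd45 hcd45,
      hε, st, sa, sb, sc, sd, Cfsg.Agent.Lib.Helper83.trivIrr_apply] at h1
    push_cast at h1
    linear_combination h1
  · intro t ht ht1
    have hone : ¬ 11 ∣ orderOf (1 : G) := by
      rw [orderOf_one]
      norm_num
    have h1mem : (1 : G) ∈ Subgroup.centralizer ((P : Subgroup G) : Set G) := Subgroup.one_mem _
    have hv : ∀ χ ∈ X, (χ : G → ℂ) t = (εX χ : ℂ) := by
      intro χ hχ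
      have h := hD.valX χ hχ t ht ht1 1 h1mem hone
      rwa [mul_one] at h
    have hord : 11 ∣ orderOf t := by
      have h1 : orderOf t ∣ 11 := by
        rw [← hP]
        exact Subgroup.orderOf_dvd_natCard _ ht
      have h2 : orderOf t ≠ 1 := fun h => ht1 (orderOf_eq_one_iff.mp h)
      rcases (Nat.dvd_prime (by norm_num : Nat.Prime 11)).mp h1 with h | h
      · exact absurd h h2
      · rw [h]
    have hsum := Cfsg.Agent.Lib.Helper10.BT.exc_sum 11 M hM (P : Subgroup G) hP 5 X Y εX ε hD
      (by norm_num) t ht ht1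
    rw [hYset, finsum_mem_pair hfg, hε] at hsum
    refine ⟨?_, ?_, ?_, ?_, ?_, ?_, ?_, ?_⟩
    · rw [hv a haX, sa]
      norm_num
    · rw [hv b hbX, sb]
      norm_num
    · rw [hv c hcX, sc]
      norm_num
    · rw [hv d45 hdX, sd]
      norm_num
    · rw [hsum]
      norm_num
    · exact Cfsg.Agent.Lib.Helper10.BR.vanish_of_dvd 11 P hP d11 (by rw [hN.deg11]) t hord
    · exact Cfsg.Agent.Lib.Helper10.BR.vanish_of_dvd 11 P hP d44
        (by rw [hN.deg44]; norm_num) t hord
    · exact Cfsg.Agent.Lib.Helper10.BR.vanish_of_dvd 11 P hP d55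
        (by rw [hN.deg55]; norm_num) t hord

end Cfsg.Agent.Lib.Helper74.M11
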