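import Mathlib
import Cfsg.Agent.Lib.Helper10.BR0
import Cfsg.Agent.Lib.Helper22.DOne2
import Cfsg.Agent.Lib.Helper82.PQ
import Cfsg.Agent.Lib.Helper82.CharCore
import Cfsg.Agent.Lib.Helper83.Ortho
import Cfsg.Agent.Lib.Helper66.BRX4
import Cfsg.Agent.Lib.Helper90.BRX1
import Cfsg.Agent.Lib.Helper92.BRX2
import Cfsg.Agent.Lib.Helper85.BRX8
import Cfsg.Agent.Lib.Helper64.BRG5
import Cfsg.Agent.Lib.Helper34.BRG4
import Cfsg.Agent.Lib.Helper6.BRG8
import Cfsg.Agent.Lib.Helper4.BRX7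
import Cfsg.Agent.Lib.Helper4.BTV2
import Cfsg.Agent.Lib.Helper16.BTV1
import Cfsg.Agent.Lib.Helper74.BRG3
import Cfsg.Agent.Lib.Helper74.BTP4
import Cfsg.Agent.Lib.Helper74.NS19F
import Cfsg.Agent.Lib.Helper74.NS19NC
import Cfsg.Agent.Lib.Helper67.BFZCENT
import Cfsg.Agent.Lib.Helper62.Cent4B
import Cfsg.Agent.Lib.Helper79.Blk2
import Cfsg.Agent.Lib.Helper74.M11Ar
import Cfsg.Agent.Lib.Helper74.M11Defs
import Cfsg.Agent.Lib.Helper74.M11BS
import Cfsg.Agent.Lib.Helper74.M11XDefs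

/-!
# S0435 (involution centralizers in a simple group of order 7920), piece XVals (project of helper74; proof by helper58)
-/

set_option autoImplicit false
set_option linter.style.haveILetI false

namespace Cfsg.Agent.Lib.Helper74.M11

open Cfsg
open Cfsg.Agent.Lib.Helper83 (trivIrr)
open Cfsg.Agent.Lib.Helper10.BR (DOut)

universe u

/-- XVals: character values at an involution are integers of the parity of the degree. -/
theorem invol_vals {G : Type u} [Group G] [Fintype G] (x : G) (hx : x * x = 1)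
    (χ : IrrCharacter G) :
    ∃ k : ℤ, (χ : G → ℂ) x = (k : ℂ) ∧ Even (k - (charDegree (χ : G → ℂ) : ℤ)) := by
  obtain ⟨p, q, h1, h2⟩ := Cfsg.Agent.Lib.Helper62.irr_invol χ x hx
  have hdeg := (Cfsg.Agent.Lib.Helper83.irr_degree χ.2).2
  have hd : charDegree (χ : G → ℂ) = p + q := by
    have h3 : ((charDegree (χ : G → ℂ) : ℕ) : ℂ) = ((p + q : ℕ) : ℂ) := by
      rw [← hdeg, h2]
      push_cast
      ring
    exact_mod_cast h3
  refine ⟨(p : ℤ) - (q : ℤ), ?_, ?_⟩
  · rw [h1]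
    push_cast
    ring
  · rw [hd]
    refine ⟨-(q : ℤ), ?_⟩
    push_cast
    ring

end Cfsg.Agent.Lib.Helper74.M11
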