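import Mathlib
import Cfsg.Agent.Lib.Helper10.BR0
import Cfsg.Agent.Lib.Helper22.DOne2
import Cfsg.Agent.Lib.Helper82.PQ
import Cfsg.Agent.Lib.Helper82.CharCore
import Cfsg.Agent.Lib.Helper83.Ortho
import Cfsg.Agent.Lib.Helper66.BRX4
import Cfsg.Agent.Lib.Helper90.BRX1
import Cfsg.Agent.Lib.Helper92.BRX2
import Cfsg.Agent.Lib.Helper85.BRX8
import Cfsg.Agent.Lib.Helper64.BRG5
import Cfsg.Agent.Lib.Helper34.BRG4
import Cfsg.Agent.Lib.Helper6.BRG8
import Cfsg.Agent.Lib.Helper4.BRX7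
import Cfsg.Agent.Lib.Helper4.BTV2
import Cfsg.Agent.Lib.Helper16.BTV1
import Cfsg.Agent.Lib.Helper74.BRG3
import Cfsg.Agent.Lib.Helper74.BTP4
import Cfsg.Agent.Lib.Helper74.NS19F
import Cfsg.Agent.Lib.Helper74.NS19NC
import Cfsg.Agent.Lib.Helper67.BFZCENT
import Cfsg.Agent.Lib.Helper62.Cent4B
import Cfsg.Agent.Lib.Helper79.Blk2
import Cfsg.Agent.Lib.Helper74.M11Ar
import Cfsg.Agent.Lib.Helper74.M11Defs
import Cfsg.Agent.Lib.Helper74.M11BS
import Cfsg.Agent.Lib.Helper74.M11Data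
import Cfsg.Agent.Lib.Helper74.M11XDefs
import Cfsg.Agent.Lib.Helper74.M11XNames
import Cfsg.Agent.Lib.Helper74.M11XTbl
import Cfsg.Agent.Lib.Helper74.M11XNoInv
import Cfsg.Agent.Lib.Helper74.M11XSc
import Cfsg.Agent.Lib.Helper74.M11XVals
import Cfsg.Agent.Lib.Helper74.M11XCd
import Cfsg.Agent.Lib.Helper74.M11XAr

/-!
# S0435 (involution centralizers in a simple group of order 7920), assembly
-/

set_option autoImplicit false
set_option linter.style.haveILetI false

namespace Cfsg.Agent.Lib.Helper74.M11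

open Cfsg
open Cfsg.Agent.Lib.Helper83 (trivIrr)
open Cfsg.Agent.Lib.Helper10.BR (DOut)

universe u

/-- Sums over all irreducible characters, written out with the names. -/
theorem sum_names {G : Type u} [Group G] [Fintype (IrrCharacter G)]
    {a b c d11 f g d44 d45 d55 : IrrCharacter G} (hN : Names G a b c d11 f g d44 d45 d55)
    (F : IrrCharacter G → ℂ) :
    ∑ χ : IrrCharacter G, F χ = F (trivIrr G) + F a + F b + F c + F d11 + F f + F g + F d44 +
      F d45 + F d55 := by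
  classical
  have huniv : (Finset.univ : Finset (IrrCharacter G)) =
      [trivIrr G, a, b, c, d11, f, g, d44, d45, d55].toFinset := by
    ext χ
    simp only [Finset.mem_univ, List.mem_toFinset, true_iff]
    exact hN.mem χ
  rw [huniv, List.sum_toFinset F hN.nodup]
  simp only [List.map, List.sum_cons, List.sum_nil]
  ring

/-- The value of an irreducible character at `1` is its degree. -/
theorem val_one {G : Type u} [Group G] (χ : IrrCharacter G) (n : ℕ)
    (h : charDegree (χ : G → ℂ) = n) : (χ : G → ℂ) 1 = (n : ℂ) := by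
  rw [(Cfsg.Agent.Lib.Helper83.irr_degree χ.2).2, h]

/-- S0435: in a simple group of order 7920 the centralizer of an involution has order 48. -/
theorem invol_cent {G : Type u} [Group G] [Finite G] [IsSimpleGroup G]
    (hcard : Nat.card G = 7920) (x : G) (hx : orderOf x = 2) :
    Nat.card (Subgroup.centralizer ({x} : Set G)) = 48 := by
  classical
  letI : Fintype G := Fintype.ofFinite G
  haveI : Finite (IrrCharacter G) := Cfsg.Agent.Lib.Helper82.finite_irrCharacter G
  letI : Fintype (IrrCharacter G) := Fintype.ofFinite _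
  have hG := not_cyclic7920 hcard
  haveI : Fact (Nat.Prime 11) := ⟨by norm_num⟩
  haveI : Fact (Nat.Prime 5) := ⟨by norm_num⟩
  obtain ⟨⟨P, M, X, Y, εX, ε, hM, hP, hC, he, hD⟩, ⟨P5, hP5, hC5⟩⟩ := local_data hG hcard
  obtain ⟨a, b, c, d11, f, g, d44, d45, d55, hN⟩ := names (main hcard).2
  have hT := table11 P M X Y εX ε hM hP hC hD a b c d11 f g d44 d45 d55 hN
  have hxx : x * x = 1 := by
    rw [← pow_two, ← hx]
    exact pow_orderOf_eq_one x
  have hx1 : x ≠ 1 := by
    rintro rfl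
    rw [orderOf_one] at hx
    norm_num at hx
  have hx11 : ¬ 11 ∣ orderOf x := by
    rw [hx]
    norm_num
  have hx5 : ¬ 5 ∣ orderOf x := by
    rw [hx]
    norm_num
  -- the values at `x`
  obtain ⟨u1, hu1, hu1e⟩ := invol_vals x hxx a
  obtain ⟨u2, hu2, hu2e⟩ := invol_vals x hxx b
  obtain ⟨u3, hu3, hu3e⟩ := invol_vals x hxx c
  obtain ⟨c11, hc11, -⟩ := invol_vals x hxx d11
  obtain ⟨w, hw, -⟩ := invol_vals x hxx f
  obtain ⟨w', hw', -⟩ := invol_vals x hxx g
  obtain ⟨c44, hc44, -⟩ := invol_vals x hxx d44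
  obtain ⟨v, hv, -⟩ := invol_vals x hxx d45
  obtain ⟨c55, hc55, -⟩ := invol_vals x hxx d55
  rw [hN.dega] at hu1e
  rw [hN.degb] at hu2e
  rw [hN.degc] at hu3e
  have hu1ev : Even u1 := by
    have h := hu1e.add (show Even ((10 : ℕ) : ℤ) by decide)
    rwa [sub_add_cancel] at h
  have hu2ev : Even u2 := by
    have h := hu2e.add (show Even ((10 : ℕ) : ℤ) by decide)
    rwa [sub_add_cancel] at h
  have hu3ev : Even u3 := by
    have h := hu3e.add (show Even ((10 : ℕ) : ℤ) by decide)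
    rwa [sub_add_cancel] at h
  obtain ⟨hfg, hreg⟩ := hT.reg x hx11
  have hww : w = w' := by
    have h : ((w : ℤ) : ℂ) = ((w' : ℤ) : ℂ) := by rw [← hw, ← hw', hfg]
    exact_mod_cast h
  subst hww
  have h1 : w = 1 + v - u1 - u2 - u3 := by
    have h : ((w : ℤ) : ℂ) = ((1 + v - u1 - u2 - u3 : ℤ) : ℂ) := by
      push_cast
      rw [← hw, ← hv, ← hu1, ← hu2, ← hu3]
      exact hreg
    exact_mod_cast h
  -- a non-identity element of the Sylow 11-subgroup
  obtain ⟨t, ht, ht1⟩ : ∃ t : G, t ∈ (P : Subgroup G) ∧ t ≠ 1 := by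
    by_contra hcon
    push Not at hcon
    have hbot : (P : Subgroup G) = ⊥ := by
      rw [Subgroup.eq_bot_iff_forall]
      exact hcon
    have h1' : Nat.card (P : Subgroup G) = 1 := by
      rw [hbot]
      exact Subgroup.card_bot
    have h2' : Nat.card (P : Subgroup G) = 11 := hP
    omega
  obtain ⟨hat, hbt, hct, h45t, hfgt, h11t, h44t, h55t⟩ := hT.sing t ht ht1
  -- degrees
  have d1 : (trivIrr G : G → ℂ) 1 = 1 := Cfsg.Agent.Lib.Helper83.trivIrr_apply 1
  have da := val_one a 10 hN.dega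
  have db := val_one b 10 hN.degb
  have dc := val_one c 10 hN.degc
  have dd11 := val_one d11 11 hN.deg11
  have df := val_one f 16 hN.degf
  have dg := val_one g 16 hN.degg
  have dd44 := val_one d44 44 hN.deg44
  have dd45 := val_one d45 45 hN.deg45
  have dd55 := val_one d55 55 hN.deg55
  have t1x : (trivIrr G : G → ℂ) x = 1 := Cfsg.Agent.Lib.Helper83.trivIrr_apply x
  have t1t : (trivIrr G : G → ℂ) t = 1 := Cfsg.Agent.Lib.Helper83.trivIrr_apply t
  -- the class-multiplication relation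
  have hsc := sc_sum x t hxx (fun g' h' hg' hh' =>
    no_invol_prod 11 (by norm_num) P hP (by rw [he]; decide) t ht ht1 g' h' hg' hh')
  rw [sum_names hN] at hsc
  rw [t1x, t1t, d1, hu1, hu2, hu3, hc11, hw, hw', hc44, hv, hc55, da, db, dc, dd11, df, dg, dd44,
    dd45, dd55, hat, hbt, hct, h45t, h11t, h44t, h55t] at hsc
  have h2 : 720 + 16 * v ^ 2 = 72 * (u1 ^ 2 + u2 ^ 2 + u3 ^ 2) + 45 * w ^ 2 := by
    have h : ((720 + 16 * v ^ 2 : ℤ) : ℂ) = ((72 * (u1 ^ 2 + u2 ^ 2 + u3 ^ 2) + 45 * w ^ 2 : ℤ) : ℂ) := by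
      push_cast
      have hgt : (g : G → ℂ) t = -1 - (f : G → ℂ) t := by
        rw [← hfgt]
        ring
      rw [hgt] at hsc
      push_cast at hsc
      linear_combination (720 : ℂ) * hsc
    exact_mod_cast h
  -- orthogonality with the identity column
  have hconj1 : ∀ (χ : IrrCharacter G) (n : ℕ), (χ : G → ℂ) 1 = (n : ℂ) →
      (starRingEnd ℂ) ((χ : G → ℂ) 1) = (n : ℂ) := by
    intro χ n h
    rw [h, Complex.conj_natCast]
  have h3c := Cfsg.Agent.Lib.Helper83.column_orthogonality_not_conj (G := G) (g := x) (h := 1)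
    (by rw [isConj_one_right]; exact hx1)
  rw [sum_names hN] at h3c
  rw [hconj1 _ 1 (by rw [d1]; norm_num), hconj1 _ 10 da, hconj1 _ 10 db, hconj1 _ 10 dc,
    hconj1 _ 11 dd11, hconj1 _ 16 df, hconj1 _ 16 dg, hconj1 _ 44 dd44, hconj1 _ 45 dd45,
    hconj1 _ 55 dd55, t1x, hu1, hu2, hu3, hc11, hw, hw', hc44, hv, hc55] at h3c
  have h3 : 1 + 10 * (u1 + u2 + u3) + 11 * c11 + 32 * w + 44 * c44 + 45 * v + 55 * c55 = 0 := by
    have h : ((1 + 10 * (u1 + u2 + u3) + 11 * c11 + 32 * w + 44 * c44 + 45 * v + 55 * c55 : ℤ) : ℂ)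
        = ((0 : ℤ) : ℂ) := by
      push_cast
      push_cast at h3c
      linear_combination h3c
    exact_mod_cast h
  -- the order of the centralizer
  have hconjx : ∀ (k : ℤ), (starRingEnd ℂ) ((k : ℤ) : ℂ) = ((k : ℤ) : ℂ) := fun k =>
    map_intCast (starRingEnd ℂ) k
  have h4c := Cfsg.Agent.Lib.Helper83.column_orthogonality_conj (G := G) (g := x) (h := x)
    (IsConj.refl x)
  rw [sum_names hN] at h4c
  rw [t1x, hu1, hu2, hu3, hc11, hw, hw', hc44, hv, hc55] at h4c
  simp only [hconjx, map_one] at h4c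
  have h4 : ((Nat.card (Subgroup.centralizer ({x} : Set G)) : ℕ) : ℤ) =
      1 + u1 ^ 2 + u2 ^ 2 + u3 ^ 2 + c11 ^ 2 + 2 * w ^ 2 + c44 ^ 2 + v ^ 2 + c55 ^ 2 := by
    have h : (((Nat.card (Subgroup.centralizer ({x} : Set G)) : ℕ) : ℤ) : ℂ) =
        ((1 + u1 ^ 2 + u2 ^ 2 + u3 ^ 2 + c11 ^ 2 + 2 * w ^ 2 + c44 ^ 2 + v ^ 2 + c55 ^ 2 : ℤ) : ℂ) := by
      push_cast
      rw [← h4c]
      ring
    exact_mod_cast h
  -- the centralizer has order dividing 144
  have h5 : Nat.card (Subgroup.centralizer ({x} : Set G)) ∣ 144 := by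
    have hdvd : Nat.card (Subgroup.centralizer ({x} : Set G)) ∣ 7920 := by
      rw [← hcard]
      exact Subgroup.card_subgroup_dvd_card _
    have hn11 := cent_coprime 11 P hP hC x hx11 hx1
    have hn5 := cent_coprime 5 P5 hP5 hC5 x hx5 hx1
    have hc11' : Nat.Coprime (Nat.card (Subgroup.centralizer ({x} : Set G))) 11 :=
      (Nat.Coprime.symm ((Nat.Prime.coprime_iff_not_dvd (by norm_num)).2 hn11))
    have hc5' : Nat.Coprime (Nat.card (Subgroup.centralizer ({x} : Set G))) 5 :=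
      (Nat.Coprime.symm ((Nat.Prime.coprime_iff_not_dvd (by norm_num)).2 hn5))
    have hc55' : Nat.Coprime (Nat.card (Subgroup.centralizer ({x} : Set G))) (5 * 11) :=
      Nat.Coprime.mul_right hc5' hc11'
    have h144 : (144 * (5 * 11) : ℕ) = 7920 := by norm_num
    exact hc55'.dvd_of_dvd_mul_right (by rw [h144]; exact hdvd)
  exact arith_invol u1 u2 u3 v w c11 c44 c55 _ hu1ev hu2ev hu3ev h1 h2 h3 h4 h5

end Cfsg.Agent.Lib.Helper74.M11
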