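import Mathlib
import Cfsg.Agent.Lib.Helper10.BR0
import Cfsg.Agent.Lib.Helper22.DOne2
import Cfsg.Agent.Lib.Helper82.PQ
import Cfsg.Agent.Lib.Helper82.CharCore
import Cfsg.Agent.Lib.Helper83.Ortho
import Cfsg.Agent.Lib.Helper66.BRX4
import Cfsg.Agent.Lib.Helper90.BRX1
import Cfsg.Agent.Lib.Helper92.BRX2
import Cfsg.Agent.Lib.Helper85.BRX8
import Cfsg.Agent.Lib.Helper64.BRG5
import Cfsg.Agent.Lib.Helper34.BRG4
import Cfsg.Agent.Lib.Helper6.BRG8
import Cfsg.Agent.Lib.Helper4.BRX7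
import Cfsg.Agent.Lib.Helper4.BTV2
import Cfsg.Agent.Lib.Helper16.BTV1
import Cfsg.Agent.Lib.Helper74.BRG3
import Cfsg.Agent.Lib.Helper74.BTP4
import Cfsg.Agent.Lib.Helper74.NS19F
import Cfsg.Agent.Lib.Helper74.NS19NC
import Cfsg.Agent.Lib.Helper67.BFZCENT
import Cfsg.Agent.Lib.Helper62.Cent4B
import Cfsg.Agent.Lib.Helper79.Blk2
import Cfsg.Agent.Lib.Helper74.M11Ar
import Cfsg.Agent.Lib.Helper74.M11Defs
import Cfsg.Agent.Lib.Helper74.M11BS
import Cfsg.Agent.Lib.Helper74.M11XDefs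
import Cfsg.Agent.Lib.Helper4.CharDual
import Cfsg.Agent.Lib.Helper4.Eigen

/-!
# S0434 (Sylow 3-normalizers in a simple group of order 7920), piece YAR (placeholder; project of helper74)
-/

set_option autoImplicit false
set_option linter.style.haveILetI false

namespace Cfsg.Agent.Lib.Helper74.M11

open Cfsg
open Cfsg.Agent.Lib.Helper83 (trivIrr)
open Cfsg.Agent.Lib.Helper10.BR (DOut)
open scoped ComplexConjugate

universe u

/-- YAR auxiliary: an integer whose square is below `(k+1)^2` lies in `[-k, k]`. -/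
theorem yar_key (x k : ℤ) (hk : 0 ≤ k) (h : x ^ 2 < (k + 1) ^ 2) : -k ≤ x ∧ x ≤ k := by
  have h' := abs_lt_of_sq_lt_sq h (by linarith)
  rw [abs_lt] at h'
  omega

/-- YAR: the arithmetic of the character values at an element of order 3. -/
theorem arith_three (T N v w c11 c44 c55 : ℤ) (C idx : ℕ)
    (hTN : T ^ 2 ≤ 3 * N)
    (hw3 : (w - 16) % 3 = 0) (hv3 : (v - 45) % 3 = 0) (h113 : (c11 - 11) % 3 = 0)
    (h443 : (c44 - 44) % 3 = 0) (h553 : (c55 - 55) % 3 = 0)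
    (h1 : w = 1 + v - T)
    (h3 : 1 + 10 * T + 11 * c11 + 32 * w + 44 * c44 + 45 * v + 55 * c55 = 0)
    (h4 : (C : ℤ) = 1 + N + c11 ^ 2 + 2 * w ^ 2 + c44 ^ 2 + v ^ 2 + c55 ^ 2)
    (h5 : C ∣ 144) (h6 : 3 ∣ C) (hidx : idx * C = 7920)
    (hcc : (16 : ℤ) ∣ (idx : ℤ) * w) :
    C = 18 ∧ T = 3 ∧ N = 3 ∧ v = 0 ∧ w = -2 ∧ c11 = 2 ∧ c44 = -1 ∧ c55 = 1 := by
  have hN : 0 ≤ N := by nlinarith [sq_nonneg T]
  have hC : C ≤ 144 := Nat.le_of_dvd (by norm_num) h5
  have hCZ : (C : ℤ) ≤ 144 := by exact_mod_cast hC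
  have q11 := sq_nonneg c11
  have q44 := sq_nonneg c44
  have q55 := sq_nonneg c55
  have qv := sq_nonneg v
  have qw := sq_nonneg w
  obtain ⟨w1, w2⟩ := yar_key w 8 (by norm_num) (by nlinarith)
  obtain ⟨v1, v2⟩ := yar_key v 11 (by norm_num) (by nlinarith)
  obtain ⟨a1, a2⟩ := yar_key c11 11 (by norm_num) (by nlinarith)
  obtain ⟨b1, b2⟩ := yar_key c44 11 (by norm_num) (by nlinarith)
  obtain ⟨d1, d2⟩ := yar_key c55 11 (by norm_num) (by nlinarith)
  obtain rfl : T = 1 + v - w := by omega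
  have hC' : C = 3 ∨ C = 6 ∨ C = 9 ∨ C = 12 ∨ C = 18 ∨ C = 24 ∨ C = 36 ∨ C = 48 ∨ C = 72 ∨
      C = 144 := by
    clear h4 hidx hCZ
    interval_cases C <;> omega
  rcases hC' with rfl | rfl | rfl | rfl | rfl | rfl | rfl | rfl | rfl | rfl
  all_goals
    obtain rfl : idx = 7920 / _ := (Nat.div_eq_of_eq_mul_left (by norm_num) hidx.symm).symm
    norm_num at hcc h4
    interval_cases w <;> try omega
  all_goals
    interval_cases v <;> try omega
  all_goals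
    interval_cases c44 <;> try omega
  all_goals
    interval_cases c55 <;> try omega
  all_goals
    interval_cases c11 <;> try omega

end Cfsg.Agent.Lib.Helper74.M11
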