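import Mathlib
import Cfsg.Agent.Lib.Helper10.BR0
import Cfsg.Agent.Lib.Helper22.DOne2
import Cfsg.Agent.Lib.Helper82.PQ
import Cfsg.Agent.Lib.Helper82.CharCore
import Cfsg.Agent.Lib.Helper83.Ortho
import Cfsg.Agent.Lib.Helper66.BRX4
import Cfsg.Agent.Lib.Helper90.BRX1
import Cfsg.Agent.Lib.Helper92.BRX2
import Cfsg.Agent.Lib.Helper85.BRX8
import Cfsg.Agent.Lib.Helper64.BRG5
import Cfsg.Agent.Lib.Helper34.BRG4
import Cfsg.Agent.Lib.Helper6.BRG8
import Cfsg.Agent.Lib.Helper4.BRX7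
import Cfsg.Agent.Lib.Helper4.BTV2
import Cfsg.Agent.Lib.Helper16.BTV1
import Cfsg.Agent.Lib.Helper74.BRG3
import Cfsg.Agent.Lib.Helper74.BTP4
import Cfsg.Agent.Lib.Helper74.NS19F
import Cfsg.Agent.Lib.Helper74.NS19NC
import Cfsg.Agent.Lib.Helper67.BFZCENT
import Cfsg.Agent.Lib.Helper62.Cent4B
import Cfsg.Agent.Lib.Helper79.Blk2
import Cfsg.Agent.Lib.Helper74.M11Ar
import Cfsg.Agent.Lib.Helper74.M11Defs
import Cfsg.Agent.Lib.Helper74.M11BS
import Cfsg.Agent.Lib.Helper74.M11XDefs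
import Cfsg.Agent.Lib.Helper4.CharDual
import Cfsg.Agent.Lib.Helper4.Eigen

/-!
# S0434 (Sylow 3-normalizers in a simple group of order 7920), piece YCC (project of helper74)
-/

set_option autoImplicit false
set_option linter.style.haveILetI false

namespace Cfsg.Agent.Lib.Helper74.M11

open Cfsg
open Cfsg.Agent.Lib.Helper83 (trivIrr)
open Cfsg.Agent.Lib.Helper10.BR (DOut)
open scoped ComplexConjugate

universe u

/-- YCC: integrality of central characters, for an integer character value. -/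
theorem cc_dvd {G : Type u} [Group G] [Fintype G] (χ : IrrCharacter G) (y : G) (k : ℤ)
    (hk : (χ : G → ℂ) y = (k : ℂ)) :
    (charDegree (χ : G → ℂ) : ℤ) ∣
      ((Subgroup.centralizer ({y} : Set G)).index : ℤ) * k := by
  classical
  obtain ⟨n, ρ, hρ, hχ, hn, h1⟩ := Cfsg.Agent.Lib.Helper82.irr_exists_rep χ
  have hdeg : charDegree (χ : G → ℂ) = n := by
    unfold charDegree
    rw [h1, Complex.natCast_re, Nat.floor_natCast]
  rw [hdeg]
  have hint := Cfsg.Agent.Lib.Helper82.irr_centralChar_isIntegral χ y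
  unfold centralChar at hint
  rw [hk, h1] at hint
  have hq : IsIntegral ℤ ((((Subgroup.centralizer ({y} : Set G)).index : ℤ) * k : ℚ) / (n : ℚ)) := by
    apply (isIntegral_algebraMap_iff (algebraMap ℚ ℂ).injective).mp
    simpa using hint
  obtain ⟨m, hm⟩ := IsIntegrallyClosed.isIntegral_iff.mp hq
  have hn0 : (n : ℚ) ≠ 0 := by exact_mod_cast hn
  have hm' : (m : ℚ) = (((Subgroup.centralizer ({y} : Set G)).index : ℤ) * k : ℚ) / (n : ℚ) := hm
  have h2 : ((m * (n : ℤ) : ℤ) : ℚ) = ((((Subgroup.centralizer ({y} : Set G)).index : ℤ) * k : ℤ) : ℚ) := by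
    push_cast
    rw [hm']
    field_simp
    push_cast
    ring
  have h3 : m * (n : ℤ) = ((Subgroup.centralizer ({y} : Set G)).index : ℤ) * k := by
    exact_mod_cast h2
  exact ⟨m, by rw [← h3, mul_comm]⟩

end Cfsg.Agent.Lib.Helper74.M11
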