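import Mathlib
import Cfsg.Agent.Lib.Helper10.BR0
import Cfsg.Agent.Lib.Helper22.DOne2
import Cfsg.Agent.Lib.Helper82.PQ
import Cfsg.Agent.Lib.Helper82.CharCore
import Cfsg.Agent.Lib.Helper83.Ortho
import Cfsg.Agent.Lib.Helper66.BRX4
import Cfsg.Agent.Lib.Helper90.BRX1
import Cfsg.Agent.Lib.Helper92.BRX2
import Cfsg.Agent.Lib.Helper85.BRX8
import Cfsg.Agent.Lib.Helper64.BRG5
import Cfsg.Agent.Lib.Helper34.BRG4
import Cfsg.Agent.Lib.Helper6.BRG8
import Cfsg.Agent.Lib.Helper4.BRX7
import Cfsg.Agent.Lib.Helper4.BTV2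
import Cfsg.Agent.Lib.Helper16.BTV1
import Cfsg.Agent.Lib.Helper74.BRG3
import Cfsg.Agent.Lib.Helper74.BTP4
import Cfsg.Agent.Lib.Helper74.NS19F
import Cfsg.Agent.Lib.Helper74.NS19NC
import Cfsg.Agent.Lib.Helper67.BFZCENT
import Cfsg.Agent.Lib.Helper62.Cent4B
import Cfsg.Agent.Lib.Helper79.Blk2
import Cfsg.Agent.Lib.Helper74.M11Ar
import Cfsg.Agent.Lib.Helper74.M11Defs
import Cfsg.Agent.Lib.Helper74.M11BS
import Cfsg.Agent.Lib.Helper74.M11XDefs
import Cfsg.Agent.Lib.Helper4.CharDual
import Cfsg.Agent.Lib.Helper4.Eigen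

/-!
# S0434 (Sylow 3-normalizers in a simple group of order 7920), piece YCN (project of helper74; proof by helper52)
-/

set_option autoImplicit false
set_option linter.style.haveILetI false

namespace Cfsg.Agent.Lib.Helper74.M11

open Cfsg
open Cfsg.Agent.Lib.Helper83 (trivIrr)
open Cfsg.Agent.Lib.Helper10.BR (DOut)
open scoped ComplexConjugate

universe u

theorem ycn_index_two {G : Type u} [Group G] [Finite G] (Z C : Subgroup G) (hZC : Z ≤ C)
    (n : ℕ) (hn : 0 < n) (hZ : Nat.card Z = n) (hC : Nat.card C = 2 * n) :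
    (Z.subgroupOf C).index = 2 := by
  have h1 : Nat.card (Z.subgroupOf C) = n := by
    rw [Nat.card_congr (Subgroup.subgroupOfEquivOfLe hZC).toEquiv]
    exact hZ
  have h2 := Subgroup.card_mul_index (Z.subgroupOf C)
  rw [h1, hC] at h2
  have : n * (Z.subgroupOf C).index = n * 2 := by rw [h2]; ring
  exact Nat.eq_of_mul_eq_mul_left hn this

/-- YCN: the centralizer of an element of order 3 normalizes the Sylow 3-subgroup containing
it. -/
theorem cent_le_norm {G : Type u} [Group G] [Finite G] (P : Sylow 3 G) (hP : Nat.card P = 9)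
    (y : G) (hyP : y ∈ (P : Subgroup G))
    (h18 : Nat.card (Subgroup.centralizer ({y} : Set G)) = 18) :
    Subgroup.centralizer ({y} : Set G) ≤ Subgroup.normalizer ((P : Subgroup G) : Set G) := by
  haveI : Fact (Nat.Prime 3) := ⟨by norm_num⟩
  have hP' : Nat.card (P : Subgroup G) = 3 ^ 2 := hP
  haveI hcomm : IsMulCommutative (P : Subgroup G) :=
    IsPGroup.isMulCommutative_of_card_eq_prime_sq hP'
  have hPC : (P : Subgroup G) ≤ Subgroup.centralizer ({y} : Set G) := by
    intro g hg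
    rw [Subgroup.mem_centralizer_iff]
    intro z hz
    rw [Set.mem_singleton_iff] at hz
    rw [hz]
    have := hcomm.is_comm.comm (⟨y, hyP⟩ : (P : Subgroup G)) ⟨g, hg⟩
    exact congrArg Subtype.val this
  have hidx := ycn_index_two _ _ hPC 9 (by norm_num) hP (by rw [h18])
  haveI hn : ((P : Subgroup G).subgroupOf (Subgroup.centralizer ({y} : Set G))).Normal :=
    Subgroup.normal_of_index_eq_two hidx
  exact Subgroup.le_normalizer_of_normal_subgroupOf hPC

end Cfsg.Agent.Lib.Helper74.M11
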