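import Mathlib
import Cfsg.Agent.Lib.Helper10.BR0
import Cfsg.Agent.Lib.Helper22.DOne2
import Cfsg.Agent.Lib.Helper82.PQ
import Cfsg.Agent.Lib.Helper82.CharCore
import Cfsg.Agent.Lib.Helper83.Ortho
import Cfsg.Agent.Lib.Helper66.BRX4
import Cfsg.Agent.Lib.Helper90.BRX1
import Cfsg.Agent.Lib.Helper92.BRX2
import Cfsg.Agent.Lib.Helper85.BRX8
import Cfsg.Agent.Lib.Helper64.BRG5
import Cfsg.Agent.Lib.Helper34.BRG4
import Cfsg.Agent.Lib.Helper6.BRG8
import Cfsg.Agent.Lib.Helper4.BRX7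
import Cfsg.Agent.Lib.Helper4.BTV2
import Cfsg.Agent.Lib.Helper16.BTV1
import Cfsg.Agent.Lib.Helper74.BRG3
import Cfsg.Agent.Lib.Helper74.BTP4
import Cfsg.Agent.Lib.Helper74.NS19F
import Cfsg.Agent.Lib.Helper74.NS19NC
import Cfsg.Agent.Lib.Helper67.BFZCENT
import Cfsg.Agent.Lib.Helper62.Cent4B
import Cfsg.Agent.Lib.Helper79.Blk2
import Cfsg.Agent.Lib.Helper74.M11Ar
import Cfsg.Agent.Lib.Helper74.M11Defs
import Cfsg.Agent.Lib.Helper74.M11BS
import Cfsg.Agent.Lib.Helper74.M11XDefs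
import Cfsg.Agent.Lib.Helper4.CharDual
import Cfsg.Agent.Lib.Helper4.Eigen

/-!
# S0434 (Sylow 3-normalizers in a simple group of order 7920), piece YE3 (project of helper74)
-/

set_option autoImplicit false
set_option linter.style.haveILetI false

namespace Cfsg.Agent.Lib.Helper74.M11

open Cfsg
open Cfsg.Agent.Lib.Helper83 (trivIrr)
open Cfsg.Agent.Lib.Helper10.BR (DOut)
open scoped ComplexConjugate

universe u

theorem ye3_char {G : Type*} [Group G] [Finite G] {V : Type*} [AddCommGroup V] [Module ℂ V]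
    [FiniteDimensional ℂ V] (ω : ℂ) (hω : ω ^ 2 + ω + 1 = 0) (ρ : Representation ℂ G V) (g : G)
    (hg : g ^ 3 = 1) :
    ∃ A B C : ℕ, ρ.character g = (A : ℂ) + (B : ℂ) * ω + (C : ℂ) * ω ^ 2 ∧
      ρ.character 1 = (A : ℂ) + (B : ℂ) + (C : ℂ) := by
  classical
  have hf : (ρ g) ^ 3 = 1 := by rw [← map_pow, hg, map_one]
  obtain ⟨ι, hι, hd, v, μ, h1, h2⟩ :=
    Cfsg.Agent.Lib.Helper4.exists_eigenbasis (ρ g) 3 (by norm_num) hf
  have hμ : ∀ i, μ i = 1 ∨ μ i = ω ∨ μ i = ω ^ 2 := by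
    intro i
    have h3 : (μ i - 1) * ((μ i - ω) * (μ i - ω ^ 2)) = 0 := by
      linear_combination h2 i + (-(μ i) ^ 2 + ω * μ i - ω + 1) * hω
    rcases mul_eq_zero.mp h3 with h | h
    · left; exact sub_eq_zero.mp h
    · rcases mul_eq_zero.mp h with h | h
      · right; left; exact sub_eq_zero.mp h
      · right; right; exact sub_eq_zero.mp h
  refine ⟨(Finset.univ.filter fun i => μ i = 1).card,
    ((Finset.univ.filter fun i => ¬ μ i = 1).filter fun i => μ i = ω).card,
    ((Finset.univ.filter fun i => ¬ μ i = 1).filter fun i => ¬ μ i = ω).card, ?_, ?_⟩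
  · rw [Representation.character, Cfsg.Agent.Lib.Helper4.trace_eq_sum_of_eigenbasis v (ρ g) μ h1]
    rw [← Finset.sum_filter_add_sum_filter_not Finset.univ (fun i => μ i = 1)]
    rw [← Finset.sum_filter_add_sum_filter_not (Finset.univ.filter fun i => ¬ μ i = 1)
      (fun i => μ i = ω)]
    have e1 : ∑ i ∈ Finset.univ.filter (fun i => μ i = 1), μ i =
        ((Finset.univ.filter fun i => μ i = 1).card : ℂ) := by
      rw [Finset.sum_congr rfl (g := fun _ => (1 : ℂ))]
      · simp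
      · intro i hi
        exact (Finset.mem_filter.mp hi).2
    have e2 : ∑ i ∈ (Finset.univ.filter fun i => ¬ μ i = 1).filter (fun i => μ i = ω), μ i =
        (((Finset.univ.filter fun i => ¬ μ i = 1).filter fun i => μ i = ω).card : ℂ) * ω := by
      rw [Finset.sum_congr rfl (g := fun _ => ω)]
      · simp
      · intro i hi
        exact (Finset.mem_filter.mp hi).2
    have e3 : ∑ i ∈ (Finset.univ.filter fun i => ¬ μ i = 1).filter (fun i => ¬ μ i = ω), μ i =
        (((Finset.univ.filter fun i => ¬ μ i = 1).filter fun i => ¬ μ i = ω).card : ℂ) *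
          ω ^ 2 := by
      rw [Finset.sum_congr rfl (g := fun _ => ω ^ 2)]
      · simp
      · intro i hi
        have hi1 := Finset.mem_filter.mp hi
        have hi2 := Finset.mem_filter.mp hi1.1
        rcases hμ i with h | h | h
        · exact absurd h hi2.2
        · exact absurd h hi1.2
        · exact h
    rw [e1, e2, e3]
    ring
  · rw [Representation.char_one, Module.finrank_eq_card_basis v]
    rw [add_assoc, ← Nat.cast_add, ← Nat.cast_add, Finset.card_filter_add_card_filter_not,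
      Finset.card_filter_add_card_filter_not]
    simp

/-- YE3: character values at an element of order dividing 3 are `A + B ω + C ω²` with
`A + B + C` the degree, for a fixed primitive cube root of unity `ω`. -/
theorem irr_order3 : ∃ ω : ℂ, ω ^ 2 + ω + 1 = 0 ∧
    ∀ (G : Type u) [Group G] [Fintype G] (χ : IrrCharacter G) (y : G), y ^ 3 = 1 →
      ∃ A B C : ℕ, (χ : G → ℂ) y = (A : ℂ) + (B : ℂ) * ω + (C : ℂ) * ω ^ 2 ∧
        (χ : G → ℂ) 1 = (A : ℂ) + (B : ℂ) + (C : ℂ) := by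
  have hprim := Complex.isPrimitiveRoot_exp 3 (by norm_num)
  have h3 : Complex.exp (2 * Real.pi * Complex.I / (3 : ℕ)) ^ 3 = 1 := hprim.pow_eq_one
  have h1 : Complex.exp (2 * Real.pi * Complex.I / (3 : ℕ)) ≠ 1 := hprim.ne_one (by norm_num)
  have hω : Complex.exp (2 * Real.pi * Complex.I / (3 : ℕ)) ^ 2 +
      Complex.exp (2 * Real.pi * Complex.I / (3 : ℕ)) + 1 = 0 := by
    have h4 : (Complex.exp (2 * Real.pi * Complex.I / (3 : ℕ)) - 1) *
        (Complex.exp (2 * Real.pi * Complex.I / (3 : ℕ)) ^ 2 +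
          Complex.exp (2 * Real.pi * Complex.I / (3 : ℕ)) + 1) = 0 := by
      linear_combination h3
    rcases mul_eq_zero.mp h4 with h | h
    · exact absurd (sub_eq_zero.mp h) h1
    · exact h
  refine ⟨Complex.exp (2 * Real.pi * Complex.I / (3 : ℕ)), hω, ?_⟩
  intro G _ _ χ y hy
  obtain ⟨n, ρ, hρ, hχ⟩ := χ.2
  rw [← hχ]
  exact ye3_char _ hω ρ y hy

end Cfsg.Agent.Lib.Helper74.M11
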