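import Mathlib
import Cfsg.Agent.Lib.Helper10.BR0
import Cfsg.Agent.Lib.Helper22.DOne2
import Cfsg.Agent.Lib.Helper82.PQ
import Cfsg.Agent.Lib.Helper82.CharCore
import Cfsg.Agent.Lib.Helper83.Ortho
import Cfsg.Agent.Lib.Helper66.BRX4
import Cfsg.Agent.Lib.Helper90.BRX1
import Cfsg.Agent.Lib.Helper92.BRX2
import Cfsg.Agent.Lib.Helper85.BRX8
import Cfsg.Agent.Lib.Helper64.BRG5
import Cfsg.Agent.Lib.Helper34.BRG4
import Cfsg.Agent.Lib.Helper6.BRG8
import Cfsg.Agent.Lib.Helper4.BRX7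
import Cfsg.Agent.Lib.Helper4.BTV2
import Cfsg.Agent.Lib.Helper16.BTV1
import Cfsg.Agent.Lib.Helper74.BRG3
import Cfsg.Agent.Lib.Helper74.BTP4
import Cfsg.Agent.Lib.Helper74.NS19F
import Cfsg.Agent.Lib.Helper74.NS19NC
import Cfsg.Agent.Lib.Helper67.BFZCENT
import Cfsg.Agent.Lib.Helper62.Cent4B
import Cfsg.Agent.Lib.Helper79.Blk2
import Cfsg.Agent.Lib.Helper74.M11Ar
import Cfsg.Agent.Lib.Helper74.M11Defs
import Cfsg.Agent.Lib.Helper74.M11BS
import Cfsg.Agent.Lib.Helper74.M11XDefs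
import Cfsg.Agent.Lib.Helper4.CharDual
import Cfsg.Agent.Lib.Helper4.Eigen

/-!
# S0434 (Sylow 3-normalizers in a simple group of order 7920), piece YEQ (project of helper74)
-/

set_option autoImplicit false
set_option linter.style.haveILetI false

namespace Cfsg.Agent.Lib.Helper74.M11

open Cfsg
open Cfsg.Agent.Lib.Helper83 (trivIrr)
open Cfsg.Agent.Lib.Helper10.BR (DOut)
open scoped ComplexConjugate

universe u

/-- YEQ: three complex numbers with sum 3 and sum of squared absolute values 3 are all 1. -/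
theorem eq_one_of_sum (z₁ z₂ z₃ : ℂ) (hT : z₁ + z₂ + z₃ = 3)
    (hN : z₁ * conj z₁ + z₂ * conj z₂ + z₃ * conj z₃ = 3) : z₁ = 1 ∧ z₂ = 1 ∧ z₃ = 1 := by
  have hT' : (starRingEnd ℂ) z₁ + (starRingEnd ℂ) z₂ + (starRingEnd ℂ) z₃ = 3 := by
    have := congrArg (starRingEnd ℂ) hT
    rw [map_add, map_add, map_ofNat] at this
    exact this
  have h0 : ((Complex.normSq (z₁ - 1) + Complex.normSq (z₂ - 1) + Complex.normSq (z₃ - 1) : ℝ) : ℂ)
      = 0 := by
    push_cast
    rw [← Complex.mul_conj, ← Complex.mul_conj, ← Complex.mul_conj]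
    simp only [map_sub, map_one]
    linear_combination hN - hT - hT'
  have h0' : Complex.normSq (z₁ - 1) + Complex.normSq (z₂ - 1) + Complex.normSq (z₃ - 1) = 0 := by
    exact_mod_cast h0
  have n1 := Complex.normSq_nonneg (z₁ - 1)
  have n2 := Complex.normSq_nonneg (z₂ - 1)
  have n3 := Complex.normSq_nonneg (z₃ - 1)
  have e1 : Complex.normSq (z₁ - 1) = 0 := by linarith
  have e2 : Complex.normSq (z₂ - 1) = 0 := by linarith
  have e3 : Complex.normSq (z₃ - 1) = 0 := by linarith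
  exact ⟨sub_eq_zero.1 (Complex.normSq_eq_zero.1 e1), sub_eq_zero.1 (Complex.normSq_eq_zero.1 e2),
    sub_eq_zero.1 (Complex.normSq_eq_zero.1 e3)⟩

end Cfsg.Agent.Lib.Helper74.M11
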