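import Mathlib
import Cfsg.Agent.Lib.Helper10.BR0
import Cfsg.Agent.Lib.Helper22.DOne2
import Cfsg.Agent.Lib.Helper82.PQ
import Cfsg.Agent.Lib.Helper82.CharCore
import Cfsg.Agent.Lib.Helper83.Ortho
import Cfsg.Agent.Lib.Helper66.BRX4
import Cfsg.Agent.Lib.Helper90.BRX1
import Cfsg.Agent.Lib.Helper92.BRX2
import Cfsg.Agent.Lib.Helper85.BRX8
import Cfsg.Agent.Lib.Helper64.BRG5
import Cfsg.Agent.Lib.Helper34.BRG4
import Cfsg.Agent.Lib.Helper6.BRG8
import Cfsg.Agent.Lib.Helper4.BRX7
import Cfsg.Agent.Lib.Helper4.BTV2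
import Cfsg.Agent.Lib.Helper16.BTV1
import Cfsg.Agent.Lib.Helper74.BRG3
import Cfsg.Agent.Lib.Helper74.BTP4
import Cfsg.Agent.Lib.Helper74.NS19F
import Cfsg.Agent.Lib.Helper74.NS19NC
import Cfsg.Agent.Lib.Helper67.BFZCENT
import Cfsg.Agent.Lib.Helper62.Cent4B
import Cfsg.Agent.Lib.Helper79.Blk2
import Cfsg.Agent.Lib.Helper74.M11Ar
import Cfsg.Agent.Lib.Helper74.M11Defs
import Cfsg.Agent.Lib.Helper74.M11BS
import Cfsg.Agent.Lib.Helper74.M11XDefs
import Cfsg.Agent.Lib.Helper4.CharDual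
import Cfsg.Agent.Lib.Helper4.Eigen

/-!
# S0434 (Sylow 3-normalizers in a simple group of order 7920), piece YN9 (project of helper74; proof by helper52)
-/

set_option autoImplicit false
set_option linter.style.haveILetI false

namespace Cfsg.Agent.Lib.Helper74.M11

open Cfsg
open Cfsg.Agent.Lib.Helper83 (trivIrr)
open Cfsg.Agent.Lib.Helper10.BR (DOut)
open scoped ComplexConjugate

universe u

theorem yn9_index_two {G : Type u} [Group G] [Finite G] (Z C : Subgroup G) (hZC : Z ≤ C)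
    (n : ℕ) (hn : 0 < n) (hZ : Nat.card Z = n) (hC : Nat.card C = 2 * n) :
    (Z.subgroupOf C).index = 2 := by
  have h1 : Nat.card (Z.subgroupOf C) = n := by
    rw [Nat.card_congr (Subgroup.subgroupOfEquivOfLe hZC).toEquiv]
    exact hZ
  have h2 := Subgroup.card_mul_index (Z.subgroupOf C)
  rw [h1, hC] at h2
  have : n * (Z.subgroupOf C).index = n * 2 := by rw [h2]; ring
  exact Nat.eq_of_mul_eq_mul_left hn this

/-- YN9: no elements of order 9. -/
theorem no_order9 {G : Type u} [Group G] [Finite G]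
    (h48 : ∀ x : G, orderOf x = 2 → Nat.card (Subgroup.centralizer ({x} : Set G)) = 48)
    (h18 : ∀ y : G, orderOf y = 3 → Nat.card (Subgroup.centralizer ({y} : Set G)) = 18)
    (s : G) : orderOf s ≠ 9 := by
  classical
  intro hs
  have hy : orderOf (s ^ 3) = 3 := by
    rw [orderOf_pow' s (by norm_num), hs]
    norm_num
  have hCcard := h18 _ hy
  have hsC : s ∈ Subgroup.centralizer ({s ^ 3} : Set G) := by
    rw [Subgroup.mem_centralizer_iff]
    intro g hg
    rw [Set.mem_singleton_iff] at hg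
    rw [hg, ← pow_succ, ← pow_succ']
  haveI : Fact (Nat.Prime 2) := ⟨Nat.prime_two⟩
  obtain ⟨t, ht⟩ := exists_prime_orderOf_dvd_card'
    (G := Subgroup.centralizer ({s ^ 3} : Set G)) 2 (by rw [hCcard]; norm_num)
  have htG : orderOf (t : G) = 2 := by rw [Subgroup.orderOf_coe]; exact ht
  have hZC : Subgroup.zpowers s ≤ Subgroup.centralizer ({s ^ 3} : Set G) := by
    rw [Subgroup.zpowers_le]; exact hsC
  have hZcard : Nat.card (Subgroup.zpowers s) = 9 := by rw [Nat.card_zpowers]; exact hs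
  have hidx := yn9_index_two _ _ hZC 9 (by norm_num) hZcard (by rw [hCcard])
  haveI hn : ((Subgroup.zpowers s).subgroupOf (Subgroup.centralizer ({s ^ 3} : Set G))).Normal :=
    Subgroup.normal_of_index_eq_two hidx
  have hconj : (t : G) * s * (t : G)⁻¹ ∈ Subgroup.zpowers s := by
    have h1 := hn.conj_mem ⟨s, hsC⟩
      (by rw [Subgroup.mem_subgroupOf]; exact Subgroup.mem_zpowers s) t
    rw [Subgroup.mem_subgroupOf] at h1
    exact h1
  rw [mem_zpowers_iff_mem_range_orderOf, hs, Finset.mem_image] at hconj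
  obtain ⟨k, hk, hkeq⟩ := hconj
  rw [Finset.mem_range] at hk
  have htt : (t : G) * (t : G) = 1 := by
    have := pow_orderOf_eq_one (t : G)
    rw [htG, pow_two] at this
    exact this
  have htinv : (t : G)⁻¹ = (t : G) := inv_eq_of_mul_eq_one_left htt
  have hpow : ∀ m : ℕ, (t : G) * s ^ m * (t : G)⁻¹ = s ^ (k * m) := by
    intro m
    rw [← conj_pow, ← hkeq, ← pow_mul]
  have h2 : s ^ (k * k) = s ^ 1 := by
    rw [← hpow k, hkeq, pow_one]
    calc (t : G) * ((t : G) * s * (t : G)⁻¹) * (t : G)⁻¹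
        = ((t : G) * (t : G)) * s * ((t : G) * (t : G))⁻¹ := by group
      _ = s := by rw [htt, inv_one, one_mul, mul_one]
  rw [pow_eq_pow_iff_modEq, hs] at h2
  have htC : (t : G) * s ^ 3 = s ^ 3 * (t : G) := by
    have := t.2
    rw [Subgroup.mem_centralizer_iff] at this
    exact (this (s ^ 3) (Set.mem_singleton _)).symm
  have h3 : s ^ (k * 3) = s ^ 3 := by
    rw [← hpow 3, htC, mul_assoc, mul_inv_cancel, mul_one]
  rw [pow_eq_pow_iff_modEq, hs] at h3
  have hk1 : k = 1 := by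
    unfold Nat.ModEq at h2 h3
    interval_cases k <;> omega
  subst hk1
  rw [pow_one] at hkeq
  have hsT : s ∈ Subgroup.centralizer ({(t : G)} : Set G) := by
    rw [Subgroup.mem_centralizer_iff]
    intro g hg
    rw [Set.mem_singleton_iff] at hg
    rw [hg]
    calc (t : G) * s = (t : G) * s * (t : G)⁻¹ * (t : G) := by group
      _ = s * (t : G) := by rw [← hkeq]
  have h48' := h48 _ htG
  have hdvd : orderOf (⟨s, hsT⟩ : Subgroup.centralizer ({(t : G)} : Set G)) ∣ 48 := by
    rw [← h48']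
    exact orderOf_dvd_natCard _
  rw [← Subgroup.orderOf_coe] at hdvd
  simp only [] at hdvd
  rw [hs] at hdvd
  omega

end Cfsg.Agent.Lib.Helper74.M11
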