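import Mathlib
import Cfsg.Agent.Lib.Helper10.BR0
import Cfsg.Agent.Lib.Helper22.DOne2
import Cfsg.Agent.Lib.Helper82.PQ
import Cfsg.Agent.Lib.Helper82.CharCore
import Cfsg.Agent.Lib.Helper83.Ortho
import Cfsg.Agent.Lib.Helper66.BRX4
import Cfsg.Agent.Lib.Helper90.BRX1
import Cfsg.Agent.Lib.Helper92.BRX2
import Cfsg.Agent.Lib.Helper85.BRX8
import Cfsg.Agent.Lib.Helper64.BRG5
import Cfsg.Agent.Lib.Helper34.BRG4
import Cfsg.Agent.Lib.Helper6.BRG8
import Cfsg.Agent.Lib.Helper4.BRX7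
import Cfsg.Agent.Lib.Helper4.BTV2
import Cfsg.Agent.Lib.Helper16.BTV1
import Cfsg.Agent.Lib.Helper74.BRG3
import Cfsg.Agent.Lib.Helper74.BTP4
import Cfsg.Agent.Lib.Helper74.NS19F
import Cfsg.Agent.Lib.Helper74.NS19NC
import Cfsg.Agent.Lib.Helper67.BFZCENT
import Cfsg.Agent.Lib.Helper62.Cent4B
import Cfsg.Agent.Lib.Helper79.Blk2
import Cfsg.Agent.Lib.Helper74.M11Ar
import Cfsg.Agent.Lib.Helper74.M11Defs
import Cfsg.Agent.Lib.Helper74.M11BS
import Cfsg.Agent.Lib.Helper74.M11XDefs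
import Cfsg.Agent.Lib.Helper4.CharDual
import Cfsg.Agent.Lib.Helper4.Eigen

/-!
# S0434 (Sylow 3-normalizers in a simple group of order 7920), piece YNC (project of helper74; proof by helper52)
-/

set_option autoImplicit false
set_option linter.style.haveILetI false

namespace Cfsg.Agent.Lib.Helper74.M11

open Cfsg
open Cfsg.Agent.Lib.Helper83 (trivIrr)
open Cfsg.Agent.Lib.Helper10.BR (DOut)
open scoped ComplexConjugate

universe u

theorem ync_card_nonid {G : Type u} [Group G] [Finite G] (P : Subgroup G) (n : ℕ)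
    (hP : Nat.card P = n) : Nat.card ↥((P : Set G) \ {1}) = n - 1 := by
  have h1 : (1 : G) ∈ (P : Set G) := P.one_mem
  rw [Nat.card_coe_set_eq, Set.ncard_sdiff_singleton_of_mem h1, ← Nat.card_coe_set_eq]
  exact congrArg (· - 1) hP

theorem ync_aux {G : Type u} [Group G] (a n y : G) (h3 : a * y * a⁻¹ = n * y * n⁻¹) :
    y * (a⁻¹ * n) = a⁻¹ * n * y := by
  calc y * (a⁻¹ * n) = a⁻¹ * (a * y * a⁻¹) * n := by group
    _ = a⁻¹ * (n * y * n⁻¹) * n := by rw [h3]
    _ = a⁻¹ * n * y := by group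

/-- YNC: the order of the normalizer of a Sylow 3-subgroup of order 9 all of whose non-identity
elements are conjugate in the whole group with centralizers of order 18 inside the
normalizer. -/
theorem norm_card {G : Type u} [Group G] [Finite G] (P : Sylow 3 G) (hP : Nat.card P = 9)
    (hconj : ∀ y y' : G, y ∈ (P : Subgroup G) → y' ∈ (P : Subgroup G) → y ≠ 1 → y' ≠ 1 →
      IsConj y y')
    (hcent : ∀ y : G, y ∈ (P : Subgroup G) → y ≠ 1 →
      Nat.card (Subgroup.centralizer ({y} : Set G)) = 18 ∧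
      Subgroup.centralizer ({y} : Set G) ≤ Subgroup.normalizer ((P : Subgroup G) : Set G)) :
    Nat.card (Subgroup.normalizer ((P : Subgroup G) : Set G)) = 144 := by
  classical
  haveI : Fact (Nat.Prime 3) := ⟨by norm_num⟩
  have hP' : Nat.card (P : Subgroup G) = 3 ^ 2 := hP
  haveI hcomm : IsMulCommutative (P : Subgroup G) :=
    IsPGroup.isMulCommutative_of_card_eq_prime_sq hP'
  haveI hcomm' : IsMulCommutative P := hcomm
  have hnt : ∃ y₀ : G, y₀ ∈ (P : Subgroup G) ∧ y₀ ≠ 1 := by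
    by_contra hne
    push Not at hne
    have hbot : (P : Subgroup G) = ⊥ := (Subgroup.eq_bot_iff_forall _).2 hne
    have h1 : Nat.card (P : Subgroup G) = 1 := by rw [hbot]; exact Subgroup.card_bot
    rw [hP'] at h1
    omega
  obtain ⟨y₀, hy₀P, hy₀⟩ := hnt
  obtain ⟨hC18, hCN⟩ := hcent y₀ hy₀P hy₀
  have hfus : ∀ z : G, z ∈ (P : Subgroup G) → z ≠ 1 →
      ∃ n ∈ Subgroup.normalizer ((P : Subgroup G) : Set G), n * y₀ * n⁻¹ = z := by
    intro z hz hz1
    obtain ⟨c, hc⟩ := isConj_iff.1 (hconj y₀ z hy₀P hz hy₀ hz1)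
    obtain ⟨n, hn, hneq⟩ := Sylow.conj_eq_normalizer_conj_of_mem P y₀ c⁻¹ hy₀P
      (by rw [inv_inv, hc]; exact hz)
    refine ⟨n⁻¹, inv_mem hn, ?_⟩
    rw [inv_inv, ← hneq, inv_inv, hc]
  choose! nz hnzN hnz using hfus
  have hconjC : ∀ c ∈ Subgroup.centralizer ({y₀} : Set G), c * y₀ * c⁻¹ = y₀ := by
    intro c hc
    rw [Subgroup.mem_centralizer_iff] at hc
    have := hc y₀ (Set.mem_singleton _)
    rw [← this, mul_inv_cancel_right]
  have hconjmul : ∀ (n c : G), c ∈ Subgroup.centralizer ({y₀} : Set G) →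
      (n * c) * y₀ * (n * c)⁻¹ = n * y₀ * n⁻¹ := by
    intro n c hc
    calc (n * c) * y₀ * (n * c)⁻¹ = n * (c * y₀ * c⁻¹) * n⁻¹ := by group
      _ = n * y₀ * n⁻¹ := by rw [hconjC c hc]
  let f : ↥(((P : Subgroup G) : Set G) \ {1}) × (Subgroup.centralizer ({y₀} : Set G)) →
      Subgroup.normalizer ((P : Subgroup G) : Set G) :=
    fun p => ⟨nz p.1.1 * p.2.1, mul_mem (hnzN _ p.1.2.1 p.1.2.2) (hCN p.2.2)⟩
  have hf : Function.Bijective f := by
    constructor
    · rintro ⟨⟨z, hz⟩, ⟨c, hc⟩⟩ ⟨⟨z', hz'⟩, ⟨c', hc'⟩⟩ h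
      have h' : nz z * c = nz z' * c' := congrArg Subtype.val h
      have e1 : (nz z * c) * y₀ * (nz z * c)⁻¹ = z := by
        rw [hconjmul _ _ hc]; exact hnz z hz.1 hz.2
      have e2 : (nz z' * c') * y₀ * (nz z' * c')⁻¹ = z' := by
        rw [hconjmul _ _ hc']; exact hnz z' hz'.1 hz'.2
      have hzz : z = z' := by rw [← e1, ← e2, h']
      subst hzz
      have hcc : c = c' := mul_left_cancel h'
      subst hcc
      rfl
    · rintro ⟨n, hn⟩
      have hzP : n * y₀ * n⁻¹ ∈ (P : Subgroup G) :=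
        (Subgroup.mem_normalizer_iff.1 hn y₀).1 hy₀P
      have hz1 : n * y₀ * n⁻¹ ≠ 1 := by
        intro h
        apply hy₀
        have : y₀ = n⁻¹ * (n * y₀ * n⁻¹) * n := by group
        rw [this, h]; group
      have hcC : (nz (n * y₀ * n⁻¹))⁻¹ * n ∈ Subgroup.centralizer ({y₀} : Set G) := by
        rw [Subgroup.mem_centralizer_iff]
        intro g hg
        rw [Set.mem_singleton_iff] at hg
        rw [hg]
        exact ync_aux _ n y₀ (hnz _ hzP hz1)
      refine ⟨(⟨⟨n * y₀ * n⁻¹, hzP, hz1⟩, ⟨_, hcC⟩⟩ : _ × _), ?_⟩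
      apply Subtype.ext
      show nz (n * y₀ * n⁻¹) * ((nz (n * y₀ * n⁻¹))⁻¹ * n) = n
      group
  rw [← Nat.card_congr (Equiv.ofBijective f hf), Nat.card_prod, hC18,
    ync_card_nonid (P : Subgroup G) 9 hP]

end Cfsg.Agent.Lib.Helper74.M11
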