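import Mathlib
import Cfsg.Agent.Lib.Helper10.BR0
import Cfsg.Agent.Lib.Helper22.DOne2
import Cfsg.Agent.Lib.Helper82.PQ
import Cfsg.Agent.Lib.Helper82.CharCore
import Cfsg.Agent.Lib.Helper83.Ortho
import Cfsg.Agent.Lib.Helper66.BRX4
import Cfsg.Agent.Lib.Helper90.BRX1
import Cfsg.Agent.Lib.Helper92.BRX2
import Cfsg.Agent.Lib.Helper85.BRX8
import Cfsg.Agent.Lib.Helper64.BRG5
import Cfsg.Agent.Lib.Helper34.BRG4
import Cfsg.Agent.Lib.Helper6.BRG8
import Cfsg.Agent.Lib.Helper4.BRX7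
import Cfsg.Agent.Lib.Helper4.BTV2
import Cfsg.Agent.Lib.Helper16.BTV1
import Cfsg.Agent.Lib.Helper74.BRG3
import Cfsg.Agent.Lib.Helper74.BTP4
import Cfsg.Agent.Lib.Helper74.NS19F
import Cfsg.Agent.Lib.Helper74.NS19NC
import Cfsg.Agent.Lib.Helper67.BFZCENT
import Cfsg.Agent.Lib.Helper62.Cent4B
import Cfsg.Agent.Lib.Helper79.Blk2
import Cfsg.Agent.Lib.Helper74.M11Ar
import Cfsg.Agent.Lib.Helper74.M11Defs
import Cfsg.Agent.Lib.Helper74.M11BS
import Cfsg.Agent.Lib.Helper74.M11XDefs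
import Cfsg.Agent.Lib.Helper4.CharDual
import Cfsg.Agent.Lib.Helper4.Eigen

/-!
# S0434 (Sylow 3-normalizers in a simple group of order 7920), piece YRL (placeholder; project of helper74)
-/

set_option autoImplicit false
set_option linter.style.haveILetI false

namespace Cfsg.Agent.Lib.Helper74.M11

open Cfsg
open Cfsg.Agent.Lib.Helper83 (trivIrr)
open Cfsg.Agent.Lib.Helper10.BR (DOut)
open scoped ComplexConjugate

universe u

/-- YRL: reality of the values of the characters of unique degree, of `f` where `f = g`, and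
of the sum `a + b + c`. -/
theorem real_vals {G : Type u} [Group G] [Fintype G]
    {a b c d11 f g d44 d45 d55 : IrrCharacter G} (hN : Names G a b c d11 f g d44 d45 d55)
    (y : G) (hfg : (f : G → ℂ) y = (g : G → ℂ) y) :
    conj ((d11 : G → ℂ) y) = (d11 : G → ℂ) y ∧ conj ((d44 : G → ℂ) y) = (d44 : G → ℂ) y ∧
    conj ((d45 : G → ℂ) y) = (d45 : G → ℂ) y ∧ conj ((d55 : G → ℂ) y) = (d55 : G → ℂ) y ∧
    conj ((f : G → ℂ) y) = (f : G → ℂ) y ∧
    conj ((a : G → ℂ) y + (b : G → ℂ) y + (c : G → ℂ) y) =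
      (a : G → ℂ) y + (b : G → ℂ) y + (c : G → ℂ) y := by
  classical
  cases nonempty_fintype G
  have hdc : ∀ χ : IrrCharacter G,
      charDegree (Cfsg.Agent.Lib.Helper4.irrConj χ : G → ℂ) = charDegree (χ : G → ℂ) := by
    intro χ
    have h1 := (Cfsg.Agent.Lib.Helper82.irr_charDegree (Cfsg.Agent.Lib.Helper4.irrConj χ)).1
    have h2 := (Cfsg.Agent.Lib.Helper82.irr_charDegree χ).1
    rw [Cfsg.Agent.Lib.Helper4.irrConj_apply, ← h2, Complex.conj_natCast] at h1
    exact_mod_cast h1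
  have hdt : charDegree (trivIrr G : G → ℂ) = 1 := by
    have h1 := (Cfsg.Agent.Lib.Helper82.irr_charDegree (trivIrr G)).1
    rw [Cfsg.Agent.Lib.Helper83.trivIrr_apply] at h1
    exact_mod_cast h1
  have key : ∀ χ : IrrCharacter G, χ = trivIrr G ∨ χ = a ∨ χ = b ∨ χ = c ∨ χ = d11 ∨ χ = f ∨
      χ = g ∨ χ = d44 ∨ χ = d45 ∨ χ = d55 := fun χ => by simpa using hN.mem χ
  have hda := hN.dega
  have hdb := hN.degb
  have hdcc := hN.degc
  have hd11 := hN.deg11
  have hdf := hN.degf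
  have hdg := hN.degg
  have hd44 := hN.deg44
  have hd45 := hN.deg45
  have hd55 := hN.deg55
  -- which conjugates are possible
  have hcl : ∀ χ : IrrCharacter G,
      (charDegree (χ : G → ℂ) = 11 → Cfsg.Agent.Lib.Helper4.irrConj χ = d11) ∧
      (charDegree (χ : G → ℂ) = 44 → Cfsg.Agent.Lib.Helper4.irrConj χ = d44) ∧
      (charDegree (χ : G → ℂ) = 45 → Cfsg.Agent.Lib.Helper4.irrConj χ = d45) ∧
      (charDegree (χ : G → ℂ) = 55 → Cfsg.Agent.Lib.Helper4.irrConj χ = d55) ∧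
      (charDegree (χ : G → ℂ) = 16 → Cfsg.Agent.Lib.Helper4.irrConj χ = f ∨
        Cfsg.Agent.Lib.Helper4.irrConj χ = g) ∧
      (charDegree (χ : G → ℂ) = 10 → Cfsg.Agent.Lib.Helper4.irrConj χ = a ∨
        Cfsg.Agent.Lib.Helper4.irrConj χ = b ∨ Cfsg.Agent.Lib.Helper4.irrConj χ = c) := by
    intro χ
    have hχ := hdc χ
    rcases key (Cfsg.Agent.Lib.Helper4.irrConj χ) with h | h | h | h | h | h | h | h | h | h <;>
      rw [h] at hχ <;>
      refine ⟨fun h' => ?_, fun h' => ?_, fun h' => ?_, fun h' => ?_, fun h' => ?_, fun h' => ?_⟩ <;>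
      first
        | exact h
        | exact Or.inl h
        | exact Or.inr h
        | exact Or.inr (Or.inl h)
        | exact Or.inr (Or.inr h)
        | (exfalso; omega)
  have hval : ∀ (χ : IrrCharacter G), conj ((χ : G → ℂ) y) =
      (Cfsg.Agent.Lib.Helper4.irrConj χ : G → ℂ) y := fun χ => rfl
  have hinj : ∀ χ ψ : IrrCharacter G, Cfsg.Agent.Lib.Helper4.irrConj χ =
      Cfsg.Agent.Lib.Helper4.irrConj ψ → χ = ψ := by
    intro χ ψ h
    have := congrArg Cfsg.Agent.Lib.Helper4.irrConj h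
    rwa [Cfsg.Agent.Lib.Helper4.irrConj_irrConj, Cfsg.Agent.Lib.Helper4.irrConj_irrConj] at this
  have hnd := hN.nodup
  have hab : a ≠ b := by
    rintro rfl
    simp at hnd
  have hac : a ≠ c := by
    rintro rfl
    simp at hnd
  have hbc : b ≠ c := by
    rintro rfl
    simp at hnd
  refine ⟨?_, ?_, ?_, ?_, ?_, ?_⟩
  · rw [hval, (hcl d11).1 hd11]
  · rw [hval, (hcl d44).2.1 hd44]
  · rw [hval, (hcl d45).2.2.1 hd45]
  · rw [hval, (hcl d55).2.2.2.1 hd55]
  · rw [hval]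
    rcases (hcl f).2.2.2.2.1 hdf with h | h
    · rw [h]
    · rw [h, hfg]
  · rw [map_add, map_add, hval, hval, hval]
    rcases (hcl a).2.2.2.2.2 hda with h1 | h1 | h1 <;>
      rcases (hcl b).2.2.2.2.2 hdb with h2 | h2 | h2 <;>
      rcases (hcl c).2.2.2.2.2 hdcc with h3 | h3 | h3 <;>
      first
        | exact absurd (hinj _ _ (h1.trans h2.symm)) hab
        | exact absurd (hinj _ _ (h1.trans h3.symm)) hac
        | exact absurd (hinj _ _ (h2.trans h3.symm)) hbc
        | (rw [h1, h2, h3]; first | done | ring)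

end Cfsg.Agent.Lib.Helper74.M11
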