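import Mathlib
import Cfsg.Agent.Lib.Helper10.BR0
import Cfsg.Agent.Lib.Helper22.DOne2
import Cfsg.Agent.Lib.Helper82.PQ
import Cfsg.Agent.Lib.Helper82.CharCore
import Cfsg.Agent.Lib.Helper83.Ortho
import Cfsg.Agent.Lib.Helper66.BRX4
import Cfsg.Agent.Lib.Helper90.BRX1
import Cfsg.Agent.Lib.Helper92.BRX2
import Cfsg.Agent.Lib.Helper85.BRX8
import Cfsg.Agent.Lib.Helper64.BRG5
import Cfsg.Agent.Lib.Helper34.BRG4
import Cfsg.Agent.Lib.Helper6.BRG8
import Cfsg.Agent.Lib.Helper4.BRX7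
import Cfsg.Agent.Lib.Helper4.BTV2
import Cfsg.Agent.Lib.Helper16.BTV1
import Cfsg.Agent.Lib.Helper74.BRG3
import Cfsg.Agent.Lib.Helper74.BTP4
import Cfsg.Agent.Lib.Helper74.NS19F
import Cfsg.Agent.Lib.Helper74.NS19NC
import Cfsg.Agent.Lib.Helper67.BFZCENT
import Cfsg.Agent.Lib.Helper62.Cent4B
import Cfsg.Agent.Lib.Helper79.Blk2
import Cfsg.Agent.Lib.Helper74.M11Ar
import Cfsg.Agent.Lib.Helper74.M11Defs
import Cfsg.Agent.Lib.Helper74.M11BS
import Cfsg.Agent.Lib.Helper74.M11XDefs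
import Cfsg.Agent.Lib.Helper4.CharDual
import Cfsg.Agent.Lib.Helper4.Eigen
import Cfsg.Agent.Lib.Helper74.M11YE3

/-!
# S0434 (Sylow 3-normalizers in a simple group of order 7920), piece YRV (placeholder; project of helper74)
-/

set_option autoImplicit false
set_option linter.style.haveILetI false

namespace Cfsg.Agent.Lib.Helper74.M11

open Cfsg
open Cfsg.Agent.Lib.Helper83 (trivIrr)
open Cfsg.Agent.Lib.Helper10.BR (DOut)
open scoped ComplexConjugate

universe u

/-- YRV: a real character value at an element of order dividing 3 is an integer congruent to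
the degree modulo 3. -/
theorem real_val3 {G : Type u} [Group G] [Fintype G] (χ : IrrCharacter G) (y : G)
    (hy : y ^ 3 = 1) (hreal : conj ((χ : G → ℂ) y) = (χ : G → ℂ) y) :
    ∃ k : ℤ, (χ : G → ℂ) y = (k : ℂ) ∧ (k - (charDegree (χ : G → ℂ) : ℤ)) % 3 = 0 := by
  obtain ⟨ω, hω, hall⟩ := irr_order3.{u}
  obtain ⟨A, B, C, hχy, hχ1⟩ := hall G χ y hy
  have hω3 : ω ^ 3 = 1 := by linear_combination (ω - 1) * hω
  have hcω : (conj ω) ^ 2 + conj ω + 1 = 0 := by
    have h0 := congrArg conj hω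
    simpa only [map_add, map_pow, map_one, map_zero] using h0
  have hfac : (conj ω - ω) * (conj ω - ω ^ 2) = 0 := by
    linear_combination hcω - (conj ω) * hω + (ω - 1) * hω
  have hne_real : conj ω ≠ ω := by
    intro h
    obtain ⟨r, hr⟩ := Complex.conj_eq_iff_real.mp h
    rw [hr] at hω
    have h1 : r ^ 2 + r + 1 = 0 := by exact_mod_cast hω
    nlinarith [sq_nonneg (2 * r + 1)]
  have hconj : conj ω = ω ^ 2 := by
    rcases mul_eq_zero.mp hfac with h | h
    · exact absurd (sub_eq_zero.mp h) hne_real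
    · exact sub_eq_zero.mp h
  have hωne : ω ^ 2 ≠ ω := by rw [← hconj]; exact hne_real
  have hc : conj ((χ : G → ℂ) y) = (A : ℂ) + (B : ℂ) * ω ^ 2 + (C : ℂ) * ω := by
    rw [hχy]
    simp only [map_add, map_mul, map_pow, map_natCast, hconj]
    linear_combination (C : ℂ) * ω * hω3
  have hBC : (B : ℂ) = (C : ℂ) := by
    rw [hc, hχy] at hreal
    have h1 : ((B : ℂ) - (C : ℂ)) * (ω ^ 2 - ω) = 0 := by linear_combination hreal
    rcases mul_eq_zero.mp h1 with h | h
    · exact sub_eq_zero.mp h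
    · exact absurd (sub_eq_zero.mp h) hωne
  have hBC' : B = C := Nat.cast_injective hBC
  subst hBC'
  refine ⟨(A : ℤ) - (B : ℤ), ?_, ?_⟩
  · rw [hχy]
    push_cast
    linear_combination (B : ℂ) * hω
  · have hdeg : charDegree (χ : G → ℂ) = A + B + B := by
      unfold charDegree
      rw [hχ1]
      have h2 : ((A : ℂ) + (B : ℂ) + (B : ℂ)) = ((A + B + B : ℕ) : ℂ) := by push_cast; ring
      rw [h2, Complex.natCast_re, Nat.floor_natCast]
    rw [hdeg]
    push_cast
    omega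

end Cfsg.Agent.Lib.Helper74.M11
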