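import Mathlib
import Cfsg.Agent.Lib.Helper10.BR0
import Cfsg.Agent.Lib.Helper22.DOne2
import Cfsg.Agent.Lib.Helper82.PQ
import Cfsg.Agent.Lib.Helper82.CharCore
import Cfsg.Agent.Lib.Helper83.Ortho
import Cfsg.Agent.Lib.Helper66.BRX4
import Cfsg.Agent.Lib.Helper90.BRX1
import Cfsg.Agent.Lib.Helper92.BRX2
import Cfsg.Agent.Lib.Helper85.BRX8
import Cfsg.Agent.Lib.Helper64.BRG5
import Cfsg.Agent.Lib.Helper34.BRG4
import Cfsg.Agent.Lib.Helper6.BRG8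
import Cfsg.Agent.Lib.Helper4.BRX7
import Cfsg.Agent.Lib.Helper4.BTV2
import Cfsg.Agent.Lib.Helper16.BTV1
import Cfsg.Agent.Lib.Helper74.BRG3
import Cfsg.Agent.Lib.Helper74.BTP4
import Cfsg.Agent.Lib.Helper74.NS19F
import Cfsg.Agent.Lib.Helper74.NS19NC
import Cfsg.Agent.Lib.Helper67.BFZCENT
import Cfsg.Agent.Lib.Helper62.Cent4B
import Cfsg.Agent.Lib.Helper79.Blk2
import Cfsg.Agent.Lib.Helper74.M11Ar
import Cfsg.Agent.Lib.Helper74.M11Defs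
import Cfsg.Agent.Lib.Helper74.M11BS
import Cfsg.Agent.Lib.Helper74.M11XDefs
import Cfsg.Agent.Lib.Helper4.CharDual
import Cfsg.Agent.Lib.Helper4.Eigen
import Cfsg.Agent.Lib.Helper74.M11YE3

/-!
# S0434 (Sylow 3-normalizers in a simple group of order 7920), piece YTN (placeholder; project of helper74)
-/

set_option autoImplicit false
set_option linter.style.haveILetI false

namespace Cfsg.Agent.Lib.Helper74.M11

open Cfsg
open Cfsg.Agent.Lib.Helper83 (trivIrr)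
open Cfsg.Agent.Lib.Helper10.BR (DOut)
open scoped ComplexConjugate

universe u

/-- facts on a root of `x² + x + 1` -/
theorem ytn_omega (ω : ℂ) (hω : ω ^ 2 + ω + 1 = 0) : conj ω = -1 - ω ∧ 1 + 2 * ω ≠ 0 := by
  constructor
  · have h1 : (conj ω) ^ 2 + conj ω + 1 = 0 := by
      have := congrArg (starRingEnd ℂ) hω
      simpa [map_add, map_pow] using this
    have h2 : (conj ω - ω) * (conj ω + ω + 1) = 0 := by linear_combination h1 - hω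
    rcases mul_eq_zero.mp h2 with h | h
    · exfalso
      have h3 : conj ω = ω := by linear_combination h
      obtain ⟨r, hr⟩ := Complex.conj_eq_iff_real.mp h3
      rw [hr] at hω
      have h4 : r ^ 2 + r + 1 = 0 := by exact_mod_cast hω
      nlinarith [sq_nonneg (r + 1 / 2)]
    · linear_combination h
  · intro h
    have h1 : ω = -1 / 2 := by linear_combination h / 2
    rw [h1] at hω
    norm_num at hω

/-- a value `A + B ω + C ω²` in the form `a + b ω`, with its conjugate and its norm -/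
theorem ytn_val (ω : ℂ) (hω : ω ^ 2 + ω + 1 = 0) (A B C : ℕ) (z : ℂ)
    (hz : z = (A : ℂ) + (B : ℂ) * ω + (C : ℂ) * ω ^ 2) :
    ∃ a b : ℤ, z = (a : ℂ) + (b : ℂ) * ω ∧ conj z = ((a : ℂ) - (b : ℂ)) - (b : ℂ) * ω ∧
      z * conj z = ((a ^ 2 - a * b + b ^ 2 : ℤ) : ℂ) := by
  obtain ⟨hc, -⟩ := ytn_omega ω hω
  have hω2 : ω ^ 2 = -1 - ω := by linear_combination hω
  have h1 : z = (((A : ℤ) - (C : ℤ) : ℤ) : ℂ) + (((B : ℤ) - (C : ℤ) : ℤ) : ℂ) * ω := by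
    rw [hz, hω2]
    push_cast
    ring
  have h2 : conj z = ((((A : ℤ) - (C : ℤ) : ℤ) : ℂ) - (((B : ℤ) - (C : ℤ) : ℤ) : ℂ)) -
      (((B : ℤ) - (C : ℤ) : ℤ) : ℂ) * ω := by
    rw [h1, map_add, map_mul, map_intCast, map_intCast, hc]
    ring
  refine ⟨(A : ℤ) - (C : ℤ), (B : ℤ) - (C : ℤ), h1, h2, ?_⟩
  rw [h2, h1]
  push_cast
  linear_combination (-((B : ℂ) - (C : ℂ)) ^ 2) * hω

/-- YTN: if the sum of three character values at an element of order dividing 3 is real, then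
it is an integer `T`, the sum of the squared absolute values is an integer `N`, and
`T² ≤ 3 N`. -/
theorem sum_val3 {G : Type u} [Group G] [Fintype G] (χ₁ χ₂ χ₃ : IrrCharacter G) (y : G)
    (hy : y ^ 3 = 1)
    (hreal : conj ((χ₁ : G → ℂ) y + (χ₂ : G → ℂ) y + (χ₃ : G → ℂ) y) =
      (χ₁ : G → ℂ) y + (χ₂ : G → ℂ) y + (χ₃ : G → ℂ) y) :
    ∃ T N : ℤ, (χ₁ : G → ℂ) y + (χ₂ : G → ℂ) y + (χ₃ : G → ℂ) y = (T : ℂ) ∧
      (χ₁ : G → ℂ) y * conj ((χ₁ : G → ℂ) y) + (χ₂ : G → ℂ) y * conj ((χ₂ : G → ℂ) y) +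
        (χ₃ : G → ℂ) y * conj ((χ₃ : G → ℂ) y) = (N : ℂ) ∧ T ^ 2 ≤ 3 * N := by
  obtain ⟨ω, hω, H⟩ := irr_order3.{u}
  obtain ⟨-, h12⟩ := ytn_omega ω hω
  obtain ⟨A1, B1, C1, hz1, -⟩ := H G χ₁ y hy
  obtain ⟨A2, B2, C2, hz2, -⟩ := H G χ₂ y hy
  obtain ⟨A3, B3, C3, hz3, -⟩ := H G χ₃ y hy
  obtain ⟨a1, b1, e1, c1, n1⟩ := ytn_val ω hω A1 B1 C1 _ hz1
  obtain ⟨a2, b2, e2, c2, n2⟩ := ytn_val ω hω A2 B2 C2 _ hz2
  obtain ⟨a3, b3, e3, c3, n3⟩ := ytn_val ω hω A3 B3 C3 _ hz3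
  rw [map_add, map_add, c1, c2, c3] at hreal
  rw [n1, n2, n3]
  rw [e1, e2, e3] at hreal ⊢
  have hbC : ((b1 + b2 + b3 : ℤ) : ℂ) * (1 + 2 * ω) = 0 := by
    push_cast
    linear_combination (-1 : ℂ) * hreal
  have hb : b1 + b2 + b3 = 0 := by
    have := (mul_eq_zero.mp hbC).resolve_right h12
    exact_mod_cast this
  have hbC' : (b1 : ℂ) + (b2 : ℂ) + (b3 : ℂ) = 0 := by exact_mod_cast hb
  refine ⟨a1 + a2 + a3, (a1 ^ 2 - a1 * b1 + b1 ^ 2) + (a2 ^ 2 - a2 * b2 + b2 ^ 2) +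
    (a3 ^ 2 - a3 * b3 + b3 ^ 2), ?_, ?_, ?_⟩
  · push_cast
    linear_combination ω * hbC'
  · push_cast
    ring
  · have hb3 : b3 = -b1 - b2 := by linarith
    subst hb3
    nlinarith [sq_nonneg ((2 * a1 - b1) - (2 * a2 - b2)),
      sq_nonneg ((2 * a2 - b2) - (2 * a3 - (-b1 - b2))),
      sq_nonneg ((2 * a1 - b1) - (2 * a3 - (-b1 - b2))), sq_nonneg b1, sq_nonneg b2,
      sq_nonneg (b1 + b2)]

end Cfsg.Agent.Lib.Helper74.M11
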