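import Mathlib
import Cfsg.Agent.Lib.Helper10.BR0
import Cfsg.Agent.Lib.Helper22.DOne2
import Cfsg.Agent.Lib.Helper82.PQ
import Cfsg.Agent.Lib.Helper82.CharCore
import Cfsg.Agent.Lib.Helper83.Ortho
import Cfsg.Agent.Lib.Helper66.BRX4
import Cfsg.Agent.Lib.Helper90.BRX1
import Cfsg.Agent.Lib.Helper92.BRX2
import Cfsg.Agent.Lib.Helper85.BRX8
import Cfsg.Agent.Lib.Helper64.BRG5
import Cfsg.Agent.Lib.Helper34.BRG4
import Cfsg.Agent.Lib.Helper6.BRG8
import Cfsg.Agent.Lib.Helper4.BRX7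
import Cfsg.Agent.Lib.Helper4.BTV2
import Cfsg.Agent.Lib.Helper16.BTV1
import Cfsg.Agent.Lib.Helper74.BRG3
import Cfsg.Agent.Lib.Helper74.BTP4
import Cfsg.Agent.Lib.Helper74.NS19F
import Cfsg.Agent.Lib.Helper74.NS19NC
import Cfsg.Agent.Lib.Helper67.BFZCENT
import Cfsg.Agent.Lib.Helper62.Cent4B
import Cfsg.Agent.Lib.Helper79.Blk2
import Cfsg.Agent.Lib.Helper74.M11Ar
import Cfsg.Agent.Lib.Helper74.M11Defs
import Cfsg.Agent.Lib.Helper74.M11BS
import Cfsg.Agent.Lib.Helper74.M11XInv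
import Cfsg.Agent.Lib.Helper4.CharDual
import Cfsg.Agent.Lib.Helper4.Eigen
import Cfsg.Agent.Lib.Helper74.M11YE3
import Cfsg.Agent.Lib.Helper74.M11YRV
import Cfsg.Agent.Lib.Helper74.M11YTN
import Cfsg.Agent.Lib.Helper74.M11YRL
import Cfsg.Agent.Lib.Helper74.M11YAR
import Cfsg.Agent.Lib.Helper74.M11YCC
import Cfsg.Agent.Lib.Helper74.M11YEQ
import Cfsg.Agent.Lib.Helper74.M11YN9
import Cfsg.Agent.Lib.Helper74.M11YCN
import Cfsg.Agent.Lib.Helper74.M11YNC
import Cfsg.Agent.Lib.Helper74.M11YS9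

/-!
# S0434 (Sylow 3-normalizers in a simple group of order 7920), assembly
-/

set_option autoImplicit false
set_option linter.style.haveILetI false

namespace Cfsg.Agent.Lib.Helper74.M11

open Cfsg
open Cfsg.Agent.Lib.Helper83 (trivIrr)
open Cfsg.Agent.Lib.Helper10.BR (DOut)
open scoped ComplexConjugate

universe u

/-- Character values and centralizer order at an element of order 3 of a simple group of order
7920. -/
theorem order3_prof {G : Type u} [Group G] [Fintype G] (hcard : Nat.card G = 7920)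
    (P : Sylow 11 G) (hP : Nat.card P = 11)
    (hC : Subgroup.centralizer ((P : Subgroup G) : Set G) = (P : Subgroup G))
    (P5 : Sylow 5 G) (hP5 : Nat.card P5 = 5)
    (hC5 : Subgroup.centralizer ((P5 : Subgroup G) : Set G) = (P5 : Subgroup G))
    {a b c d11 f g d44 d45 d55 : IrrCharacter G} (hN : Names G a b c d11 f g d44 d45 d55)
    (hT : Table11 G (P : Subgroup G) a b c d11 f g d44 d45 d55) (y : G) (hy : orderOf y = 3) :
    Nat.card (Subgroup.centralizer ({y} : Set G)) = 18 ∧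
      (a : G → ℂ) y = 1 ∧ (b : G → ℂ) y = 1 ∧ (c : G → ℂ) y = 1 ∧ (d11 : G → ℂ) y = 2 ∧
      (f : G → ℂ) y = -2 ∧ (g : G → ℂ) y = -2 ∧ (d44 : G → ℂ) y = -1 ∧ (d45 : G → ℂ) y = 0 ∧
      (d55 : G → ℂ) y = 1 := by
  classical
  haveI : Finite (IrrCharacter G) := Cfsg.Agent.Lib.Helper82.finite_irrCharacter G
  letI : Fintype (IrrCharacter G) := Fintype.ofFinite _
  haveI : Fact (Nat.Prime 11) := ⟨by norm_num⟩
  haveI : Fact (Nat.Prime 5) := ⟨by norm_num⟩
  have hy3 : y ^ 3 = 1 := by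
    rw [← hy]
    exact pow_orderOf_eq_one y
  have hy1 : y ≠ 1 := by
    rintro rfl
    rw [orderOf_one] at hy
    norm_num at hy
  have hy11 : ¬ 11 ∣ orderOf y := by
    rw [hy]
    norm_num
  have hy5 : ¬ 5 ∣ orderOf y := by
    rw [hy]
    norm_num
  obtain ⟨hfg, hreg⟩ := hT.reg y hy11
  obtain ⟨r11, r44, r45, r55, rf, rT⟩ := real_vals hN y hfg
  obtain ⟨c11, hc11, k11⟩ := real_val3 d11 y hy3 r11
  obtain ⟨c44, hc44, k44⟩ := real_val3 d44 y hy3 r44
  obtain ⟨v, hv, kv⟩ := real_val3 d45 y hy3 r45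
  obtain ⟨c55, hc55, k55⟩ := real_val3 d55 y hy3 r55
  obtain ⟨w, hw, kw⟩ := real_val3 f y hy3 rf
  rw [hN.deg11] at k11
  rw [hN.deg44] at k44
  rw [hN.deg45] at kv
  rw [hN.deg55] at k55
  rw [hN.degf] at kw
  obtain ⟨T, N, hTv, hNv, hTN⟩ := sum_val3 a b c y hy3 rT
  have hwg : (g : G → ℂ) y = (w : ℂ) := by rw [← hfg, hw]
  have h1 : w = 1 + v - T := by
    have h : ((w : ℤ) : ℂ) = ((1 + v - T : ℤ) : ℂ) := by
      push_cast
      rw [← hw, ← hv, ← hTv, hreg]
      ring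
    exact_mod_cast h
  -- degrees
  have d1 : (trivIrr G : G → ℂ) 1 = 1 := Cfsg.Agent.Lib.Helper83.trivIrr_apply 1
  have da := val_one a 10 hN.dega
  have db := val_one b 10 hN.degb
  have dc := val_one c 10 hN.degc
  have dd11 := val_one d11 11 hN.deg11
  have df := val_one f 16 hN.degf
  have dg := val_one g 16 hN.degg
  have dd44 := val_one d44 44 hN.deg44
  have dd45 := val_one d45 45 hN.deg45
  have dd55 := val_one d55 55 hN.deg55
  have t1y : (trivIrr G : G → ℂ) y = 1 := Cfsg.Agent.Lib.Helper83.trivIrr_apply y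
  have hconj1 : ∀ (χ : IrrCharacter G) (n : ℕ), (χ : G → ℂ) 1 = (n : ℂ) →
      (starRingEnd ℂ) ((χ : G → ℂ) 1) = (n : ℂ) := by
    intro χ n h
    rw [h, Complex.conj_natCast]
  have h3c := Cfsg.Agent.Lib.Helper83.column_orthogonality_not_conj (G := G) (g := y) (h := 1)
    (by rw [isConj_one_right]; exact hy1)
  rw [sum_names hN] at h3c
  rw [hconj1 _ 1 (by rw [d1]; norm_num), hconj1 _ 10 da, hconj1 _ 10 db, hconj1 _ 10 dc,
    hconj1 _ 11 dd11, hconj1 _ 16 df, hconj1 _ 16 dg, hconj1 _ 44 dd44, hconj1 _ 45 dd45,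
    hconj1 _ 55 dd55, t1y, hc11, hw, hwg, hc44, hv, hc55] at h3c
  have h3 : 1 + 10 * T + 11 * c11 + 32 * w + 44 * c44 + 45 * v + 55 * c55 = 0 := by
    have h : ((1 + 10 * T + 11 * c11 + 32 * w + 44 * c44 + 45 * v + 55 * c55 : ℤ) : ℂ)
        = ((0 : ℤ) : ℂ) := by
      push_cast
      rw [← hTv]
      push_cast at h3c
      linear_combination h3c
    exact_mod_cast h
  have hconjx : ∀ (k : ℤ), (starRingEnd ℂ) ((k : ℤ) : ℂ) = ((k : ℤ) : ℂ) := fun k =>
    map_intCast (starRingEnd ℂ) k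
  have h4c := Cfsg.Agent.Lib.Helper83.column_orthogonality_conj (G := G) (g := y) (h := y)
    (IsConj.refl y)
  rw [sum_names hN] at h4c
  rw [t1y, hc11, hw, hwg, hc44, hv, hc55] at h4c
  simp only [hconjx, map_one] at h4c
  have h4 : ((Nat.card (Subgroup.centralizer ({y} : Set G)) : ℕ) : ℤ) =
      1 + N + c11 ^ 2 + 2 * w ^ 2 + c44 ^ 2 + v ^ 2 + c55 ^ 2 := by
    have h : (((Nat.card (Subgroup.centralizer ({y} : Set G)) : ℕ) : ℤ) : ℂ) =
        ((1 + N + c11 ^ 2 + 2 * w ^ 2 + c44 ^ 2 + v ^ 2 + c55 ^ 2 : ℤ) : ℂ) := by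
      push_cast
      rw [← h4c, ← hNv]
      ring
    exact_mod_cast h
  have h5 : Nat.card (Subgroup.centralizer ({y} : Set G)) ∣ 144 := by
    have hdvd : Nat.card (Subgroup.centralizer ({y} : Set G)) ∣ 7920 := by
      rw [← hcard]
      exact Subgroup.card_subgroup_dvd_card _
    have hn11 := cent_coprime 11 P hP hC y hy11 hy1
    have hn5 := cent_coprime 5 P5 hP5 hC5 y hy5 hy1
    have hc11' : Nat.Coprime (Nat.card (Subgroup.centralizer ({y} : Set G))) 11 :=
      (Nat.Coprime.symm ((Nat.Prime.coprime_iff_not_dvd (by norm_num)).2 hn11))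
    have hc5' : Nat.Coprime (Nat.card (Subgroup.centralizer ({y} : Set G))) 5 :=
      (Nat.Coprime.symm ((Nat.Prime.coprime_iff_not_dvd (by norm_num)).2 hn5))
    have hc55' : Nat.Coprime (Nat.card (Subgroup.centralizer ({y} : Set G))) (5 * 11) :=
      Nat.Coprime.mul_right hc5' hc11'
    have h144 : (144 * (5 * 11) : ℕ) = 7920 := by norm_num
    exact hc55'.dvd_of_dvd_mul_right (by rw [h144]; exact hdvd)
  have h6 : 3 ∣ Nat.card (Subgroup.centralizer ({y} : Set G)) := by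
    have hmem : y ∈ Subgroup.centralizer ({y} : Set G) := by
      rw [Subgroup.mem_centralizer_iff]
      intro z hz
      rw [Set.mem_singleton_iff] at hz
      rw [hz]
    have h := orderOf_dvd_natCard (⟨y, hmem⟩ : Subgroup.centralizer ({y} : Set G))
    rwa [Subgroup.orderOf_mk, hy] at h
  have hidx : (Subgroup.centralizer ({y} : Set G)).index *
      Nat.card (Subgroup.centralizer ({y} : Set G)) = 7920 := by
    rw [mul_comm, Subgroup.card_mul_index, hcard]
  have hcc := cc_dvd f y w hw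
  rw [hN.degf] at hcc
  obtain ⟨hC18, hT3, hN3, hv0, hw2, h112, h441, h551⟩ :=
    arith_three T N v w c11 c44 c55 _ _ hTN kw kv k11 k44 k55 h1 h3 h4 h5 h6 hidx hcc
  have habc := eq_one_of_sum ((a : G → ℂ) y) ((b : G → ℂ) y) ((c : G → ℂ) y)
    (by rw [hTv, hT3]; norm_num) (by rw [hNv, hN3]; norm_num)
  refine ⟨hC18, habc.1, habc.2.1, habc.2.2, ?_, ?_, ?_, ?_, ?_, ?_⟩
  · rw [hc11, h112]
    norm_num
  · rw [hw, hw2]
    norm_num
  · rw [hwg, hw2]
    norm_num
  · rw [hc44, h441]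
    norm_num
  · rw [hv, hv0]
    norm_num
  · rw [hc55, h551]
    norm_num

/-- All elements of order 3 of a simple group of order 7920 are conjugate. -/
theorem order3_conj {G : Type u} [Group G] [Fintype G] (hcard : Nat.card G = 7920)
    (P : Sylow 11 G) (hP : Nat.card P = 11)
    (hC : Subgroup.centralizer ((P : Subgroup G) : Set G) = (P : Subgroup G))
    (P5 : Sylow 5 G) (hP5 : Nat.card P5 = 5)
    (hC5 : Subgroup.centralizer ((P5 : Subgroup G) : Set G) = (P5 : Subgroup G))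
    {a b c d11 f g d44 d45 d55 : IrrCharacter G} (hN : Names G a b c d11 f g d44 d45 d55)
    (hT : Table11 G (P : Subgroup G) a b c d11 f g d44 d45 d55) (y y' : G)
    (hy : orderOf y = 3) (hy' : orderOf y' = 3) : IsConj y y' := by
  classical
  haveI : Finite (IrrCharacter G) := Cfsg.Agent.Lib.Helper82.finite_irrCharacter G
  letI : Fintype (IrrCharacter G) := Fintype.ofFinite _
  obtain ⟨-, ha, hb, hc, h11, hf, hg, h44, h45, h55⟩ :=
    order3_prof hcard P hP hC P5 hP5 hC5 hN hT y hy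
  obtain ⟨-, ha', hb', hc', h11', hf', hg', h44', h45', h55'⟩ :=
    order3_prof hcard P hP hC P5 hP5 hC5 hN hT y' hy'
  by_contra hne
  have h := Cfsg.Agent.Lib.Helper83.column_orthogonality_not_conj (G := G) (g := y') (h := y) hne
  rw [sum_names hN] at h
  rw [ha, hb, hc, h11, hf, hg, h44, h45, h55, ha', hb', hc', h11', hf', hg', h44', h45', h55',
    Cfsg.Agent.Lib.Helper83.trivIrr_apply, Cfsg.Agent.Lib.Helper83.trivIrr_apply] at h
  simp only [map_one, map_neg, map_ofNat, map_zero] at h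
  norm_num at h

/-- S0434: in a simple group of order 7920 the normalizer of a Sylow 3-subgroup has order
144. -/
theorem sylow3_norm {G : Type u} [Group G] [Finite G] [IsSimpleGroup G]
    (hcard : Nat.card G = 7920) (P : Sylow 3 G) :
    Nat.card (Subgroup.normalizer ((P : Subgroup G) : Set G)) = 144 := by
  classical
  letI : Fintype G := Fintype.ofFinite G
  have hG := not_cyclic7920 hcard
  haveI : Fact (Nat.Prime 11) := ⟨by norm_num⟩
  haveI : Fact (Nat.Prime 5) := ⟨by norm_num⟩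
  obtain ⟨⟨P11, M, X, Y, εX, ε, hM, hP11, hC11, he, hD⟩, ⟨P5, hP5, hC5⟩⟩ := local_data hG hcard
  obtain ⟨a, b, c, d11, f, g, d44, d45, d55, hN⟩ := names (main hcard).2
  have hT := table11 P11 M X Y εX ε hM hP11 hC11 hD a b c d11 f g d44 d45 d55 hN
  have h18 : ∀ y : G, orderOf y = 3 → Nat.card (Subgroup.centralizer ({y} : Set G)) = 18 :=
    fun y hy => (order3_prof hcard P11 hP11 hC11 P5 hP5 hC5 hN hT y hy).1
  have h48 : ∀ x : G, orderOf x = 2 → Nat.card (Subgroup.centralizer ({x} : Set G)) = 48 :=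
    fun x hx => invol_cent hcard x hx
  have h9 := no_order9 h48 h18
  have hP := sylow3_card hcard P
  have hord : ∀ y : G, y ∈ (P : Subgroup G) → y ≠ 1 → orderOf y = 3 := by
    intro y hy hy1
    have hdvd : orderOf y ∣ 3 ^ 2 := by
      have h := orderOf_dvd_natCard (⟨y, hy⟩ : (P : Subgroup G))
      rw [Subgroup.orderOf_mk] at h
      have hP' : Nat.card (P : Subgroup G) = 9 := hP
      rw [hP'] at h
      exact h
    obtain ⟨i, hi, hio⟩ := (Nat.dvd_prime_pow (by norm_num : Nat.Prime 3)).1 hdvd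
    have h9' := h9 y
    have h1' : orderOf y ≠ 1 := by
      rw [Ne, orderOf_eq_one_iff]
      exact hy1
    interval_cases i
    · exact absurd hio h1'
    · rw [hio]
      norm_num
    · exact absurd hio h9'
  exact norm_card P hP
    (fun y y' hy hy' hy1 hy1' => order3_conj hcard P11 hP11 hC11 P5 hP5 hC5 hN hT y y'
      (hord y hy hy1) (hord y' hy' hy1'))
    (fun y hy hy1 => ⟨h18 y (hord y hy hy1), cent_le_norm P hP y hy (h18 y (hord y hy hy1))⟩)

end Cfsg.Agent.Lib.Helper74.M11
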