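import Mathlib

/-!
# S1022 (no simple group of order 459648), piece AR1 (placeholder; project of helper74)
-/

set_option autoImplicit false

namespace Cfsg.Agent.Lib.Helper74.NS19

universe u

/-- AR1: the possible degrees (divisors of 459648 congruent to `±1` mod 19 with square at most
459648). -/
theorem arith_deg (d : ℕ) (s : ℤ) (hs : s = 1 ∨ s = -1) (hd : d ∣ 459648)
    (hsq : d * d ≤ 459648) (hmod : (d : ℤ) ≡ s [ZMOD 19]) :
    (s = 1 ∧ (d = 1 ∨ d = 96)) ∨ (s = -1 ∧ (d = 18 ∨ d = 56 ∨ d = 189)) := by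
  have hle : d ≤ 677 := by nlinarith
  have key : ∀ d ∈ Finset.range 678, d ∣ 459648 → (d % 19 = 1 → d = 1 ∨ d = 96) ∧
      (d % 19 = 18 → d = 18 ∨ d = 56 ∨ d = 189) := by
    set_option maxRecDepth 100000 in decide
  have hk := key d (Finset.mem_range.2 (by omega)) hd
  unfold Int.ModEq at hmod
  rcases hs with h | h
  · left
    refine ⟨h, hk.1 ?_⟩
    rw [h] at hmod
    omega
  · right
    refine ⟨h, hk.2 ?_⟩
    rw [h] at hmod
    omega

end Cfsg.Agent.Lib.Helper74.NS19
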