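import Mathlib

/-!
# S1022 (no simple group of order 459648), piece AR3 (placeholder; project of helper74)
-/

set_option autoImplicit false

namespace Cfsg.Agent.Lib.Helper74.NS19

universe u

/-- AR3: the degree equation with degrees in `{18, 96}` only has the solution `e = 1`. -/
theorem arith_eq96 (e a b d₀ : ℕ) (ε : ℤ) (he : e ∣ 18) (hab : a + b + 1 = e)
    (hd₀ : d₀ ∣ 459648) (hε : ε = 1 ∨ ε = -1)
    (heq : ε * (d₀ : ℤ) = 1 + 96 * (a : ℤ) - 18 * (b : ℤ)) : e = 1 := by
  have hle : e ≤ 18 := Nat.le_of_dvd (by norm_num) he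
  have key : ∀ e ∈ Finset.range 19, e ∣ 18 → ∀ a ∈ Finset.range e,
      (((1 + 96 * (a : ℤ) - 18 * ((e - 1 - a : ℕ) : ℤ)).natAbs ∣ 459648) → e = 1) := by decide
  have ha : a ∈ Finset.range e := Finset.mem_range.2 (by omega)
  have hb : b = e - 1 - a := by omega
  refine key e (Finset.mem_range.2 (by omega)) he a ha ?_
  rw [← hb, ← heq]
  rcases hε with h | h
  · rw [h, one_mul, Int.natAbs_natCast]
    exact hd₀
  · rw [h, neg_one_mul, Int.natAbs_neg, Int.natAbs_natCast]
    exact hd₀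

end Cfsg.Agent.Lib.Helper74.NS19
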