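import Mathlib

/-!
# S1022 (no simple group of order 459648), piece AR4 (placeholder; project of helper74)
-/

set_option autoImplicit false

namespace Cfsg.Agent.Lib.Helper74.NS19

universe u

/-- AR4: the degree equation with degrees in `{18, 56, 96, 189}` and `e ∣ 6`, `e ≠ 1`. -/
theorem arith_eq1008 (e a b c d d₀ : ℕ) (ε : ℤ) (he : e ∣ 6) (he1 : e ≠ 1)
    (hsum : a + b + c + d + 1 = e) (hd₀ : d₀ ∣ 459648) (hε : ε = 1 ∨ ε = -1)
    (heq : ε * (d₀ : ℤ) = 1 + 96 * (a : ℤ) - 18 * (b : ℤ) - 56 * (c : ℤ) - 189 * (d : ℤ)) :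
    e = 6 ∧ (b = 0 → 2 ≤ a + c) := by
  have hle : e ≤ 6 := Nat.le_of_dvd (by norm_num) he
  have key : ∀ e ∈ Finset.range 7, e ∣ 6 → e ≠ 1 → ∀ a ∈ Finset.range e, ∀ b ∈ Finset.range e,
      ∀ c ∈ Finset.range e, a + b + c + 1 ≤ e →
      (((1 + 96 * (a : ℤ) - 18 * (b : ℤ) - 56 * (c : ℤ)
        - 189 * ((e - 1 - a - b - c : ℕ) : ℤ)).natAbs ∣ 459648) →
        e = 6 ∧ (b = 0 → 2 ≤ a + c)) := by
    set_option maxRecDepth 100000 in decide
  have hd : d = e - 1 - a - b - c := by omega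
  refine key e (Finset.mem_range.2 (by omega)) he he1 a (Finset.mem_range.2 (by omega))
    b (Finset.mem_range.2 (by omega)) c (Finset.mem_range.2 (by omega)) (by omega) ?_
  rw [← hd, ← heq]
  rcases hε with h | h
  · rw [h, one_mul, Int.natAbs_natCast]
    exact hd₀
  · rw [h, neg_one_mul, Int.natAbs_neg, Int.natAbs_natCast]
    exact hd₀

end Cfsg.Agent.Lib.Helper74.NS19
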