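import Mathlib

/-!
# S1022 (no simple group of order 459648), piece AR5 (placeholder; project of helper74)
-/

set_option autoImplicit false

namespace Cfsg.Agent.Lib.Helper74.NS19

universe u

/-- AR5: divisors of 459648 congruent to 1 mod 19. -/
theorem arith_n19 (n : ℕ) (hn : n ∣ 459648) (hmod : n % 19 = 1) :
    n = 1 ∨ n = 96 ∨ n = 1008 := by
  have hcop : Nat.Coprime n 19 := by
    rw [Nat.coprime_comm, Nat.Prime.coprime_iff_not_dvd (by norm_num)]
    omega
  have h1 : n ∣ 24192 := hcop.dvd_of_dvd_mul_left (by simpa using hn)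
  have hle : n ≤ 24192 := Nat.le_of_dvd (by norm_num) h1
  have key : ∀ k ∈ Finset.range 1274, (19 * k + 1) ∣ 24192 → k = 0 ∨ k = 5 ∨ k = 53 := by
    set_option maxRecDepth 100000 in decide
  have hk := key (n / 19) (Finset.mem_range.2 (by omega)) (by
    have : 19 * (n / 19) + 1 = n := by omega
    rw [this]
    exact h1)
  omega

/-- AR5': divisors of 21888 congruent to 1 mod 19. -/
theorem arith_n19_small (n : ℕ) (hn : n ∣ 21888) (hmod : n % 19 = 1) :
    n = 1 ∨ n = 96 := by
  have h := arith_n19 n (hn.trans (by norm_num)) hmod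
  rcases h with h | h | h
  · exact Or.inl h
  · exact Or.inr h
  · exfalso
    rw [h] at hn
    omega

end Cfsg.Agent.Lib.Helper74.NS19
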