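import Mathlib
import Cfsg.Agent.Lib.Helper10.BR0
import Cfsg.Agent.Lib.Helper82.CharCore
import Cfsg.Agent.Lib.Helper83.Ortho
import Cfsg.Agent.Lib.Helper66.BRX4
import Cfsg.Agent.Lib.Helper74.NS19AR1

/-!
# S1022 (no simple group of order 459648), piece BL (placeholder; project of helper74)
-/

set_option autoImplicit false

namespace Cfsg.Agent.Lib.Helper74.NS19

open Cfsg
open Cfsg.Agent.Lib.Helper83 (trivIrr)
open Cfsg.Agent.Lib.Helper10.BR (DOut)

universe u

/-- BL: from the principal 19-block data `DOut` of a simple group of order dividing 459648 to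
counts of degrees.  `S = X ∖ {1}`, `δ = 1` iff the trivial character lies in `X`. -/
theorem block_counts {G : Type u} [Group G] [Fintype G] [IsSimpleGroup G] (hG : ¬ IsCyclic G)
    (hcard : Nat.card G ∣ 459648) (M : Ideal AlgInt) (P : Subgroup G) (e : ℕ)
    (X Y : Set (IrrCharacter G)) (εX : IrrCharacter G → ℤ) (ε : ℤ)
    (hD : DOut G 19 M P e X Y εX ε) :
    ∃ (S : Finset (IrrCharacter G)) (δ : ℕ),
      (∀ χ, χ ∈ S ↔ χ ∈ X ∧ χ ≠ trivIrr G) ∧
      (trivIrr G ∈ X → δ = 1) ∧ (trivIrr G ∉ X → δ = 0) ∧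
      S.card + δ = e ∧
      (∀ χ ∈ S, (εX χ = 1 ∧ charDegree (χ : G → ℂ) = 96) ∨
        (εX χ = -1 ∧ (charDegree (χ : G → ℂ) = 18 ∨ charDegree (χ : G → ℂ) = 56 ∨
          charDegree (χ : G → ℂ) = 189))) ∧
      (S.filter (fun χ : IrrCharacter G => charDegree (χ : G → ℂ) = 96)).card +
        (S.filter (fun χ : IrrCharacter G => charDegree (χ : G → ℂ) = 18)).card +
        (S.filter (fun χ : IrrCharacter G => charDegree (χ : G → ℂ) = 56)).card +
        (S.filter (fun χ : IrrCharacter G => charDegree (χ : G → ℂ) = 189)).card = S.card ∧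
      ∀ θ ∈ Y, ε * (charDegree (θ : G → ℂ) : ℤ) =
        (δ : ℤ) + 96 * ((S.filter (fun χ : IrrCharacter G => charDegree (χ : G → ℂ) = 96)).card : ℤ)
          - 18 * ((S.filter (fun χ : IrrCharacter G => charDegree (χ : G → ℂ) = 18)).card : ℤ)
          - 56 * ((S.filter (fun χ : IrrCharacter G => charDegree (χ : G → ℂ) = 56)).card : ℤ)
          - 189 * ((S.filter (fun χ : IrrCharacter G => charDegree (χ : G → ℂ) = 189)).card : ℤ) := by
  classical
  haveI : Finite (IrrCharacter G) := Cfsg.Agent.Lib.Helper82.finite_irrCharacter G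
  letI : Fintype (IrrCharacter G) := Fintype.ofFinite _
  have hperf := Cfsg.Agent.Lib.Helper10.BR.X4.perfect hG
  have hXfin : X.Finite := Set.toFinite X
  have hnat : ∑ ψ : IrrCharacter G, (charDegree (ψ : G → ℂ)) ^ 2 = Nat.card G := by
    have hsum := Cfsg.Agent.Lib.Helper83.sum_degree_sq (G := G)
    have h : ((∑ ψ : IrrCharacter G, (charDegree (ψ : G → ℂ)) ^ 2 : ℕ) : ℂ) = (Nat.card G : ℂ) := by
      rw [← hsum]
      push_cast
      apply Finset.sum_congr rfl
      intro ψ _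
      rw [(Cfsg.Agent.Lib.Helper83.irr_degree ψ.2).2]
    exact_mod_cast h
  have hdegfact : ∀ χ : IrrCharacter G, charDegree (χ : G → ℂ) ∣ 459648 ∧
      charDegree (χ : G → ℂ) * charDegree (χ : G → ℂ) ≤ 459648 := by
    intro χ
    refine ⟨(Cfsg.Agent.Lib.Helper82.irr_degree_dvd_card χ).trans hcard, ?_⟩
    have hle : charDegree (χ : G → ℂ) ^ 2 ≤ Nat.card G := by
      rw [← hnat]
      exact Finset.single_le_sum (f := fun ψ : IrrCharacter G => charDegree (ψ : G → ℂ) ^ 2)
        (fun _ _ => Nat.zero_le _) (Finset.mem_univ χ)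
    have hG459 : Nat.card G ≤ 459648 := Nat.le_of_dvd (by norm_num) hcard
    nlinarith
  have hXdeg : ∀ χ ∈ X, χ ≠ trivIrr G → (εX χ = 1 ∧ charDegree (χ : G → ℂ) = 96) ∨
      (εX χ = -1 ∧ (charDegree (χ : G → ℂ) = 18 ∨ charDegree (χ : G → ℂ) = 56 ∨
        charDegree (χ : G → ℂ) = 189)) := by
    intro χ hχ hne
    have h2 := Cfsg.Agent.Lib.Helper10.BR.X4.two_le_deg hperf χ hne
    rcases arith_deg _ _ (hD.signX χ hχ) (hdegfact χ).1 (hdegfact χ).2 (hD.degX χ hχ) with
      ⟨hs, h | h⟩ | ⟨hs, h⟩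
    · omega
    · exact Or.inl ⟨hs, h⟩
    · exact Or.inr ⟨hs, h⟩
  obtain ⟨S, hSmem⟩ : ∃ S : Finset (IrrCharacter G), ∀ χ, χ ∈ S ↔ χ ∈ X ∧ χ ≠ trivIrr G := by
    refine ⟨hXfin.toFinset.filter (fun χ => χ ≠ trivIrr G), fun χ => ?_⟩
    rw [Finset.mem_filter, Set.Finite.mem_toFinset]
  have hSdeg : ∀ χ ∈ S, (εX χ = 1 ∧ charDegree (χ : G → ℂ) = 96) ∨
      (εX χ = -1 ∧ (charDegree (χ : G → ℂ) = 18 ∨ charDegree (χ : G → ℂ) = 56 ∨
        charDegree (χ : G → ℂ) = 189)) :=
    fun χ hχ => hXdeg χ ((hSmem χ).1 hχ).1 ((hSmem χ).1 hχ).2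
  have hmaps : ∀ χ ∈ S, (fun χ : IrrCharacter G => charDegree (χ : G → ℂ)) χ ∈
      ({96, 18, 56, 189} : Finset ℕ) := by
    intro χ hχ
    rcases hSdeg χ hχ with ⟨_, h⟩ | ⟨_, h | h | h⟩ <;> simp [h]
  have htrivS : trivIrr G ∉ S := fun h => ((hSmem _).1 h).2 rfl
  have hXS : trivIrr G ∈ X → hXfin.toFinset = insert (trivIrr G) S := by
    intro ht
    ext χ
    rw [Finset.mem_insert, hSmem, Set.Finite.mem_toFinset]
    constructor
    · intro h
      by_cases hc : χ = trivIrr G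
      · exact Or.inl hc
      · exact Or.inr ⟨h, hc⟩
    · rintro (h | h)
      · rw [h]
        exact ht
      · exact h.1
  have hXS' : trivIrr G ∉ X → hXfin.toFinset = S := by
    intro ht
    ext χ
    rw [hSmem, Set.Finite.mem_toFinset]
    exact ⟨fun h => ⟨h, fun hc => ht (hc ▸ h)⟩, fun h => h.1⟩
  have hone : ¬ 19 ∣ orderOf (1 : G) := by
    rw [orderOf_one]
    norm_num
  have hd1 : charDegree ((trivIrr G : IrrCharacter G) : G → ℂ) = 1 :=
    (Cfsg.Agent.Lib.Helper83.irr_charDegree_eq_one_iff (trivIrr G).2).mpr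
      (Cfsg.Agent.Lib.Helper83.trivIrr_apply 1)
  have hεtriv : trivIrr G ∈ X → εX (trivIrr G) = 1 := by
    intro ht
    have h1 := hD.degX _ ht
    rw [hd1] at h1
    rcases hD.signX _ ht with h | h
    · exact h
    · rw [h] at h1
      unfold Int.ModEq at h1
      omega
  refine ⟨S, if trivIrr G ∈ X then 1 else 0, hSmem, fun h => if_pos h, fun h => if_neg h, ?_,
    hSdeg, ?_, ?_⟩
  · rw [← hD.cardX, Nat.card_coe_set_eq, Set.ncard_eq_toFinset_card X hXfin]
    by_cases ht : trivIrr G ∈ X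
    · rw [if_pos ht, hXS ht, Finset.card_insert_of_notMem htrivS]
    · rw [if_neg ht, hXS' ht, add_zero]
  · have h := Finset.card_eq_sum_card_fiberwise
      (f := fun χ : IrrCharacter G => charDegree (χ : G → ℂ)) (s := S)
      (t := ({96, 18, 56, 189} : Finset ℕ)) hmaps
    rw [Finset.sum_insert (by decide), Finset.sum_insert (by decide),
      Finset.sum_insert (by decide), Finset.sum_singleton] at h
    omega
  · intro θ hθ
    have h1 := hD.t1 θ hθ 1 hone
    rw [finsum_mem_eq_finite_toFinset_sum _ hXfin] at h1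
    have h2 : (ε : ℤ) * (charDegree (θ : G → ℂ) : ℤ) =
        ∑ χ ∈ hXfin.toFinset, εX χ * (charDegree (χ : G → ℂ) : ℤ) := by
      have h3 : ((ε * (charDegree (θ : G → ℂ) : ℤ) : ℤ) : ℂ) =
          ((∑ χ ∈ hXfin.toFinset, εX χ * (charDegree (χ : G → ℂ) : ℤ) : ℤ) : ℂ) := by
        push_cast
        rw [← (Cfsg.Agent.Lib.Helper83.irr_degree θ.2).2, h1]
        apply Finset.sum_congr rfl
        intro χ _
        rw [(Cfsg.Agent.Lib.Helper83.irr_degree χ.2).2]
      exact_mod_cast h3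
    have hSsum : ∑ χ ∈ S, εX χ * (charDegree (χ : G → ℂ) : ℤ) =
        96 * ((S.filter (fun χ : IrrCharacter G => charDegree (χ : G → ℂ) = 96)).card : ℤ)
          - 18 * ((S.filter (fun χ : IrrCharacter G => charDegree (χ : G → ℂ) = 18)).card : ℤ)
          - 56 * ((S.filter (fun χ : IrrCharacter G => charDegree (χ : G → ℂ) = 56)).card : ℤ)
          - 189 * ((S.filter (fun χ : IrrCharacter G => charDegree (χ : G → ℂ) = 189)).card : ℤ) := by
      rw [← Finset.sum_fiberwise_of_maps_to hmaps]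
      rw [Finset.sum_insert (by decide), Finset.sum_insert (by decide),
        Finset.sum_insert (by decide), Finset.sum_singleton]
      have hc : ∀ (b : ℕ) (c : ℤ), (∀ χ ∈ S, charDegree (χ : G → ℂ) = b →
          εX χ * (charDegree (χ : G → ℂ) : ℤ) = c) →
          ∑ χ ∈ S.filter (fun χ : IrrCharacter G => charDegree (χ : G → ℂ) = b),
            εX χ * (charDegree (χ : G → ℂ) : ℤ) =
          c * ((S.filter (fun χ : IrrCharacter G => charDegree (χ : G → ℂ) = b)).card : ℤ) := by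
        intro b c hbc
        rw [Finset.sum_congr rfl (fun χ hχ => hbc χ (Finset.mem_filter.1 hχ).1
          (Finset.mem_filter.1 hχ).2), Finset.sum_const, nsmul_eq_mul, mul_comm]
      rw [hc 96 96, hc 18 (-18), hc 56 (-56), hc 189 (-189)]
      · ring
      · intro χ hχ hb
        rcases hSdeg χ hχ with ⟨hs, h⟩ | ⟨hs, h⟩
        · omega
        · rw [hs, hb]
          norm_num
      · intro χ hχ hb
        rcases hSdeg χ hχ with ⟨hs, h⟩ | ⟨hs, h⟩
        · omega
        · rw [hs, hb]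
          norm_num
      · intro χ hχ hb
        rcases hSdeg χ hχ with ⟨hs, h⟩ | ⟨hs, h⟩
        · omega
        · rw [hs, hb]
          norm_num
      · intro χ hχ hb
        rcases hSdeg χ hχ with ⟨hs, h⟩ | ⟨hs, h⟩
        · rw [hs, hb]
          norm_num
        · omega
    rw [h2]
    by_cases ht : trivIrr G ∈ X
    · rw [if_pos ht, hXS ht, Finset.sum_insert htrivS, hSsum, hεtriv ht, hd1]
      push_cast
      ring
    · rw [if_neg ht, hXS' ht, hSsum]
      push_cast
      ring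

end Cfsg.Agent.Lib.Helper74.NS19
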