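import Mathlib

/-!
# S1022 (no simple group of order 459648), piece PC1 (project of helper74; proof by helper17)
-/

set_option autoImplicit false

namespace Cfsg.Agent.Lib.Helper74.NS19

universe u

/-- PC1: Sylow 19 count in the centralizer of an involution `y ∈ C_G(P)`. -/
theorem cent_sylow {G : Type u} [Group G] [Finite G] (P : Sylow 19 G) (hP : Nat.card P = 19)
    (y : G) (hy : y ∈ Subgroup.centralizer ((P : Subgroup G) : Set G)) (hy2 : orderOf y = 2) :
    ∃ m : ℕ, Nat.card (Subgroup.centralizer ({y} : Set G)) =
        Nat.card (Sylow 19 (Subgroup.centralizer ({y} : Set G))) * m ∧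
      38 ∣ m ∧ m ∣ Nat.card (Subgroup.normalizer ((P : Subgroup G) : Set G)) := by
  classical
  have : Fact (Nat.Prime 19) := ⟨by norm_num⟩
  have hmc : ∀ g : G, g ∈ Subgroup.centralizer ({y} : Set G) ↔ y * g = g * y := by
    intro g
    rw [Subgroup.mem_centralizer_iff]
    constructor
    · intro h; exact h y rfl
    · intro h z hz
      rw [Set.mem_singleton_iff] at hz
      rw [hz]; exact h
  have hle : (P : Subgroup G) ≤ Subgroup.centralizer ({y} : Set G) := by
    intro x hx
    rw [hmc]
    exact ((Subgroup.mem_centralizer_iff.mp hy) x hx).symm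
  have hQmem : ∀ g : Subgroup.centralizer ({y} : Set G),
      g ∈ ((P.subtype hle : Sylow 19 (Subgroup.centralizer ({y} : Set G))) :
        Subgroup (Subgroup.centralizer ({y} : Set G))) ↔ (g : G) ∈ (P : Subgroup G) := by
    intro g
    rw [Sylow.coe_subtype, Subgroup.mem_subgroupOf]
  refine ⟨Nat.card (Subgroup.normalizer
    (((P.subtype hle : Sylow 19 (Subgroup.centralizer ({y} : Set G))) :
        Subgroup (Subgroup.centralizer ({y} : Set G))) :
      Set (Subgroup.centralizer ({y} : Set G)))), ?_, ?_, ?_⟩
  · rw [Sylow.card_eq_index_normalizer (P.subtype hle), mul_comm]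
    exact (Subgroup.card_mul_index _).symm
  · have h19 : 19 ∣ Nat.card (Subgroup.normalizer
        (((P.subtype hle : Sylow 19 (Subgroup.centralizer ({y} : Set G))) :
          Subgroup (Subgroup.centralizer ({y} : Set G))) :
        Set (Subgroup.centralizer ({y} : Set G)))) := by
      have hQ : Nat.card ((P.subtype hle : Sylow 19 (Subgroup.centralizer ({y} : Set G))) :
          Subgroup (Subgroup.centralizer ({y} : Set G))) = 19 := by
        rw [Sylow.coe_subtype]
        exact (Nat.card_congr (Subgroup.subgroupOfEquivOfLe hle).toEquiv).trans hP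
      have hdv := Subgroup.card_dvd_of_le (Subgroup.le_normalizer
        (H := ((P.subtype hle : Sylow 19 (Subgroup.centralizer ({y} : Set G))) :
          Subgroup (Subgroup.centralizer ({y} : Set G)))))
      rw [hQ] at hdv
      exact hdv
    have hyH : y ∈ Subgroup.centralizer ({y} : Set G) := by rw [hmc]
    have h2 : 2 ∣ Nat.card (Subgroup.normalizer
        (((P.subtype hle : Sylow 19 (Subgroup.centralizer ({y} : Set G))) :
          Subgroup (Subgroup.centralizer ({y} : Set G))) :
        Set (Subgroup.centralizer ({y} : Set G)))) := by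
      have hy'N : (⟨y, hyH⟩ : Subgroup.centralizer ({y} : Set G)) ∈ Subgroup.normalizer
          (((P.subtype hle : Sylow 19 (Subgroup.centralizer ({y} : Set G))) :
            Subgroup (Subgroup.centralizer ({y} : Set G))) :
          Set (Subgroup.centralizer ({y} : Set G))) := by
        rw [Subgroup.mem_normalizer_iff]
        intro g
        have hg := (hmc g).mp g.2
        have e : (⟨y, hyH⟩ : Subgroup.centralizer ({y} : Set G)) * g *
            (⟨y, hyH⟩ : Subgroup.centralizer ({y} : Set G))⁻¹ = g := by
          apply Subtype.ext
          show y * (g : G) * y⁻¹ = g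
          rw [hg, mul_assoc, mul_inv_cancel, mul_one]
        rw [e]
      have ho : orderOf (⟨y, hyH⟩ : Subgroup.centralizer ({y} : Set G)) = 2 := by
        rw [← Subgroup.orderOf_coe]; exact hy2
      have hdv := Subgroup.orderOf_dvd_natCard _ hy'N
      rw [ho] at hdv
      exact hdv
    exact Nat.Coprime.mul_dvd_of_dvd_of_dvd (by norm_num : Nat.Coprime 2 19) h2 h19
  · have hmaps : ∀ h : Subgroup.normalizer
        (((P.subtype hle : Sylow 19 (Subgroup.centralizer ({y} : Set G))) :
          Subgroup (Subgroup.centralizer ({y} : Set G))) :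
        Set (Subgroup.centralizer ({y} : Set G))),
        (((Subgroup.centralizer ({y} : Set G)).subtype.comp (Subgroup.subtype _)) h : G) ∈
          Subgroup.normalizer ((P : Subgroup G) : Set G) := by
      intro h
      have hh := Subgroup.mem_normalizer_iff.mp h.2
      rw [Subgroup.mem_normalizer_iff]
      intro g
      show g ∈ (P : Subgroup G) ↔ ((h : Subgroup.centralizer ({y} : Set G)) : G) * g *
        ((h : Subgroup.centralizer ({y} : Set G)) : G)⁻¹ ∈ (P : Subgroup G)
      constructor
      · intro hg
        have h1 := (hh ⟨g, hle hg⟩).mp ((hQmem _).mpr hg)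
        exact (hQmem _).mp h1
      · intro hg
        have hgH : g ∈ Subgroup.centralizer ({y} : Set G) := by
          have h1 := hle hg
          have h2 : g = ((h : Subgroup.centralizer ({y} : Set G)) : G)⁻¹ *
              (((h : Subgroup.centralizer ({y} : Set G)) : G) * g *
                ((h : Subgroup.centralizer ({y} : Set G)) : G)⁻¹) *
              ((h : Subgroup.centralizer ({y} : Set G)) : G) := by group
          rw [h2]
          exact Subgroup.mul_mem _ (Subgroup.mul_mem _ (Subgroup.inv_mem _ (h : Subgroup.centralizer ({y} : Set G)).2) h1)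
            (h : Subgroup.centralizer ({y} : Set G)).2
        have h3 : (h : Subgroup.centralizer ({y} : Set G)) * ⟨g, hgH⟩ *
            (h : Subgroup.centralizer ({y} : Set G))⁻¹ ∈
            ((P.subtype hle : Sylow 19 (Subgroup.centralizer ({y} : Set G))) :
              Subgroup (Subgroup.centralizer ({y} : Set G))) := (hQmem _).mpr hg
        exact (hQmem _).mp ((hh ⟨g, hgH⟩).mpr h3)
    have hinj : Function.Injective
        ((((Subgroup.centralizer ({y} : Set G)).subtype.comp (Subgroup.subtype _)).codRestrict
          (Subgroup.normalizer ((P : Subgroup G) : Set G)) hmaps)) := by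
      intro a b hab
      have h1 := congrArg Subtype.val hab
      exact Subtype.ext (Subtype.ext h1)
    exact Subgroup.card_dvd_of_injective _ hinj

end Cfsg.Agent.Lib.Helper74.NS19
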