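import Mathlib

/-!
# S1022 (no simple group of order 459648), piece PC2 (project of helper74; proof by helper20)
-/

set_option autoImplicit false

namespace Cfsg.Agent.Lib.Helper74.NS19

universe u

/-- PC2: a simple group of order divisible by 19 has no proper subgroup of index `< 19`. -/
theorem small_index_false {G : Type u} [Group G] [Finite G] [IsSimpleGroup G]
    (h19 : 19 ∣ Nat.card G) (H : Subgroup G) (hH : H ≠ ⊤) (hidx : H.index < 19) : False := by
  classical
  have hcore : H.normalCore = ⊥ := by
    rcases (H.normalCore_normal).eq_bot_or_eq_top with h | h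
    · exact h
    · exact absurd (top_le_iff.mp (h ▸ H.normalCore_le)) hH
  have hinj : Function.Injective (MulAction.toPermHom G (G ⧸ H)) := by
    rw [← MonoidHom.ker_eq_bot_iff, ← Subgroup.normalCore_eq_ker, hcore]
  have hdvd : Nat.card G ∣ Nat.card (Equiv.Perm (G ⧸ H)) :=
    Subgroup.card_dvd_of_injective _ hinj
  rw [Nat.card_perm, ← Subgroup.index_eq_card] at hdvd
  have h1 : 19 ∣ (H.index).factorial := h19.trans hdvd
  have h2 : 19 ≤ H.index := (Nat.Prime.dvd_factorial (by norm_num)).mp h1
  omega

end Cfsg.Agent.Lib.Helper74.NS19
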