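import Mathlib
import Cfsg.Agent.Lib.Helper74.NS19AR5
import Cfsg.Agent.Lib.Helper74.NS19NC
import Cfsg.Agent.Lib.Helper74.NS19PC1
import Cfsg.Agent.Lib.Helper74.NS19PC2

/-!
# S1022: the centralizer of an involution `y ∈ C_G(P)` cannot have order `≥ 649`
-/

set_option autoImplicit false

namespace Cfsg.Agent.Lib.Helper74.NS19

universe u

theorem cent_false {G : Type u} [Group G] [Finite G] [IsSimpleGroup G] (hG : ¬ IsCyclic G)
    (hcard : Nat.card G = 459648)
    (hT : ∀ (L : Type u) [Group L] [Finite L], Nat.card L ∣ 21888 → Nat.card (Sylow 19 L) = 1)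
    (P : Sylow 19 G) (hP : Nat.card P = 19)
    (hN : Nat.card (Subgroup.normalizer ((P : Subgroup G) : Set G)) = 456) (y : G)
    (hy : y ∈ Subgroup.centralizer ((P : Subgroup G) : Set G)) (hy2 : orderOf y = 2)
    (hbig : 649 ≤ Nat.card (Subgroup.centralizer ({y} : Set G))) : False := by
  haveI : Fact (Nat.Prime 19) := ⟨by norm_num⟩
  obtain ⟨m, hm, h38, hmN⟩ := cent_sylow P hP y hy hy2
  rw [hN] at hmN
  have hHdvd : Nat.card (Subgroup.centralizer ({y} : Set G)) ∣ 459648 := by
    rw [← hcard]
    exact Subgroup.card_subgroup_dvd_card _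
  have hn_mod : Nat.card (Sylow 19 (Subgroup.centralizer ({y} : Set G))) % 19 = 1 := by
    have h := card_sylow_modEq_one 19 (Subgroup.centralizer ({y} : Set G))
    exact h
  have hn_dvd : Nat.card (Sylow 19 (Subgroup.centralizer ({y} : Set G))) ∣ 459648 :=
    (Dvd.intro m hm.symm).trans hHdvd
  have hm_pos : 0 < m := Nat.pos_of_dvd_of_pos hmN (by norm_num)
  have hm_le : m ≤ 456 := Nat.le_of_dvd (by norm_num) hmN
  have hm38 : 38 ≤ m := Nat.le_of_dvd hm_pos h38
  rcases arith_n19 _ hn_dvd hn_mod with h | h | h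
  · rw [h, one_mul] at hm
    omega
  · have hH21888 : Nat.card (Subgroup.centralizer ({y} : Set G)) ∣ 21888 := by
      have h1 : 96 * m ∣ 459648 := by
        rw [← h, ← hm]
        exact hHdvd
      rw [hm, h]
      obtain ⟨j, rfl⟩ := h38
      have hj : j ∣ 12 := by
        have h2 : 38 * j ∣ 38 * 12 := hmN
        exact Nat.dvd_of_mul_dvd_mul_left (by norm_num) h2
      have hj12 : j ≤ 12 := Nat.le_of_dvd (by norm_num) hj
      interval_cases j <;> omega
    have h1 := hT _ hH21888
    omega
  · have hy1 : y ≠ 1 := by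
      rintro rfl
      rw [orderOf_one] at hy2
      omega
    have hHne : Subgroup.centralizer ({y} : Set G) ≠ ⊤ := centralizer_ne_top hG y hy1
    have hidx : (Subgroup.centralizer ({y} : Set G)).index < 19 := by
      have hmul : Nat.card (Subgroup.centralizer ({y} : Set G)) *
          (Subgroup.centralizer ({y} : Set G)).index = Nat.card G := Subgroup.card_mul_index _
      rw [hm, h, hcard] at hmul
      by_contra hge
      push Not at hge
      have h2 : 1008 * 38 * 19 ≤ 1008 * m * (Subgroup.centralizer ({y} : Set G)).index :=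
        Nat.mul_le_mul (Nat.mul_le_mul_left 1008 hm38) hge
      omega
    exact small_index_false (by rw [hcard]; norm_num) _ hHne hidx

end Cfsg.Agent.Lib.Helper74.NS19
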