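import Mathlib
import Cfsg.Agent.Lib.Helper10.BR0
import Cfsg.Agent.Lib.Helper82.CharCore
import Cfsg.Agent.Lib.Helper83.Ortho

/-!
# S1022 (no simple group of order 459648), piece CB (project of helper74; proof by helper83)
-/

set_option autoImplicit false
set_option linter.unusedVariables false
set_option linter.style.haveILetI false

namespace Cfsg.Agent.Lib.Helper74.NS19

open Cfsg
open Cfsg.Agent.Lib.Helper83 (trivIrr)
open Cfsg.Agent.Lib.Helper10.BR (DOut)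

universe u

/-- CB: column orthogonality lower bound for a centralizer. -/
theorem cent_649 {G : Type u} [Group G] [Fintype G] (y : G) (χ₁ χ₂ : IrrCharacter G)
    (h12 : χ₁ ≠ χ₂) (h1 : χ₁ ≠ trivIrr G) (h2 : χ₂ ≠ trivIrr G) (k₁ k₂ : ℤ)
    (hk₁ : (χ₁ : G → ℂ) y = (k₁ : ℂ)) (hk₂ : (χ₂ : G → ℂ) y = (k₂ : ℂ))
    (h18₁ : 18 ≤ |k₁|) (h18₂ : 18 ≤ |k₂|) :
    649 ≤ Nat.card (Subgroup.centralizer ({y} : Set G)) := by
  classical
  haveI : Finite (IrrCharacter G) := Cfsg.Agent.Lib.Helper82.finite_irrCharacter G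
  haveI : Fintype (IrrCharacter G) := Fintype.ofFinite _
  have hcol := Cfsg.Agent.Lib.Helper83.column_orthogonality_conj (G := G) (IsConj.refl y)
  -- each term is a nonnegative real: normSq
  have hterm : ∀ χ : IrrCharacter G,
      (χ : G → ℂ) y * (starRingEnd ℂ) ((χ : G → ℂ) y) = ((Complex.normSq ((χ : G → ℂ) y) : ℝ) : ℂ) :=
    fun χ => Complex.mul_conj _
  have hsum : ((∑ χ : IrrCharacter G, Complex.normSq ((χ : G → ℂ) y) : ℝ) : ℂ) =
      (Nat.card (Subgroup.centralizer ({y} : Set G)) : ℂ) := by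
    rw [← hcol, Complex.ofReal_sum]
    exact Finset.sum_congr rfl (fun χ _ => (hterm χ).symm)
  have hsumR : (∑ χ : IrrCharacter G, Complex.normSq ((χ : G → ℂ) y) : ℝ) =
      (Nat.card (Subgroup.centralizer ({y} : Set G)) : ℝ) := by
    exact_mod_cast hsum
  set S : Finset (IrrCharacter G) := {trivIrr G, χ₁, χ₂} with hS
  have hsub : ∑ χ ∈ S, Complex.normSq ((χ : G → ℂ) y) ≤
      ∑ χ : IrrCharacter G, Complex.normSq ((χ : G → ℂ) y) :=
    Finset.sum_le_sum_of_subset_of_nonneg (Finset.subset_univ _)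
      (fun χ _ _ => Complex.normSq_nonneg _)
  have hS3 : ∑ χ ∈ S, Complex.normSq ((χ : G → ℂ) y) =
      1 + (k₁ : ℝ) ^ 2 + (k₂ : ℝ) ^ 2 := by
    rw [hS, Finset.sum_insert, Finset.sum_insert, Finset.sum_singleton]
    · rw [Cfsg.Agent.Lib.Helper83.trivIrr_apply, hk₁, hk₂]
      have e1 : ((k₁ : ℤ) : ℂ) = ((k₁ : ℝ) : ℂ) := by push_cast; rfl
      have e2 : ((k₂ : ℤ) : ℂ) = ((k₂ : ℝ) : ℂ) := by push_cast; rfl
      rw [e1, e2, Complex.normSq_ofReal, Complex.normSq_ofReal, map_one]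
      ring
    · simpa using h12
    · simp only [Finset.mem_insert, Finset.mem_singleton, not_or]
      exact ⟨fun h => h1 h.symm, fun h => h2 h.symm⟩
  have hk1 : (324 : ℝ) ≤ (k₁ : ℝ) ^ 2 := by
    have : (324 : ℤ) ≤ k₁ ^ 2 := by
      have h := abs_nonneg k₁
      have : k₁ ^ 2 = |k₁| ^ 2 := (sq_abs k₁).symm
      rw [this]; nlinarith
    exact_mod_cast this
  have hk2 : (324 : ℝ) ≤ (k₂ : ℝ) ^ 2 := by
    have : (324 : ℤ) ≤ k₂ ^ 2 := by
      have h := abs_nonneg k₂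
      have : k₂ ^ 2 = |k₂| ^ 2 := (sq_abs k₂).symm
      rw [this]; nlinarith
    exact_mod_cast this
  have hfin : (649 : ℝ) ≤ (Nat.card (Subgroup.centralizer ({y} : Set G)) : ℝ) := by
    rw [← hsumR]; linarith
  exact_mod_cast hfin

end Cfsg.Agent.Lib.Helper74.NS19
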