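import Mathlib

/-!
# S1022 (no simple group of order 459648), piece SY0 (project of helper74; proof by helper34)
-/

set_option autoImplicit false

namespace Cfsg.Agent.Lib.Helper74.NS19

universe u

/-- SY0: a Sylow 19-subgroup has order 19. -/
theorem sylow_card19 {G : Type u} [Group G] [Finite G] (hcard : Nat.card G ∣ 459648)
    (h19 : 19 ∣ Nat.card G) (P : Sylow 19 G) : Nat.card P = 19 := by
  have : Fact (Nat.Prime 19) := ⟨by norm_num⟩
  obtain ⟨n, hn⟩ := (IsPGroup.iff_card (p := 19) (G := P)).mp P.isPGroup'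
  have hdvd : Nat.card P ∣ 459648 := (Subgroup.card_subgroup_dvd_card (P : Subgroup G)).trans hcard
  have h19P : 19 ∣ Nat.card P := P.dvd_card_of_dvd_card h19
  rw [hn] at hdvd h19P ⊢
  have hn1 : n ≠ 0 := by
    rintro rfl
    norm_num at h19P
  have hn2 : n < 2 := by
    by_contra hge
    push Not at hge
    have h2 : 19 ^ 2 ∣ 459648 := (pow_dvd_pow 19 hge).trans hdvd
    norm_num at h2
  have : n = 1 := by omega
  subst this
  norm_num

end Cfsg.Agent.Lib.Helper74.NS19
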