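import Mathlib
import Cfsg.Agent.Lib.Helper10.BR0
import Cfsg.Agent.Lib.Helper22.DOne2
import Cfsg.Agent.Lib.Helper82.PQ
import Cfsg.Agent.Lib.Helper82.CharCore
import Cfsg.Agent.Lib.Helper79.Blk2
import Cfsg.Agent.Lib.Helper92.BRX2
import Cfsg.Agent.Lib.Helper64.BRG5
import Cfsg.Agent.Lib.Helper34.BRG4
import Cfsg.Agent.Lib.Helper74.BRG3
import Cfsg.Agent.Lib.Helper74.NS19AR3
import Cfsg.Agent.Lib.Helper74.NS19BL
import Cfsg.Agent.Lib.Helper74.NS19SY0
import Cfsg.Agent.Lib.Helper74.NS19SY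

/-!
# S1022 (no simple group of order 459648): the case of 96 Sylow 19-subgroups

`d1`: a nonabelian simple group of order dividing 459648 cannot have exactly 96 Sylow
19-subgroups (of order 19).  `simple_small_false`: there is no nonabelian simple group of order
dividing `21888 = 2^7 * 3^2 * 19` and divisible by 19.
-/

set_option autoImplicit false

namespace Cfsg.Agent.Lib.Helper74.NS19

open Cfsg
open Cfsg.Agent.Lib.Helper83 (trivIrr)
open Cfsg.Agent.Lib.Helper10.BR (DOut)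

universe u

theorem d1 {G : Type u} [Group G] [Finite G] [IsSimpleGroup G] (hG : ¬ IsCyclic G)
    (hcard : Nat.card G ∣ 459648) (P : Sylow 19 G) (hP : Nat.card P = 19)
    (h96 : Nat.card (Sylow 19 G) = 96) : False := by
  classical
  haveI : Fact (Nat.Prime 19) := ⟨by norm_num⟩
  letI : Fintype G := Fintype.ofFinite G
  have hp : Nat.Prime 19 := by norm_num
  obtain ⟨n, v, hS, hv, hCc, hNc, hidx, hcardG⟩ :=
    Cfsg.Agent.Lib.Helper10.BR.card_decomp 19 P hP
  obtain ⟨e, hedef⟩ : ∃ e, (Subgroup.centralizer ((P : Subgroup G) : Set G)).relIndex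
      (Subgroup.normalizer ((P : Subgroup G) : Set G)) = e := ⟨_, rfl⟩
  have he1 : e ≠ 1 := by
    rw [← hedef]
    exact Cfsg.Agent.Lib.Helper10.BR.relIndex_ne_one hG 19 P hP
  have hedvd : e ∣ 18 := by
    rw [← hedef]
    exact Cfsg.Agent.Lib.Helper10.BR.relIndex_dvd 19 P hP
  rw [hedef] at hidx
  have hidx' : (Subgroup.centralizer ((P : Subgroup G) : Set G)).index = 96 * e := by
    rw [hidx, ← hS, h96]
  obtain ⟨M, hM⟩ := Cfsg.Agent.Lib.Helper82.exists_isPModular 19
  obtain ⟨X, Y, hblock, hdisj, hcX, hcY, εX, ε, hX, hε, hdY, hregY, ht1⟩ :=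
    Cfsg.Agent.Lib.Helper22.DOne.core 19 M hM P hP e hedef
  have hD : DOut G 19 M (P : Subgroup G) e X Y εX ε :=
    ⟨hblock, hdisj, hcX, hcY, fun χ hχ => (hX χ hχ).1, fun χ hχ => (hX χ hχ).2.1,
      fun χ hχ => (hX χ hχ).2.2, hε, hdY, hregY, ht1⟩
  obtain ⟨S, δ, hSmem, hδ1, hδ0, hScard, hSdeg, hSsum, hYeq⟩ :=
    block_counts hG hcard M (P : Subgroup G) e X Y εX ε hD
  have hone : ¬ 19 ∣ orderOf (1 : G) := by
    rw [orderOf_one]
    norm_num
  have hdeg : ∀ χ ∈ X, charDegree (χ : G → ℂ) ∣ 96 * e := by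
    intro χ hχ
    rw [← hidx']
    refine Cfsg.Agent.Lib.Helper10.BR.deg_dvd 19 hp (P : Subgroup G) hP χ (εX χ) (hX χ hχ).1 ?_
    intro x hx hx1
    have h := (hX χ hχ).2.2 x hx hx1 1 (Subgroup.one_mem _) hone
    rwa [mul_one] at h
  have hno7 : ∀ d : ℕ, 7 ∣ d → ¬ d ∣ 96 * e := by
    intro d h7 hd
    have h1 : 7 ∣ 96 * e := h7.trans hd
    have h2 : 96 * e ∣ 96 * 18 := Nat.mul_dvd_mul_left 96 hedvd
    have h3 : 7 ∣ 96 * 18 := h1.trans h2
    omega
  have h56 : (S.filter (fun χ : IrrCharacter G => charDegree (χ : G → ℂ) = 56)).card = 0 := by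
    rw [Finset.card_eq_zero, Finset.filter_eq_empty_iff]
    intro χ hχ h
    exact hno7 56 (by norm_num) (h ▸ hdeg χ ((hSmem χ).1 hχ).1)
  have h189 : (S.filter (fun χ : IrrCharacter G => charDegree (χ : G → ℂ) = 189)).card = 0 := by
    rw [Finset.card_eq_zero, Finset.filter_eq_empty_iff]
    intro χ hχ h
    exact hno7 189 (by norm_num) (h ▸ hdeg χ ((hSmem χ).1 hχ).1)
  have he0 : 0 < e := Nat.pos_of_dvd_of_pos hedvd (by norm_num)
  have hYne : Y.Nonempty := by
    have hc : Nat.card Y ≠ 0 := by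
      rw [hcY]
      have hle : e ≤ 18 := Nat.le_of_dvd (by norm_num) hedvd
      exact (Nat.div_pos hle he0).ne'
    by_contra hemp
    rw [Set.not_nonempty_iff_eq_empty] at hemp
    rw [hemp] at hc
    simp at hc
  by_cases htriv : trivIrr G ∈ X
  · obtain ⟨θ, hθ⟩ := hYne
    have heq := hYeq θ hθ
    rw [hδ1 htriv, h56, h189] at heq
    have hθdvd : charDegree (θ : G → ℂ) ∣ 459648 :=
      (Cfsg.Agent.Lib.Helper82.irr_degree_dvd_card θ).trans hcard
    have hab : (S.filter (fun χ : IrrCharacter G => charDegree (χ : G → ℂ) = 96)).card +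
        (S.filter (fun χ : IrrCharacter G => charDegree (χ : G → ℂ) = 18)).card + 1 = e := by
      have h := hδ1 htriv
      omega
    refine he1 (arith_eq96 e _ _ _ ε hedvd hab hθdvd hε ?_)
    rw [heq]
    push_cast
    ring
  · have hY : trivIrr G ∈ Y := by
      have h1 : trivIrr G ∈ X ∪ Y := by
        rw [← hblock]
        exact Cfsg.Agent.Lib.Helper79.trivIrr_mem_principalBlock hM
      exact h1.resolve_left htriv
    have heq := hYeq (trivIrr G) hY
    have hd1 : charDegree ((trivIrr G : IrrCharacter G) : G → ℂ) = 1 :=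
      (Cfsg.Agent.Lib.Helper83.irr_charDegree_eq_one_iff (trivIrr G).2).mpr
        (Cfsg.Agent.Lib.Helper83.trivIrr_apply 1)
    rw [hδ0 htriv, h56, h189, hd1] at heq
    rcases hε with h | h <;> rw [h] at heq <;> push_cast at heq <;> omega

theorem simple_small_false {L : Type u} [Group L] [Finite L] [IsSimpleGroup L]
    (hL : ¬ IsCyclic L) (hcard : Nat.card L ∣ 21888) (h19 : 19 ∣ Nat.card L) : False := by
  have hcard' : Nat.card L ∣ 459648 := hcard.trans (by norm_num)
  haveI : Fact (Nat.Prime 19) := ⟨by norm_num⟩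
  obtain ⟨P⟩ : Nonempty (Sylow 19 L) := inferInstance
  exact d1 hL hcard' P (sylow_card19 hcard' h19 P) (sylow19_small hL hcard h19)

end Cfsg.Agent.Lib.Helper74.NS19
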