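import Mathlib
import Cfsg.Agent.Lib.Helper10.BR0
import Cfsg.Agent.Lib.Helper82.CharCore
import Cfsg.Agent.Lib.Helper83.BRL2
import Cfsg.Agent.Lib.Helper83.Linear
import Cfsg.Agent.Lib.Helper62.Cent4B

/-!
# S1022 (no simple group of order 459648), piece R (placeholder; project of helper74)
-/

set_option autoImplicit false

namespace Cfsg.Agent.Lib.Helper74.NS19

open Cfsg
open Cfsg.Agent.Lib.Helper83 (trivIrr)
open Cfsg.Agent.Lib.Helper10.BR (DOut)

universe u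

/-- R: value at an involution `y ∈ C_G(P)` of an irreducible character which is constant `s`
on the elements `x * y`, `x ∈ P ∖ {1}` (`|P| = 19`). -/
theorem invol_val {G : Type u} [Group G] [Fintype G] (P : Subgroup G) (hP : Nat.card P = 19)
    (χ : IrrCharacter G) (s : ℤ) (hs : s = 1 ∨ s = -1) (y : G)
    (hy : y ∈ Subgroup.centralizer (P : Set G)) (hy2 : orderOf y = 2)
    (hval : ∀ x ∈ P, x ≠ 1 → (χ : G → ℂ) (x * y) = (s : ℂ)) :
    ∃ k : ℤ, (χ : G → ℂ) y = (k : ℂ) ∧ k ≡ s [ZMOD 19] ∧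
      k ≡ (charDegree (χ : G → ℂ) : ℤ) [ZMOD 2] ∧ |k| ≤ (charDegree (χ : G → ℂ) : ℤ) := by
  classical
  -- (i) the value at the involution
  have hyy : y * y = 1 := by
    rw [← pow_two, ← hy2]
    exact pow_orderOf_eq_one y
  obtain ⟨p, q, hpq, hpq1⟩ := Cfsg.Agent.Lib.Helper62.irr_invol χ y hyy
  have hdeg : p + q = charDegree (χ : G → ℂ) := by
    have h1 := (Cfsg.Agent.Lib.Helper83.irr_degree χ.2).2
    rw [hpq1] at h1
    exact_mod_cast h1
  have hk : (χ : G → ℂ) y = (((p : ℤ) - (q : ℤ) : ℤ) : ℂ) := by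
    rw [hpq]
    push_cast
    rfl
  -- (ii) the congruence mod 19
  haveI : Finite P := Nat.finite_of_card_ne_zero (by rw [hP]; norm_num)
  letI : Fintype P := Fintype.ofFinite P
  have hcardP : Fintype.card P = 19 := by rw [← Nat.card_eq_fintype_card, hP]
  have hps : Cfsg.Agent.Lib.Helper10.BR.psum P (χ : G → ℂ) y =
      (χ : G → ℂ) y + 18 * (s : ℂ) := by
    rw [Cfsg.Agent.Lib.Helper10.BR.psum_eq_sum, ← Finset.add_sum_erase Finset.univ _
      (Finset.mem_univ (1 : P))]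
    have h1 : ∑ u ∈ Finset.univ.erase (1 : P), (χ : G → ℂ) (y * (u : G)) =
        ∑ u ∈ Finset.univ.erase (1 : P), (s : ℂ) := by
      apply Finset.sum_congr rfl
      intro u hu
      have hu1 : (u : G) ≠ 1 := fun h => (Finset.ne_of_mem_erase hu) (Subtype.ext h)
      have hc : (u : G) * y = y * (u : G) := (Subgroup.mem_centralizer_iff.1 hy) u u.2
      rw [← hc]
      exact hval u u.2 hu1
    rw [h1, Finset.sum_const, Finset.card_erase_of_mem (Finset.mem_univ _), Finset.card_univ,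
      hcardP]
    simp
  have hyN : y ∈ Subgroup.normalizer (P : Set G) := Subgroup.centralizer_le_normalizer _ hy
  have hχc : IsCharacter G (χ : G → ℂ) := by
    obtain ⟨n, ρ, -, h⟩ := χ.2
    exact ⟨n, ρ, h⟩
  obtain ⟨T, c, hT⟩ := Cfsg.Agent.Lib.Helper10.BR.BRL2aux.psum_decomp P (χ : G → ℂ) hχc
  have hTy := hT ⟨y, hyN⟩
  rw [hP] at hTy
  have hint : IsIntegral ℤ (∑ η ∈ T, (c η : ℂ) *
      (η : Subgroup.normalizer (P : Set G) → ℂ) ⟨y, hyN⟩) := by
    apply IsIntegral.sum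
    intro η _
    exact IsIntegral.mul (isIntegral_natCast _) (Cfsg.Agent.Lib.Helper82.irr_isIntegral η _)
  have hA : ∑ η ∈ T, (c η : ℂ) * (η : Subgroup.normalizer (P : Set G) → ℂ) ⟨y, hyN⟩ =
      ((χ : G → ℂ) y + 18 * (s : ℂ)) / 19 := by
    rw [← hps]
    change _ = Cfsg.Agent.Lib.Helper10.BR.psum P (χ : G → ℂ) ((⟨y, hyN⟩ :
      Subgroup.normalizer (P : Set G)) : G) / 19
    rw [hTy]
    push_cast
    field_simp
  have hqle : (q : ℤ) ≤ p + q := by omega
  have hnn : 0 ≤ (p : ℤ) - (q : ℤ) + 18 * s + 19 * ((p : ℤ) + (q : ℤ) + 1) := by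
    rcases hs with h | h <;> rw [h] <;> omega
  obtain ⟨a, ha⟩ := Int.eq_ofNat_of_zero_le hnn
  have hint2 : IsIntegral ℤ ((a : ℂ) / ((19 : ℕ) : ℂ)) := by
    have h2 : (a : ℂ) / ((19 : ℕ) : ℂ) = (∑ η ∈ T, (c η : ℂ) *
        (η : Subgroup.normalizer (P : Set G) → ℂ) ⟨y, hyN⟩) + (((p + q + 1 : ℕ)) : ℂ) := by
      rw [hA, hk]
      have h3 : (a : ℂ) = (((p : ℤ) - (q : ℤ) + 18 * s + 19 * ((p : ℤ) + (q : ℤ) + 1) : ℤ) : ℂ) := by
        rw [ha]
        norm_cast
      rw [h3]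
      push_cast
      field_simp
    rw [h2]
    exact IsIntegral.add hint (isIntegral_natCast _)
  have hdvd := Cfsg.Agent.Lib.Helper82.isIntegral_div_imp_dvd a 19 (by norm_num) hint2
  refine ⟨(p : ℤ) - (q : ℤ), hk, ?_, ?_, ?_⟩
  · unfold Int.ModEq
    have h4 : (19 : ℤ) ∣ (a : ℤ) := by exact_mod_cast hdvd
    rw [← ha] at h4
    omega
  · unfold Int.ModEq
    rw [← hdeg]
    push_cast
    omega
  · rw [← hdeg, abs_le]
    push_cast
    constructor <;> omega

end Cfsg.Agent.Lib.Helper74.NS19
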