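import Mathlib
import Cfsg.Agent.Lib.Helper74.NS19AR5

/-!
# S1022 (no simple group of order 459648), piece SY (project of helper74; proof by helper17)
-/

set_option autoImplicit false

namespace Cfsg.Agent.Lib.Helper74.NS19

universe u

namespace SYaux

theorem card_ne_one {G : Type u} [Group G] [Finite G] [IsSimpleGroup G] (hG : ¬ IsCyclic G)
    (hcard : Nat.card G ∣ 459648) (h19 : 19 ∣ Nat.card G) : Nat.card (Sylow 19 G) ≠ 1 := by
  have hp : Fact (Nat.Prime 19) := ⟨by norm_num⟩
  intro h1
  have hsub : Subsingleton (Sylow 19 G) := (Nat.card_eq_one_iff_unique.mp h1).1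
  obtain ⟨P⟩ : Nonempty (Sylow 19 G) := inferInstance
  have hnormal : (P : Subgroup G).Normal := Sylow.normal_of_subsingleton P
  rcases hnormal.eq_bot_or_eq_top with hb | ht
  · exact Sylow.ne_bot_of_dvd_card P h19 hb
  · obtain ⟨k, hk⟩ := IsPGroup.iff_card.mp P.isPGroup'
    have hPG : Nat.card (P : Subgroup G) = Nat.card G := by
      rw [ht]; exact Subgroup.card_top
    rw [hPG] at hk
    have hk1 : k = 1 := by
      rcases Nat.lt_or_ge k 2 with h | h
      · interval_cases k
        · rw [hk] at h19
          norm_num at h19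
        · rfl
      · exfalso
        have h361 : 19 ^ 2 ∣ 459648 := by
          refine dvd_trans ?_ hcard
          rw [hk]
          exact pow_dvd_pow 19 h
        norm_num at h361
    rw [hk1, pow_one] at hk
    exact hG (isCyclic_of_prime_card hk)

end SYaux

/-- SY: the number of Sylow 19-subgroups of a simple group of order 459648. -/
theorem sylow19_cases {G : Type u} [Group G] [Finite G] [IsSimpleGroup G] (hG : ¬ IsCyclic G)
    (hcard : Nat.card G = 459648) :
    Nat.card (Sylow 19 G) = 96 ∨ Nat.card (Sylow 19 G) = 1008 := by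
  have hp : Fact (Nat.Prime 19) := ⟨by norm_num⟩
  have hne := SYaux.card_ne_one hG (by rw [hcard]) (by rw [hcard]; norm_num)
  obtain ⟨P⟩ : Nonempty (Sylow 19 G) := inferInstance
  have hdvd : Nat.card (Sylow 19 G) ∣ 459648 := by
    rw [← hcard]
    exact (Sylow.card_dvd_index P).trans (Subgroup.index_dvd_card _)
  have hmod : Nat.card (Sylow 19 G) % 19 = 1 := by
    have := card_sylow_modEq_one 19 G
    exact this
  rcases arith_n19 _ hdvd hmod with h | h | h
  · exact absurd h hne
  · exact Or.inl h
  · exact Or.inr h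

/-- SY': the number of Sylow 19-subgroups of a nonabelian simple group of order dividing
21888 = 2^7 * 3^2 * 19 (and divisible by 19). -/
theorem sylow19_small {G : Type u} [Group G] [Finite G] [IsSimpleGroup G] (hG : ¬ IsCyclic G)
    (hcard : Nat.card G ∣ 21888) (h19 : 19 ∣ Nat.card G) : Nat.card (Sylow 19 G) = 96 := by
  have hp : Fact (Nat.Prime 19) := ⟨by norm_num⟩
  have hne := SYaux.card_ne_one hG (hcard.trans (by norm_num)) h19
  obtain ⟨P⟩ : Nonempty (Sylow 19 G) := inferInstance
  have hdvd : Nat.card (Sylow 19 G) ∣ 21888 :=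
    ((Sylow.card_dvd_index P).trans (Subgroup.index_dvd_card _)).trans hcard
  have hmod : Nat.card (Sylow 19 G) % 19 = 1 := by
    have := card_sylow_modEq_one 19 G
    exact this
  rcases arith_n19_small _ hdvd hmod with h | h
  · exact absurd h hne
  · exact h

end Cfsg.Agent.Lib.Helper74.NS19
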