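import Mathlib

/-!
# S1022 (no simple group of order 459648), piece T0 (project of helper74; proof by helper56)
-/

set_option autoImplicit false

namespace Cfsg.Agent.Lib.Helper74.NS19

universe u

/-- T0: if 19 does not divide the order, there is exactly one Sylow 19-subgroup. -/
theorem sylow_one_of_not_dvd {L : Type u} [Group L] [Finite L] (h : ¬ 19 ∣ Nat.card L) :
    Nat.card (Sylow 19 L) = 1 := by
  haveI : Fact (Nat.Prime 19) := ⟨by norm_num⟩
  have key : ∀ P : Sylow 19 L, (P : Subgroup L) = ⊥ := by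
    intro P
    rw [← Subgroup.card_eq_one]
    obtain ⟨k, hk⟩ := IsPGroup.iff_card.1 P.2
    rcases Nat.eq_zero_or_pos k with hk0 | hk0
    · rw [hk, hk0, pow_zero]
    · exfalso
      apply h
      have h1 : 19 ∣ Nat.card (P : Subgroup L) := by
        rw [hk]
        exact dvd_pow_self 19 hk0.ne'
      exact h1.trans (Subgroup.card_subgroup_dvd_card _)
  have hsub : Subsingleton (Sylow 19 L) := ⟨fun P Q => Sylow.ext (by rw [key P, key Q])⟩
  exact Nat.card_eq_one_iff_unique.2 ⟨hsub, inferInstance⟩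

/-- T0': a cyclic group has exactly one Sylow 19-subgroup. -/
theorem sylow_one_of_isCyclic {L : Type u} [Group L] [Finite L] (h : IsCyclic L) :
    Nat.card (Sylow 19 L) = 1 := by
  haveI : Fact (Nat.Prime 19) := ⟨by norm_num⟩
  obtain ⟨g, hg⟩ := h.exists_generator
  have hcomm : ∀ a b : L, a * b = b * a := by
    intro a b
    obtain ⟨i, rfl⟩ := Subgroup.mem_zpowers_iff.1 (hg a)
    obtain ⟨j, rfl⟩ := Subgroup.mem_zpowers_iff.1 (hg b)
    rw [← zpow_add, ← zpow_add, add_comm]
  obtain ⟨P⟩ : Nonempty (Sylow 19 L) := inferInstance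
  have hPn : (P : Subgroup L).Normal :=
    ⟨fun n hn x => by rw [hcomm x n, mul_inv_cancel_right]; exact hn⟩
  haveI := Sylow.unique_of_normal P hPn
  exact Nat.card_unique

end Cfsg.Agent.Lib.Helper74.NS19
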