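import Mathlib

/-!
# S1022 (no simple group of order 459648), piece T2 (project of helper74; proof by helper56)
-/

set_option autoImplicit false

namespace Cfsg.Agent.Lib.Helper74.NS19

universe u

open scoped Pointwise in
/-- T2: if a normal subgroup `M` of order divisible by 19 has a unique Sylow 19-subgroup and
`19^2` does not divide `|L|`, then `L` has a unique Sylow 19-subgroup. -/
theorem sylow_one_of_normal {L : Type u} [Group L] [Finite L] (M : Subgroup L) [M.Normal]
    (h19 : 19 ∣ Nat.card M) (h361 : ¬ 361 ∣ Nat.card L) (hM : Nat.card (Sylow 19 M) = 1) :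
    Nat.card (Sylow 19 L) = 1 := by
  haveI : Fact (Nat.Prime 19) := ⟨by norm_num⟩
  have hp : Nat.Prime 19 := by norm_num
  haveI hsubM : Subsingleton (Sylow 19 M) := (Nat.card_eq_one_iff_unique.1 hM).1
  obtain ⟨R₀⟩ : Nonempty (Sylow 19 M) := inferInstance
  obtain ⟨R, hR⟩ : ∃ R : Subgroup L, R = (R₀ : Subgroup M).map M.subtype := ⟨_, rfl⟩
  have hcardR : Nat.card R = 19 ^ (Nat.card M).factorization 19 := by
    rw [hR, Subgroup.card_map_of_injective M.subtype_injective]
    exact R₀.card_eq_multiplicity
  have hv1 : 0 < (Nat.card M).factorization 19 :=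
    hp.factorization_pos_of_dvd Nat.card_pos.ne' h19
  have hRL : Nat.card R ∣ Nat.card L := Subgroup.card_subgroup_dvd_card R
  have hv2 : (Nat.card M).factorization 19 < 2 := by
    by_contra hge
    apply h361
    have h1 : 19 ^ 2 ∣ 19 ^ (Nat.card M).factorization 19 := pow_dvd_pow 19 (by omega)
    rw [← hcardR] at h1
    exact h1.trans hRL
  have hv : (Nat.card M).factorization 19 = 1 := by omega
  rw [hv, pow_one] at hcardR
  have h19L : 19 ∣ Nat.card L := h19.trans (Subgroup.card_subgroup_dvd_card M)
  have hvL : (Nat.card L).factorization 19 = 1 := by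
    have h1 : 0 < (Nat.card L).factorization 19 :=
      hp.factorization_pos_of_dvd Nat.card_pos.ne' h19L
    have h2 : ¬ 2 ≤ (Nat.card L).factorization 19 := by
      intro h2
      apply h361
      exact (hp.pow_dvd_iff_le_factorization Nat.card_pos.ne').2 h2
    omega
  have hcardR' : Nat.card R = 19 ^ (Nat.card L).factorization 19 := by
    rw [hvL, pow_one, hcardR]
  have hRn : R.Normal := by
    refine ⟨fun x hx g => ?_⟩
    rw [hR] at hx ⊢
    obtain ⟨y, hy, rfl⟩ := Subgroup.mem_map.1 hx
    have h1 : (MulAut.conjNormal g : MulAut ↥M) • R₀ = R₀ := Subsingleton.elim _ _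
    have h2 : (MulAut.conjNormal g : MulAut ↥M) • y ∈
        (MulAut.conjNormal g : MulAut ↥M) • (R₀ : Subgroup M) :=
      Subgroup.smul_mem_pointwise_smul y _ _ hy
    rw [← Sylow.pointwise_smul_def, h1] at h2
    exact Subgroup.mem_map.2 ⟨_, h2, rfl⟩
  have hPn : ((Sylow.ofCard R hcardR' : Sylow 19 L) : Subgroup L).Normal := by
    rw [Sylow.coe_ofCard]
    exact hRn
  haveI := Sylow.unique_of_normal (Sylow.ofCard R hcardR') hPn
  exact Nat.card_unique

end Cfsg.Agent.Lib.Helper74.NS19
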