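import Mathlib

/-!
# S1022 (no simple group of order 459648), piece T3 (project of helper74; proof by helper56)
-/

set_option autoImplicit false

namespace Cfsg.Agent.Lib.Helper74.NS19

universe u

/-- T3: if `L ⧸ M` has a unique Sylow 19-subgroup then `P M` is normal in `L`. -/
theorem sup_normal_of_quot {L : Type u} [Group L] [Finite L] (M : Subgroup L) [M.Normal]
    (hq : Nat.card (Sylow 19 (L ⧸ M)) = 1) (P : Sylow 19 L) :
    ((P : Subgroup L) ⊔ M).Normal := by
  haveI : Fact (Nat.Prime 19) := ⟨by norm_num⟩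
  have hsurj : Function.Surjective (QuotientGroup.mk' M) := QuotientGroup.mk'_surjective M
  haveI hsub : Subsingleton (Sylow 19 (L ⧸ M)) := (Nat.card_eq_one_iff_unique.1 hq).1
  have hQn : ((P.mapSurjective hsurj : Sylow 19 (L ⧸ M)) : Subgroup (L ⧸ M)).Normal :=
    Sylow.normal_of_subsingleton _
  rw [Sylow.coe_mapSurjective] at hQn
  have e : (P : Subgroup L) ⊔ M =
      ((P : Subgroup L).map (QuotientGroup.mk' M)).comap (QuotientGroup.mk' M) := by
    rw [Subgroup.comap_map_eq, QuotientGroup.ker_mk']
  rw [e]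
  exact hQn.comap (QuotientGroup.mk' M)

end Cfsg.Agent.Lib.Helper74.NS19
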