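import Mathlib

/-!
# S1022 (no simple group of order 459648), piece T4A (project of helper74; proof by helper56)
-/

set_option autoImplicit false

namespace Cfsg.Agent.Lib.Helper74.NS19

universe u

namespace T4Aaux

theorem not_modEq_zero : ∀ n ∈ Nat.divisors 1152, ¬ n % 19 = 0 := by
  decide +kernel

end T4Aaux

open scoped Pointwise in
/-- T4A: a subgroup `P` of order 19 normalizes some Sylow `q`-subgroup of a normal subgroup `M`
of order dividing 1152 = 2^7 * 3^2. -/
theorem exists_invariant_sylow {L : Type u} [Group L] [Finite L] (M : Subgroup L) [M.Normal]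
    (hM : Nat.card M ∣ 1152) (P : Subgroup L) (hP : Nat.card P = 19) (q : ℕ) (hq : q.Prime) :
    ∃ S : Subgroup L, S ≤ M ∧ Nat.card S = q ^ (Nat.card M).factorization q ∧
      ∀ x ∈ P, ∀ s ∈ S, x * s * x⁻¹ ∈ S := by
  haveI : Fact (Nat.Prime 19) := ⟨by norm_num⟩
  haveI : Fact q.Prime := ⟨hq⟩
  let ψ : ↥P →* MulAut ↥M := (MulAut.conjNormal (H := M)).comp P.subtype
  letI : MulAction ↥P (Sylow q ↥M) := MulAction.compHom _ ψ
  have hPp : IsPGroup 19 ↥P := IsPGroup.of_card (n := 1) (by rw [hP, pow_one])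
  have hmod := hPp.card_modEq_card_fixedPoints (Sylow q ↥M)
  have hdvd : Nat.card (Sylow q ↥M) ∣ 1152 := by
    obtain ⟨S0⟩ : Nonempty (Sylow q ↥M) := inferInstance
    exact ((Sylow.card_dvd_index S0).trans (Subgroup.index_dvd_card _)).trans hM
  have hne : ¬ Nat.card (Sylow q ↥M) % 19 = 0 :=
    T4Aaux.not_modEq_zero _ (Nat.mem_divisors.2 ⟨hdvd, by norm_num⟩)
  have hfix : (MulAction.fixedPoints ↥P (Sylow q ↥M)).Nonempty := by
    by_contra hempty
    rw [Set.not_nonempty_iff_eq_empty] at hempty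
    apply hne
    have h1 : Nat.card (MulAction.fixedPoints ↥P (Sylow q ↥M)) = 0 := by
      rw [hempty]; simp
    rw [h1] at hmod
    exact hmod
  obtain ⟨S', hS'⟩ := hfix
  refine ⟨(S' : Subgroup ↥M).map M.subtype, ?_, ?_, ?_⟩
  · rintro x hx
    obtain ⟨y, -, rfl⟩ := Subgroup.mem_map.1 hx
    exact y.2
  · rw [Subgroup.card_map_of_injective M.subtype_injective]
    exact S'.card_eq_multiplicity
  · intro x hx s hs
    obtain ⟨y, hy, rfl⟩ := Subgroup.mem_map.1 hs
    have h1 : (MulAut.conjNormal x : MulAut ↥M) • S' = S' := hS' ⟨x, hx⟩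
    have h2 : (MulAut.conjNormal x : MulAut ↥M) • y ∈
        (MulAut.conjNormal x : MulAut ↥M) • (S' : Subgroup M) :=
      Subgroup.smul_mem_pointwise_smul y _ _ hy
    rw [← Sylow.pointwise_smul_def, h1] at h2
    exact Subgroup.mem_map.2 ⟨_, h2, rfl⟩

end Cfsg.Agent.Lib.Helper74.NS19
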