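import Mathlib

/-!
# S1022 (no simple group of order 459648), piece T4B (project of helper74; proof by helper56)
-/

set_option autoImplicit false
set_option linter.style.haveILetI false

namespace Cfsg.Agent.Lib.Helper74.NS19

universe u

namespace T4Baux

theorem arith : ∀ n ∈ Nat.divisors 128 ∪ Nat.divisors 9, ∀ f ∈ Nat.divisors n,
    n % 19 = f % 19 → f = n := by
  decide +kernel

end T4Baux

/-- T4B: a subgroup of order 19 normalizing a subgroup of order dividing `2^7` or `3^2`
centralizes it. -/
theorem centralizes_of_normalizes {L : Type u} [Group L] [Finite L] (P S : Subgroup L)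
    (hP : Nat.card P = 19) (hS : Nat.card S ∣ 128 ∨ Nat.card S ∣ 9)
    (hn : ∀ x ∈ P, ∀ s ∈ S, x * s * x⁻¹ ∈ S) : ∀ x ∈ P, ∀ s ∈ S, x * s = s * x := by
  haveI : Fact (Nat.Prime 19) := ⟨by norm_num⟩
  letI act : MulAction ↥P ↥S :=
    { smul := fun x s => ⟨(x : L) * s * (x : L)⁻¹, hn x x.2 s s.2⟩
      one_smul := fun s => by
        apply Subtype.ext
        show ((1 : ↥P) : L) * s * ((1 : ↥P) : L)⁻¹ = s
        simp
      mul_smul := fun x y s => by
        apply Subtype.ext
        show ((x * y : ↥P) : L) * s * ((x * y : ↥P) : L)⁻¹ =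
          (x : L) * ((y : L) * s * (y : L)⁻¹) * (x : L)⁻¹
        simp [mul_assoc] }
  have hsmul : ∀ (x : ↥P) (s : ↥S), ((x • s : ↥S) : L) = (x : L) * s * (x : L)⁻¹ :=
    fun _ _ => rfl
  have hPp : IsPGroup 19 ↥P := IsPGroup.of_card (n := 1) (by rw [hP, pow_one])
  have hmod := hPp.card_modEq_card_fixedPoints ↥S
  let K : Subgroup ↥S :=
    { carrier := MulAction.fixedPoints ↥P ↥S
      one_mem' := by
        intro x
        apply Subtype.ext
        rw [hsmul]
        simp
      mul_mem' := by
        intro a b ha hb x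
        have ha' := congrArg Subtype.val (ha x)
        have hb' := congrArg Subtype.val (hb x)
        rw [hsmul] at ha' hb'
        apply Subtype.ext
        rw [hsmul, Subgroup.coe_mul]
        calc (x : L) * (a * b) * (x : L)⁻¹
            = ((x : L) * a * (x : L)⁻¹) * ((x : L) * b * (x : L)⁻¹) := by group
          _ = a * b := by rw [ha', hb']
      inv_mem' := by
        intro a ha x
        have ha' := congrArg Subtype.val (ha x)
        rw [hsmul] at ha'
        apply Subtype.ext
        rw [hsmul, Subgroup.coe_inv]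
        calc (x : L) * (a : L)⁻¹ * (x : L)⁻¹ = ((x : L) * a * (x : L)⁻¹)⁻¹ := by group
          _ = (a : L)⁻¹ := by rw [ha'] }
  have hKcard : Nat.card K = Nat.card (MulAction.fixedPoints ↥P ↥S) := rfl
  have hKdvd : Nat.card K ∣ Nat.card S := Subgroup.card_subgroup_dvd_card K
  have hmem : Nat.card S ∈ Nat.divisors 128 ∪ Nat.divisors 9 := by
    rw [Finset.mem_union, Nat.mem_divisors, Nat.mem_divisors]
    rcases hS with h | h
    · exact Or.inl ⟨h, by norm_num⟩
    · exact Or.inr ⟨h, by norm_num⟩
  have hKtop : K = ⊤ := by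
    apply Subgroup.eq_top_of_card_eq
    exact T4Baux.arith _ hmem _ (Nat.mem_divisors.2 ⟨hKdvd, Nat.card_pos.ne'⟩)
      (by rw [hKcard]; exact hmod)
  intro x hx s hs
  have h1 : (⟨s, hs⟩ : ↥S) ∈ K := by rw [hKtop]; trivial
  have h2 := congrArg Subtype.val (h1 ⟨x, hx⟩)
  rw [hsmul] at h2
  simp only at h2
  calc x * s = x * s * x⁻¹ * x := by group
    _ = s * x := by rw [h2]

end Cfsg.Agent.Lib.Helper74.NS19
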