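import Mathlib
import Cfsg.Agent.Lib.Helper74.NS19T4A
import Cfsg.Agent.Lib.Helper74.NS19T4B

/-!
# S1022 (no simple group of order 459648), piece T4C (project of helper74; proof by helper56)
-/

set_option autoImplicit false
set_option linter.style.haveILetI false

namespace Cfsg.Agent.Lib.Helper74.NS19

universe u

namespace T4Caux

theorem dvd_of_pow_dvd (m k : ℕ) (hm : m ∣ 1152) (hk0 : k ≠ 0)
    (h2 : 2 ^ m.factorization 2 ∣ k) (h3 : 3 ^ m.factorization 3 ∣ k) : m ∣ k := by
  have hm0 : m ≠ 0 := by rintro rfl; simp at hm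
  rw [← Nat.factorization_le_iff_dvd hm0 hk0]
  intro p
  by_cases hp : p.Prime
  · by_cases hp2 : p = 2
    · subst hp2
      exact (hp.pow_dvd_iff_le_factorization hk0).1 h2
    · by_cases hp3 : p = 3
      · subst hp3
        exact (hp.pow_dvd_iff_le_factorization hk0).1 h3
      · have hnd : ¬ p ∣ m := by
          intro hpm
          have h1 : p ∣ 2 ^ 7 * 3 ^ 2 := hpm.trans (by norm_num; exact hm)
          rcases (Nat.Prime.dvd_mul hp).1 h1 with h | h
          · exact hp2 ((Nat.prime_dvd_prime_iff_eq hp Nat.prime_two).1 (hp.dvd_of_dvd_pow h))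
          · exact hp3 ((Nat.prime_dvd_prime_iff_eq hp Nat.prime_three).1 (hp.dvd_of_dvd_pow h))
        rw [Nat.factorization_eq_zero_of_not_dvd hnd]
        exact Nat.zero_le _
  · rw [Nat.factorization_eq_zero_of_not_prime _ hp]
    exact Nat.zero_le _

theorem two_pow_dvd (m : ℕ) (hm : m ∣ 1152) : 2 ^ m.factorization 2 ∣ 128 := by
  have h1 : 2 ^ m.factorization 2 ∣ 128 * 9 := (Nat.ordProj_dvd m 2).trans (by norm_num; exact hm)
  exact Nat.Coprime.dvd_of_dvd_mul_right (Nat.Coprime.pow_left _ (by norm_num)) h1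

theorem three_pow_dvd (m : ℕ) (hm : m ∣ 1152) : 3 ^ m.factorization 3 ∣ 9 := by
  have h1 : 3 ^ m.factorization 3 ∣ 9 * 128 := (Nat.ordProj_dvd m 3).trans (by norm_num; exact hm)
  exact Nat.Coprime.dvd_of_dvd_mul_right (Nat.Coprime.pow_left _ (by norm_num)) h1

end T4Caux

/-- T4C: if `L = P M` with `M` normal of order dividing 1152 and `|P| = 19`, then `P` is the
unique Sylow 19-subgroup of `L`. -/
theorem split_case {L : Type u} [Group L] [Finite L] (M : Subgroup L) [M.Normal]
    (hM : Nat.card M ∣ 1152) (P : Sylow 19 L) (hP : Nat.card P = 19)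
    (htop : (P : Subgroup L) ⊔ M = ⊤) : Nat.card (Sylow 19 L) = 1 := by
  haveI : Fact (Nat.Prime 19) := ⟨by norm_num⟩
  obtain ⟨S₂, hS₂M, hS₂card, hS₂inv⟩ :=
    exists_invariant_sylow M hM (P : Subgroup L) hP 2 Nat.prime_two
  obtain ⟨S₃, hS₃M, hS₃card, hS₃inv⟩ :=
    exists_invariant_sylow M hM (P : Subgroup L) hP 3 Nat.prime_three
  have hc₂ := centralizes_of_normalizes (P : Subgroup L) S₂ hP
    (Or.inl (by rw [hS₂card]; exact T4Caux.two_pow_dvd _ hM)) hS₂inv
  have hc₃ := centralizes_of_normalizes (P : Subgroup L) S₃ hP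
    (Or.inr (by rw [hS₃card]; exact T4Caux.three_pow_dvd _ hM)) hS₃inv
  obtain ⟨K, hK⟩ : ∃ K : Subgroup L, K = M ⊓ Subgroup.centralizer ((P : Subgroup L) : Set L) :=
    ⟨_, rfl⟩
  have hS₂K : S₂ ≤ K := by
    rw [hK]
    refine le_inf hS₂M ?_
    intro s hs
    rw [Subgroup.mem_centralizer_iff]
    intro x hx
    exact hc₂ x hx s hs
  have hS₃K : S₃ ≤ K := by
    rw [hK]
    refine le_inf hS₃M ?_
    intro s hs
    rw [Subgroup.mem_centralizer_iff]
    intro x hx
    exact hc₃ x hx s hs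
  have hKM : K ≤ M := by rw [hK]; exact inf_le_left
  have hd : Nat.card M ∣ Nat.card K := by
    apply T4Caux.dvd_of_pow_dvd _ _ hM Nat.card_pos.ne'
    · rw [← hS₂card]; exact Subgroup.card_dvd_of_le hS₂K
    · rw [← hS₃card]; exact Subgroup.card_dvd_of_le hS₃K
  have hKeq : K = M := Subgroup.eq_of_le_of_card_ge hKM (Nat.le_of_dvd Nat.card_pos hd)
  have hMc : M ≤ Subgroup.centralizer ((P : Subgroup L) : Set L) := by
    rw [← hKeq, hK]; exact inf_le_right
  have hMn : M ≤ Subgroup.normalizer ((P : Subgroup L) : Set L) :=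
    hMc.trans (Subgroup.centralizer_le_normalizer _)
  have hnorm : Subgroup.normalizer ((P : Subgroup L) : Set L) = ⊤ := by
    rw [eq_top_iff, ← htop]
    exact sup_le Subgroup.le_normalizer hMn
  have hPn : (P : Subgroup L).Normal := Subgroup.normalizer_eq_top_iff.1 hnorm
  haveI := Sylow.unique_of_normal P hPn
  exact Nat.card_unique

end Cfsg.Agent.Lib.Helper74.NS19
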