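import Mathlib
import Cfsg.Agent.Lib.Helper74.NS19D1
import Cfsg.Agent.Lib.Helper74.NS19T0
import Cfsg.Agent.Lib.Helper74.NS19T2
import Cfsg.Agent.Lib.Helper74.NS19T3
import Cfsg.Agent.Lib.Helper74.NS19T4C

/-!
# S1022: every group of order dividing `21888 = 2^7 * 3^2 * 19` has a unique Sylow 19-subgroup
-/

set_option autoImplicit false

namespace Cfsg.Agent.Lib.Helper74.NS19

universe u

theorem lemT_aux : ∀ (n : ℕ) (L : Type u) [Group L] [Finite L], Nat.card L = n →
    Nat.card L ∣ 21888 → Nat.card (Sylow 19 L) = 1 := by
  intro n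
  induction n using Nat.strong_induction_on with
  | _ n ih =>
    intro L _ _ hn hdvd
    haveI : Fact (Nat.Prime 19) := ⟨by norm_num⟩
    by_cases h19 : 19 ∣ Nat.card L
    swap
    · exact sylow_one_of_not_dvd h19
    by_cases hs : IsSimpleGroup L
    · by_cases hc : IsCyclic L
      · exact sylow_one_of_isCyclic hc
      · exact (simple_small_false hc hdvd h19).elim
    · have hcard1 : 1 < Nat.card L := by
        have := Nat.le_of_dvd Nat.card_pos h19
        omega
      haveI hnt : Nontrivial L := Finite.one_lt_card_iff_nontrivial.mp hcard1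
      obtain ⟨M, hMn, hMbot, hMtop⟩ : ∃ M : Subgroup L, M.Normal ∧ M ≠ ⊥ ∧ M ≠ ⊤ := by
        by_contra hcon
        push Not at hcon
        apply hs
        exact ⟨fun M hM => by
          by_cases hb : M = ⊥
          · exact Or.inl hb
          · exact Or.inr (hcon M hM hb)⟩
      haveI := hMn
      have hMdvd : Nat.card M ∣ Nat.card L := Subgroup.card_subgroup_dvd_card M
      have hlt_of_ne_top : ∀ K : Subgroup L, K ≠ ⊤ → Nat.card K < Nat.card L := by
        intro K hK
        refine lt_of_le_of_ne (Subgroup.card_le_card_group K) ?_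
        intro h
        exact hK (Subgroup.eq_top_of_card_eq K h)
      have h361 : ¬ 361 ∣ Nat.card L := by
        intro h
        have h2 : 361 ∣ 21888 := h.trans hdvd
        omega
      by_cases hM19 : 19 ∣ Nat.card M
      · exact sylow_one_of_normal M hM19 h361
          (ih _ (hn ▸ hlt_of_ne_top M hMtop) M rfl (hMdvd.trans hdvd))
      · have hidx : Nat.card (L ⧸ M) = M.index := rfl
        have hmul : Nat.card M * M.index = Nat.card L := Subgroup.card_mul_index M
        have hMcard2 : 2 ≤ Nat.card M := by
          have h1 : Nat.card M ≠ 1 := fun h => hMbot (Subgroup.card_eq_one.mp h)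
          have h0 : 0 < Nat.card M := Nat.card_pos
          omega
        have hq : Nat.card (L ⧸ M) < Nat.card L := by
          rw [hidx, ← hmul]
          have hi : 0 < M.index := Nat.pos_of_ne_zero (Subgroup.index_ne_zero_of_finite)
          nlinarith
        have hqd : Nat.card (L ⧸ M) ∣ Nat.card L := by
          rw [hidx]
          exact Subgroup.index_dvd_card M
        have hQ := ih _ (hn ▸ hq) (L ⧸ M) rfl (hqd.trans hdvd)
        obtain ⟨P⟩ : Nonempty (Sylow 19 L) := inferInstance
        have hPc : Nat.card P = 19 := sylow_card19 (hdvd.trans (by norm_num)) h19 P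
        haveI hN : ((P : Subgroup L) ⊔ M).Normal := sup_normal_of_quot M hQ P
        by_cases htop : (P : Subgroup L) ⊔ M = ⊤
        · have hM1152 : Nat.card M ∣ 1152 := by
            have h1 : Nat.card M ∣ 19 * 1152 := hMdvd.trans hdvd
            have hcop : Nat.Coprime (Nat.card M) 19 :=
              (Nat.Coprime.symm ((Nat.Prime.coprime_iff_not_dvd (by norm_num)).mpr hM19))
            exact hcop.dvd_of_dvd_mul_left h1
          exact split_case M hM1152 P hPc htop
        · have h19N : 19 ∣ Nat.card ↥((P : Subgroup L) ⊔ M) := by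
            have h1 : Nat.card (P : Subgroup L) ∣ Nat.card ↥((P : Subgroup L) ⊔ M) :=
              Subgroup.card_dvd_of_le le_sup_left
            rw [hPc] at h1
            exact h1
          exact sylow_one_of_normal _ h19N h361
            (ih _ (hn ▸ hlt_of_ne_top _ htop) _ rfl
              ((Subgroup.card_subgroup_dvd_card _).trans hdvd))

/-- Lemma T. -/
theorem lemT (L : Type u) [Group L] [Finite L] (h : Nat.card L ∣ 21888) :
    Nat.card (Sylow 19 L) = 1 :=
  lemT_aux _ L rfl h

end Cfsg.Agent.Lib.Helper74.NS19
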