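import Mathlib
import Cfsg.Agent.Lib.Helper10.BR0
import Cfsg.Agent.Lib.Helper22.DOne2
import Cfsg.Agent.Lib.Helper82.PQ
import Cfsg.Agent.Lib.Helper82.CharCore
import Cfsg.Agent.Lib.Helper90.BRX1
import Cfsg.Agent.Lib.Helper64.BRG5
import Cfsg.Agent.Lib.Helper34.BRG4
import Cfsg.Agent.Lib.Helper74.BRG3
import Cfsg.Agent.Lib.Helper74.NS19AR4
import Cfsg.Agent.Lib.Helper74.NS19BL
import Cfsg.Agent.Lib.Helper74.NS19R
import Cfsg.Agent.Lib.Helper74.NS19F
import Cfsg.Agent.Lib.Helper74.NS19CB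
import Cfsg.Agent.Lib.Helper74.NS19SY0
import Cfsg.Agent.Lib.Helper74.NS19SY
import Cfsg.Agent.Lib.Helper74.NS19NC
import Cfsg.Agent.Lib.Helper74.NS19D1
import Cfsg.Agent.Lib.Helper74.NS19T
import Cfsg.Agent.Lib.Helper74.NS19C

/-!
# S1022: no simple group of order `459648 = 2^7 * 3^3 * 7 * 19`
-/

set_option autoImplicit false

namespace Cfsg.Agent.Lib.Helper74.NS19

open Cfsg
open Cfsg.Agent.Lib.Helper83 (trivIrr)
open Cfsg.Agent.Lib.Helper10.BR (DOut)

universe u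

theorem main {G : Type u} [Group G] [Finite G] [IsSimpleGroup G] : Nat.card G ≠ 459648 := by
  intro hcard
  classical
  haveI : Fact (Nat.Prime 19) := ⟨by norm_num⟩
  letI : Fintype G := Fintype.ofFinite G
  have hp : Nat.Prime 19 := by norm_num
  have hG : ¬ IsCyclic G := not_cyclic hcard
  have hdvd : Nat.card G ∣ 459648 := by rw [hcard]
  have h19 : 19 ∣ Nat.card G := by
    rw [hcard]
    norm_num
  obtain ⟨P⟩ : Nonempty (Sylow 19 G) := inferInstance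
  have hP := sylow_card19 hdvd h19 P
  rcases sylow19_cases hG hcard with h96 | h1008
  · exact d1 hG hdvd P hP h96
  obtain ⟨n, v, hS, hv, hCc, hNc, hidx, hcardG⟩ :=
    Cfsg.Agent.Lib.Helper10.BR.card_decomp 19 P hP
  obtain ⟨e, hedef⟩ : ∃ e, (Subgroup.centralizer ((P : Subgroup G) : Set G)).relIndex
      (Subgroup.normalizer ((P : Subgroup G) : Set G)) = e := ⟨_, rfl⟩
  have he1 : e ≠ 1 := by
    rw [← hedef]
    exact Cfsg.Agent.Lib.Helper10.BR.relIndex_ne_one hG 19 P hP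
  have hedvd : e ∣ 18 := by
    rw [← hedef]
    exact Cfsg.Agent.Lib.Helper10.BR.relIndex_dvd 19 P hP
  rw [hedef] at hNc hidx hcardG
  have hev : e * v = 24 := by
    rw [← hS, h1008, hcard] at hcardG
    have h1 : 1008 * 19 * (e * v) = 1008 * 19 * 24 := by
      rw [show 1008 * 19 * (e * v) = 1008 * (e * (19 * v)) by ring, ← hcardG]
    exact Nat.eq_of_mul_eq_mul_left (by norm_num) h1
  have he6 : e ∣ 6 := by
    have h24 : e ∣ 24 := Dvd.intro v hev
    have h := Nat.dvd_gcd hedvd h24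
    norm_num at h
    exact h
  have he_le : e ≤ 6 := Nat.le_of_dvd (by norm_num) he6
  have he0 : 0 < e := Nat.pos_of_dvd_of_pos he6 (by norm_num)
  obtain ⟨M, hM⟩ := Cfsg.Agent.Lib.Helper82.exists_isPModular 19
  obtain ⟨X, Y, hblock, hdisj, hcX, hcY, εX, ε, hX, hε, hdY, hregY, ht1⟩ :=
    Cfsg.Agent.Lib.Helper22.DOne.core 19 M hM P hP e hedef
  have hD : DOut G 19 M (P : Subgroup G) e X Y εX ε :=
    ⟨hblock, hdisj, hcX, hcY, fun χ hχ => (hX χ hχ).1, fun χ hχ => (hX χ hχ).2.1,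
      fun χ hχ => (hX χ hχ).2.2, hε, hdY, hregY, ht1⟩
  have ht : 2 ≤ (19 - 1) / e := by
    rw [Nat.le_div_iff_mul_le he0]
    omega
  obtain ⟨htrivX, -⟩ :=
    Cfsg.Agent.Lib.Helper10.BR.triv_mem hG 19 M hM (P : Subgroup G) hP e X Y εX ε hD ht
  obtain ⟨S, δ, hSmem, hδ1, hδ0, hScard, hSdeg, hSsum, hYeq⟩ :=
    block_counts hG hdvd M (P : Subgroup G) e X Y εX ε hD
  have hδ := hδ1 htrivX
  obtain ⟨θ, hθ⟩ : Y.Nonempty := by
    have hc : Nat.card Y ≠ 0 := by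
      rw [hcY]
      omega
    by_contra hemp
    rw [Set.not_nonempty_iff_eq_empty] at hemp
    rw [hemp] at hc
    simp at hc
  have heq := hYeq θ hθ
  rw [hδ] at heq
  have hθdvd : charDegree (θ : G → ℂ) ∣ 459648 :=
    (Cfsg.Agent.Lib.Helper82.irr_degree_dvd_card θ).trans hdvd
  have hsum : (S.filter (fun χ : IrrCharacter G => charDegree (χ : G → ℂ) = 96)).card +
      (S.filter (fun χ : IrrCharacter G => charDegree (χ : G → ℂ) = 18)).card +
      (S.filter (fun χ : IrrCharacter G => charDegree (χ : G → ℂ) = 56)).card +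
      (S.filter (fun χ : IrrCharacter G => charDegree (χ : G → ℂ) = 189)).card + 1 = e := by
    omega
  obtain ⟨he, hb⟩ := arith_eq1008 e _ _ _ _ _ ε he6 he1 hsum hθdvd hε
    (by rw [heq]; push_cast; ring)
  have hv4 : v = 4 := by
    rw [he] at hev
    omega
  have hNcard : Nat.card (Subgroup.normalizer ((P : Subgroup G) : Set G)) = 456 := by
    rw [hNc, he, hv4]
  have hCcard : Nat.card (Subgroup.centralizer ((P : Subgroup G) : Set G)) = 76 := by
    rw [hCc, hv4]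
  obtain ⟨y, hy, hy2⟩ : ∃ y : G, y ∈ Subgroup.centralizer ((P : Subgroup G) : Set G) ∧
      orderOf y = 2 := by
    haveI : Fact (Nat.Prime 2) := ⟨Nat.prime_two⟩
    obtain ⟨z, hz⟩ := exists_prime_orderOf_dvd_card' (G := Subgroup.centralizer
      ((P : Subgroup G) : Set G)) 2 (by rw [hCcard]; norm_num)
    exact ⟨z, z.2, by rw [← hz, Subgroup.orderOf_coe]⟩
  have hy1 : y ≠ 1 := by
    rintro rfl
    rw [orderOf_one] at hy2
    omega
  have hyreg : ¬ 19 ∣ orderOf y := by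
    rw [hy2]
    norm_num
  have hvalS : ∀ χ ∈ S, ∃ k : ℤ, (χ : G → ℂ) y = (k : ℂ) ∧ k ≡ εX χ [ZMOD 19] ∧
      k ≡ (charDegree (χ : G → ℂ) : ℤ) [ZMOD 2] ∧ |k| ≤ (charDegree (χ : G → ℂ) : ℤ) ∧
      k ≠ (charDegree (χ : G → ℂ) : ℤ) := by
    intro χ hχ
    obtain ⟨hχX, hχne⟩ := (hSmem χ).1 hχ
    obtain ⟨k, hk, hk19, hk2, hkabs⟩ := invol_val (P : Subgroup G) hP χ (εX χ) (hX χ hχX).1 y
      hy hy2 (fun x hx hx1 => (hX χ hχX).2.2 x hx hx1 y hy hyreg)
    refine ⟨k, hk, hk19, hk2, hkabs, ?_⟩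
    intro hkd
    apply faithful hG χ hχne y hy1
    rw [hk, hkd, ← (Cfsg.Agent.Lib.Helper82.irr_charDegree χ).1]
    push_cast
    rfl
  have hb0 : (S.filter (fun χ : IrrCharacter G => charDegree (χ : G → ℂ) = 18)).card = 0 := by
    rw [Finset.card_eq_zero, Finset.filter_eq_empty_iff]
    intro χ hχ hd18
    obtain ⟨k, hk, hk19, hk2, hkabs, hkne⟩ := hvalS χ hχ
    have hsgn : εX χ = -1 := by
      rcases hSdeg χ hχ with ⟨_, h⟩ | ⟨h, _⟩
      · omega
      · exact h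
    rw [hsgn] at hk19
    rw [hd18] at hk2 hkabs hkne
    unfold Int.ModEq at hk19 hk2
    have h3 := abs_le.1 hkabs
    push_cast at hk2 hkne h3
    omega
  have hac := hb hb0
  have hk18 : ∀ χ ∈ S, (charDegree (χ : G → ℂ) = 96 ∨ charDegree (χ : G → ℂ) = 56) →
      ∃ k : ℤ, (χ : G → ℂ) y = (k : ℂ) ∧ 18 ≤ |k| := by
    intro χ hχS hdeg
    obtain ⟨k, hk, hk19, hk2, hkabs, hkne⟩ := hvalS χ hχS
    refine ⟨k, hk, ?_⟩
    by_contra hlt
    push Not at hlt
    have h4 := abs_lt.1 hlt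
    have h3 := abs_le.1 hkabs
    unfold Int.ModEq at hk19 hk2
    rcases hSdeg χ hχS with ⟨hs, hd⟩ | ⟨hs, hd⟩
    · rw [hs] at hk19
      rw [hd] at hk2 hkne h3
      push_cast at hk2 hkne h3
      omega
    · have hd56 : charDegree (χ : G → ℂ) = 56 := by omega
      rw [hs] at hk19
      rw [hd56] at hk2 hkne h3
      push_cast at hk2 hkne h3
      omega
  have hTcard : 1 < (S.filter (fun χ : IrrCharacter G => charDegree (χ : G → ℂ) = 96 ∨
      charDegree (χ : G → ℂ) = 56)).card := by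
    have hun : S.filter (fun χ : IrrCharacter G => charDegree (χ : G → ℂ) = 96 ∨ charDegree (χ : G → ℂ) = 56)
        = S.filter (fun χ : IrrCharacter G => charDegree (χ : G → ℂ) = 96) ∪
          S.filter (fun χ : IrrCharacter G => charDegree (χ : G → ℂ) = 56) := Finset.filter_or _ _ _
    have hdisj' : Disjoint (S.filter (fun χ : IrrCharacter G => charDegree (χ : G → ℂ) = 96))
        (S.filter (fun χ : IrrCharacter G => charDegree (χ : G → ℂ) = 56)) := by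
      rw [Finset.disjoint_left]
      intro χ h1 h2
      have e1 := (Finset.mem_filter.1 h1).2
      have e2 := (Finset.mem_filter.1 h2).2
      omega
    rw [hun, Finset.card_union_of_disjoint hdisj']
    omega
  obtain ⟨χ₁, hχ₁, χ₂, hχ₂, h12⟩ := Finset.one_lt_card.1 hTcard
  obtain ⟨hχ₁S, hd₁⟩ := Finset.mem_filter.1 hχ₁
  obtain ⟨hχ₂S, hd₂⟩ := Finset.mem_filter.1 hχ₂
  obtain ⟨k₁, hk₁, h18₁⟩ := hk18 χ₁ hχ₁S hd₁
  obtain ⟨k₂, hk₂, h18₂⟩ := hk18 χ₂ hχ₂S hd₂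
  have hbig := cent_649 y χ₁ χ₂ h12 ((hSmem χ₁).1 hχ₁S).2 ((hSmem χ₂).1 hχ₂S).2 k₁ k₂ hk₁ hk₂
    h18₁ h18₂
  exact cent_false hG hcard (fun L _ _ h => lemT L h) P hP hNcard y hy hy2 hbig

end Cfsg.Agent.Lib.Helper74.NS19
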