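import Mathlib
import Cfsg.Agent.Lib.Helper72.PQDefs
import Cfsg.Agent.Lib.Helper12.Ward2

/-!
# S4306 piece PQ-IIW (helper74 for helper72): `Q` abelian, a weight `Y` of `Q` on `V` contains
`C_Q(F)` or `[Q, F]` (norm argument with `hnVQ`)
-/

set_option autoImplicit false

namespace Cfsg.Agent.Lib.Helper74.PQ

open Cfsg.Agent.Lib.Helper72.PQ
open Cfsg.Agent.Lib.Helper12.Ward (conj_mem_of_nz comm_of_conj_eq conj_eq_of_comm
  pow_coprime_eq_one)
open Subgroup

universe u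

/-- A subgroup `K` with `Y ≤ K ≤ Q`, `|Q : Y| = q` prime, containing an element outside `Y`,
is all of `Q`. -/
theorem eq_of_index_prime {Γ : Type u} [Group Γ] [Finite Γ] (Y K Q : Subgroup Γ) (q : ℕ)
    (hq : q.Prime) (hYK : Y ≤ K) (hKQ : K ≤ Q) (hcard : Nat.card Q = q * Nat.card Y)
    (z : Γ) (hzK : z ∈ K) (hzY : z ∉ Y) : K = Q := by
  have h1 : Nat.card Y ∣ Nat.card K := Subgroup.card_dvd_of_le hYK
  have h2 : Nat.card K ∣ Nat.card Q := Subgroup.card_dvd_of_le hKQ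
  have hYpos : 0 < Nat.card Y := Nat.card_pos
  obtain ⟨m, hm⟩ := h1
  have hm1 : m ≠ 1 := by
    intro h
    rw [h, mul_one] at hm
    have : Y = K := Subgroup.eq_of_le_of_card_ge hYK hm.le
    exact hzY (this ▸ hzK)
  have hmq : m ∣ q := by
    rw [hm, hcard, mul_comm q] at h2
    exact (Nat.mul_dvd_mul_iff_left hYpos).mp h2
  have hmq' : m = q := ((Nat.dvd_prime hq).mp hmq).resolve_left hm1
  apply Subgroup.eq_of_le_of_card_ge hKQ
  rw [hcard, hm, hmq', mul_comm]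

/-- The norm argument: if no nontrivial element of `F` normalizes the weight `Y`, then every
`F`-fixed element of `Q` centralizes `C_V(Y)`. -/
theorem norm_comm {Γ : Type u} [Group Γ] [Finite Γ] (q r : ℕ) (hq : q.Prime) (hr : r.Prime)
    (hqr : q ≠ r) (F V Q Y : Subgroup Γ)
    (hVc : Ab V) (hVr : IsPGroup r V) (hQq : IsPGroup q Q) (hQc : Ab Q)
    (hFV : F ≤ normalizer (V : Set Γ)) (hQV : Q ≤ normalizer (V : Set Γ))
    (hFQ : F ≤ normalizer (Q : Set Γ)) (hYQ : Y ≤ Q)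
    (hcard : Nat.card Q = q * Nat.card Y)
    (hE1 : ∀ v ∈ V, (∀ y ∈ Q, y * v = v * y) → v = 1)
    (hnVQ : ∀ v ∈ V, ∀ y ∈ Q, (∀ a ∈ F, a * v = v * a) → (∀ a ∈ F, a * y = y * a) →
      v * y = y * v)
    (hFY : ∀ f ∈ F, f ≠ 1 → f ∉ normalizer (Y : Set Γ))
    (v : Γ) (hv : v ∈ V) (hvY : ∀ y ∈ Y, y * v = v * y)
    (u : Γ) (hu : u ∈ Q) (huF : ∀ a ∈ F, a * u = u * a) : u * v = v * u := by
  classical
  let _ : CommGroup ↥V := { (inferInstance : Group ↥V) with
    mul_comm := fun v w => Subtype.ext (hVc v v.2 w w.2) }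
  let _ : Fintype ↥F := Fintype.ofFinite _
  let _ : Fintype ↥Y := Fintype.ofFinite _
  -- conjugation as an endomorphism of V
  let cj : (g : Γ) → g ∈ normalizer (V : Set Γ) → (↥V →* ↥V) := fun g hg =>
    MonoidHom.mk' (fun w => ⟨g * w.1 * g⁻¹, conj_mem_of_nz hg w.2⟩)
      (fun a b => Subtype.ext
        (show g * (a.1 * b.1) * g⁻¹ = (g * a.1 * g⁻¹) * (g * b.1 * g⁻¹) by group))
  let NY : ↥V → ↥V := fun x => ∏ y : ↥Y, cj y.1 (hQV (hYQ y.2)) x
  have hNYmul : ∀ a b, NY (a * b) = NY a * NY b := by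
    intro a b
    simp only [NY, map_mul, Finset.prod_mul_distrib]
  let NYh : ↥V →* ↥V := MonoidHom.mk' NY hNYmul
  -- equivariance of NY
  have hNYeq : ∀ (z : Γ) (hz : z ∈ normalizer (V : Set Γ)), (∀ y ∈ Y, z * y = y * z) →
      ∀ x : ↥V, cj z hz (NY x) = NY (cj z hz x) := by
    intro z hz hzy x
    simp only [NY, map_prod]
    apply Finset.prod_congr rfl
    intro y _
    apply Subtype.ext
    show z * (y.1 * x.1 * y.1⁻¹) * z⁻¹ = y.1 * (z * x.1 * z⁻¹) * y.1⁻¹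
    calc z * (y.1 * x.1 * y.1⁻¹) * z⁻¹ = (z * y.1) * x.1 * (z * y.1)⁻¹ := by group
      _ = y.1 * (z * x.1 * z⁻¹) * y.1⁻¹ := by rw [hzy y.1 y.2]; group
  -- NY x is fixed by Y
  have hNYfix : ∀ (y₀ : Γ) (hy₀ : y₀ ∈ Y) (x : ↥V), cj y₀ (hQV (hYQ hy₀)) (NY x) = NY x := by
    intro y₀ hy₀ x
    simp only [NY, map_prod]
    exact Fintype.prod_bijective (fun y => (⟨y₀, hy₀⟩ : ↥Y) * y) (Group.mulLeft_bijective _) _ _
      (fun y => Subtype.ext (show y₀ * (y.1 * x.1 * y.1⁻¹) * y₀⁻¹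
        = (y₀ * y.1) * x.1 * (y₀ * y.1)⁻¹ by group))
  let v' : ↥V := ⟨v, hv⟩
  let w : ↥V := ∏ f : ↥F, cj f.1 (hFV f.2) v'
  -- w is F-fixed
  have hwF : ∀ a ∈ F, a * w.1 = w.1 * a := by
    intro a ha
    have h1 : cj a (hFV ha) w = w := by
      simp only [w, map_prod]
      exact Fintype.prod_bijective (fun f => (⟨a, ha⟩ : ↥F) * f) (Group.mulLeft_bijective _) _ _
        (fun f => Subtype.ext (show a * (f.1 * v * f.1⁻¹) * a⁻¹
          = (a * f.1) * v * (a * f.1)⁻¹ by group))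
    exact comm_of_conj_eq (congrArg Subtype.val h1)
  have hwu : w.1 * u = u * w.1 := hnVQ w.1 w.2 u hu hwF huF
  -- NY w = v' ^ card Y
  have hNYw : NY w = v' ^ Fintype.card ↥Y := by
    have h1 : NY w = ∏ f : ↥F, NY (cj f.1 (hFV f.2) v') :=
      map_prod NYh (fun f : ↥F => cj f.1 (hFV f.2) v') Finset.univ
    rw [h1, Finset.prod_eq_single (1 : ↥F)]
    · -- f = 1
      have h11 : cj ((1 : ↥F) : Γ) (hFV (1 : ↥F).2) v' = v' :=
        Subtype.ext (show (1 : Γ) * v * (1 : Γ)⁻¹ = v by group)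
      rw [h11]
      show ∏ y : ↥Y, cj y.1 (hQV (hYQ y.2)) v' = _
      rw [Finset.prod_eq_pow_card (b := v')]
      · rw [Finset.card_univ]
      · intro y _
        exact Subtype.ext (conj_eq_of_comm (hvY y.1 y.2))
    · intro f _ hf1
      -- x := NY (cj f v') is centralized by Q
      have hfne : f.1 ≠ 1 := fun h => hf1 (Subtype.ext h)
      have hfN := hFY f.1 f.2 hfne
      have hex : ∃ y₁ ∈ Y, f.1 * y₁ * f.1⁻¹ ∉ Y := by
        by_contra hcon
        push Not at hcon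
        exact hfN (Subgroup.mem_normalizer_fintype hcon)
      obtain ⟨y₁, hy₁, hy₁Y⟩ := hex
      have hz₁Q : f.1 * y₁ * f.1⁻¹ ∈ Q := conj_mem_of_nz (hFQ f.2) (hYQ hy₁)
      have hxY : ∀ y ∈ Y, y * (NY (cj f.1 (hFV f.2) v')).1 = (NY (cj f.1 (hFV f.2) v')).1 * y :=
        fun y hy => comm_of_conj_eq (congrArg Subtype.val (hNYfix y hy _))
      have hxz : (f.1 * y₁ * f.1⁻¹) * (NY (cj f.1 (hFV f.2) v')).1
          = (NY (cj f.1 (hFV f.2) v')).1 * (f.1 * y₁ * f.1⁻¹) := by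
        have h1 := hNYeq (f.1 * y₁ * f.1⁻¹) (hQV hz₁Q) (fun y hy => hQc _ hz₁Q y (hYQ hy))
          (cj f.1 (hFV f.2) v')
        have h2 : cj (f.1 * y₁ * f.1⁻¹) (hQV hz₁Q) (cj f.1 (hFV f.2) v')
            = cj f.1 (hFV f.2) v' := by
          apply Subtype.ext
          show f.1 * y₁ * f.1⁻¹ * (f.1 * v * f.1⁻¹) * (f.1 * y₁ * f.1⁻¹)⁻¹ = f.1 * v * f.1⁻¹
          calc f.1 * y₁ * f.1⁻¹ * (f.1 * v * f.1⁻¹) * (f.1 * y₁ * f.1⁻¹)⁻¹
              = f.1 * (y₁ * v * y₁⁻¹) * f.1⁻¹ := by group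
            _ = f.1 * v * f.1⁻¹ := by rw [conj_eq_of_comm (hvY y₁ hy₁)]
        rw [h2] at h1
        exact comm_of_conj_eq (congrArg Subtype.val h1)
      let K : Subgroup Γ :=
        Q ⊓ Subgroup.centralizer ({(NY (cj f.1 (hFV f.2) v')).1} : Set Γ)
      have hYK : Y ≤ K := by
        intro y hy
        refine Subgroup.mem_inf.mpr ⟨hYQ hy, ?_⟩
        rw [Subgroup.mem_centralizer_iff]
        intro g hg
        rw [Set.mem_singleton_iff] at hg
        rw [hg]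
        exact (hxY y hy).symm
      have hz₁K : f.1 * y₁ * f.1⁻¹ ∈ K := by
        refine Subgroup.mem_inf.mpr ⟨hz₁Q, ?_⟩
        rw [Subgroup.mem_centralizer_iff]
        intro g hg
        rw [Set.mem_singleton_iff] at hg
        rw [hg]
        exact hxz.symm
      have hKQ : K = Q := eq_of_index_prime Y K Q q hq hYK inf_le_left hcard _ hz₁K hy₁Y
      have hx1 : (NY (cj f.1 (hFV f.2) v')).1 = 1 := by
        apply hE1 _ (NY (cj f.1 (hFV f.2) v')).2
        intro y hy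
        have hyK : y ∈ K := hKQ ▸ hy
        have h2 := (Subgroup.mem_inf.mp hyK).2
        rw [Subgroup.mem_centralizer_iff] at h2
        exact (h2 _ rfl).symm
      exact Subtype.ext hx1
    · intro h; exact absurd (Finset.mem_univ _) h
  -- u commutes with NY w
  have hu1 : cj u (hQV hu) (NY w) = NY w := by
    rw [hNYeq u (hQV hu) (fun y hy => hQc u hu y (hYQ hy)) w]
    congr 1
    exact Subtype.ext (conj_eq_of_comm hwu.symm)
  rw [hNYw] at hu1
  have h3 : (cj u (hQV hu) v' * v'⁻¹) ^ Fintype.card ↥Y = 1 := by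
    rw [mul_pow, ← map_pow, hu1, inv_pow, mul_inv_cancel]
  have hcop : (Fintype.card ↥Y).Coprime (Nat.card ↥V) := by
    have : Fact q.Prime := ⟨hq⟩
    have : Fact r.Prime := ⟨hr⟩
    obtain ⟨n, hn⟩ := IsPGroup.iff_card.mp (hQq.to_le hYQ)
    obtain ⟨m, hm⟩ := IsPGroup.iff_card.mp hVr
    rw [← Nat.card_eq_fintype_card, hn, hm]
    exact Nat.Coprime.pow n m ((Nat.coprime_primes hq hr).mpr hqr)
  have h4 : cj u (hQV hu) v' * v'⁻¹ = 1 := pow_coprime_eq_one hcop h3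
  have h5 : u * v * u⁻¹ = v := congrArg Subtype.val (mul_inv_eq_one.mp h4)
  exact comm_of_conj_eq h5

/-- PQ-IIW -/
theorem iiw : IIWStmt.{u} := by
  intro Γ _ _ p ℓ r q s A F V Q R hT hQc Y hYQ hcard hex
  classical
  have hFV : F ≤ normalizer (V : Set Γ) := le_trans hT.frob.hFA hT.hAV
  have hFQ : F ≤ normalizer (Q : Set Γ) := le_trans hT.frob.hFA hT.hAQ
  by_cases hA : ∀ u ∈ Q, (∀ a ∈ F, a * u = u * a) → u ∈ Y
  · exact Or.inl hA
  · right
    push Not at hA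
    obtain ⟨u₀, hu₀Q, hu₀F, hu₀Y⟩ := hA
    by_cases hN : F ≤ normalizer (Y : Set Γ)
    · -- F normalizes Y
      intro a ha
      have haQ : ∀ y ∈ Q, a * y * a⁻¹ ∈ Q := fun y hy => conj_mem_of_nz (hFQ ha) hy
      let K : Subgroup Γ :=
        { carrier := {y | y ∈ Q ∧ a * y * a⁻¹ * y⁻¹ ∈ Y}
          mul_mem' := by
            rintro y z ⟨hy, hy'⟩ ⟨hz, hz'⟩
            refine ⟨Q.mul_mem hy hz, ?_⟩
            have hc : a * z * a⁻¹ * z⁻¹ ∈ Q := Q.mul_mem (haQ z hz) (Q.inv_mem hz)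
            have e : a * (y * z) * a⁻¹ * (y * z)⁻¹
                = (a * y * a⁻¹ * y⁻¹) * (a * z * a⁻¹ * z⁻¹) := by
              calc a * (y * z) * a⁻¹ * (y * z)⁻¹
                  = (a * y * a⁻¹) * ((a * z * a⁻¹ * z⁻¹) * y⁻¹) := by group
                _ = (a * y * a⁻¹) * (y⁻¹ * (a * z * a⁻¹ * z⁻¹)) := by
                    rw [hQc _ hc _ (Q.inv_mem hy)]
                _ = (a * y * a⁻¹ * y⁻¹) * (a * z * a⁻¹ * z⁻¹) := by group
            rw [e]
            exact Y.mul_mem hy' hz'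
          one_mem' := ⟨Q.one_mem, by
            have e : a * 1 * a⁻¹ * (1 : Γ)⁻¹ = 1 := by group
            rw [e]; exact Y.one_mem⟩
          inv_mem' := by
            rintro y ⟨hy, hy'⟩
            refine ⟨Q.inv_mem hy, ?_⟩
            have hd : (a * y * a⁻¹)⁻¹ ∈ Q := Q.inv_mem (haQ y hy)
            have e : a * y⁻¹ * a⁻¹ * y⁻¹⁻¹ = (a * y * a⁻¹ * y⁻¹)⁻¹ := by
              calc a * y⁻¹ * a⁻¹ * y⁻¹⁻¹ = (a * y * a⁻¹)⁻¹ * y := by group
                _ = y * (a * y * a⁻¹)⁻¹ := hQc _ hd _ hy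
                _ = (a * y * a⁻¹ * y⁻¹)⁻¹ := by group
            rw [e]
            exact Y.inv_mem hy' }
      have hYK : Y ≤ K := fun y hy =>
        ⟨hYQ hy, Y.mul_mem (conj_mem_of_nz (hN ha) hy) (Y.inv_mem hy)⟩
      have hu₀K : u₀ ∈ K := ⟨hu₀Q, by
        have e : a * u₀ * a⁻¹ * u₀⁻¹ = 1 := by rw [hu₀F a ha]; group
        rw [e]; exact Y.one_mem⟩
      have hKQ : K = Q :=
        eq_of_index_prime Y K Q q hT.hq hYK (fun y hy => hy.1) hcard u₀ hu₀K hu₀Y
      intro y hy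
      have hyK : y ∈ K := hKQ ▸ hy
      exact hyK.2
    · -- F does not normalize Y: contradiction
      exfalso
      obtain ⟨a, ha, haN⟩ := SetLike.not_le_iff_exists.mp hN
      have hFY : ∀ f ∈ F, f ≠ 1 → f ∉ normalizer (Y : Set Γ) := by
        intro f hf hf1 hfN
        have hle : F ⊓ normalizer (Y : Set Γ) ≤ F := inf_le_left
        have hdvd : Nat.card (F ⊓ normalizer (Y : Set Γ) : Subgroup Γ) ∣ p := by
          rw [← hT.frob.hF]; exact Subgroup.card_dvd_of_le hle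
        have hne1 : Nat.card (F ⊓ normalizer (Y : Set Γ) : Subgroup Γ) ≠ 1 := by
          intro h1
          have hbot := (Subgroup.card_eq_one).mp h1
          have hmem : f ∈ (F ⊓ normalizer (Y : Set Γ) : Subgroup Γ) := ⟨hf, hfN⟩
          rw [hbot, Subgroup.mem_bot] at hmem
          exact hf1 hmem
        have hcardeq : Nat.card (F ⊓ normalizer (Y : Set Γ) : Subgroup Γ) = p :=
          ((Nat.dvd_prime hT.frob.hp).mp hdvd).resolve_left hne1
        have heq : F ⊓ normalizer (Y : Set Γ) = F :=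
          Subgroup.eq_of_le_of_card_ge hle (by rw [hcardeq, hT.frob.hF])
        have hmem : a ∈ (F ⊓ normalizer (Y : Set Γ) : Subgroup Γ) := by rw [heq]; exact ha
        exact haN hmem.2
      obtain ⟨v, hv, hv1, hvY⟩ := hex
      have huv : u₀ * v = v * u₀ :=
        norm_comm q r hT.hq hT.hr hT.hqr F V Q Y hT.hVc hT.hVr hT.hQq hQc hFV hT.hQV hFQ hYQ
          hcard hT.hE1 hT.hnVQ hFY v hv hvY u₀ hu₀Q hu₀F
      let K : Subgroup Γ := Q ⊓ Subgroup.centralizer ({v} : Set Γ)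
      have hYK : Y ≤ K := by
        intro y hy
        refine Subgroup.mem_inf.mpr ⟨hYQ hy, ?_⟩
        rw [Subgroup.mem_centralizer_iff]
        intro g hg
        rw [Set.mem_singleton_iff] at hg
        rw [hg]
        exact (hvY y hy).symm
      have hu₀K : u₀ ∈ K := by
        refine Subgroup.mem_inf.mpr ⟨hu₀Q, ?_⟩
        rw [Subgroup.mem_centralizer_iff]
        intro g hg
        rw [Set.mem_singleton_iff] at hg
        rw [hg]
        exact huv.symm
      have hKQ : K = Q := eq_of_index_prime Y K Q q hT.hq hYK inf_le_left hcard u₀ hu₀K hu₀Y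
      apply hv1
      apply hT.hE1 v hv
      intro y hy
      have hyK : y ∈ K := hKQ ▸ hy
      have h2 := (Subgroup.mem_inf.mp hyK).2
      rw [Subgroup.mem_centralizer_iff] at h2
      exact (h2 v rfl).symm

end Cfsg.Agent.Lib.Helper74.PQ
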