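import Mathlib
import Cfsg.Agent.Lib.Helper91.PslU

set_option autoImplicit false

namespace Cfsg.Agent.Lib.Helper74.PslB7b

open Matrix Matrix.SpecialLinearGroup Cfsg.Agent.Lib.Helper91.PslU

/-- the `(i, i+1)` entry is additive on the upper unitriangular group -/
theorem entry_mul {n : ℕ} (K : Type*) [Field K] (i j : Fin n)
    (hij : (i : ℕ) + 1 = (j : ℕ)) (g h : SpecialLinearGroup (Fin n) K)
    (hg : g ∈ UU n K) (hh : h ∈ UU n K) :
    (g * h).1 i j = g.1 i j + h.1 i j := by
  rw [mem_UU_iff] at hg hh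
  have hne : i ≠ j := by
    intro e
    rw [e] at hij
    omega
  rw [Matrix.SpecialLinearGroup.coe_mul, Matrix.mul_apply,
    Finset.sum_eq_add i j hne]
  · rw [hg.2 i, hh.2 j, one_mul, mul_one, add_comm]
  · intro k _ hk
    rcases lt_or_gt_of_ne hk.1 with h1 | h1
    · rw [hg.1 i k h1, zero_mul]
    · have h2 : j < k := by
        have h1' : (i : ℕ) < (k : ℕ) := h1
        have h3 : (k : ℕ) ≠ (j : ℕ) := fun e => hk.2 (Fin.ext e)
        show (j : ℕ) < (k : ℕ)
        omega
      rw [hh.1 k j h2, mul_zero]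
  · intro hi
    exact absurd (Finset.mem_univ i) hi
  · intro hj
    exact absurd (Finset.mem_univ j) hj

theorem entry_inv {n : ℕ} (K : Type*) [Field K] (i j : Fin n)
    (hij : (i : ℕ) + 1 = (j : ℕ)) (g : SpecialLinearGroup (Fin n) K)
    (hg : g ∈ UU n K) :
    (g⁻¹).1 i j = - g.1 i j := by
  have hne : i ≠ j := by
    intro e
    rw [e] at hij
    omega
  have h1 := entry_mul K i j hij g g⁻¹ hg (inv_mem hg)
  rw [mul_inv_cancel, Matrix.SpecialLinearGroup.coe_one, Matrix.one_apply_ne hne] at h1
  linear_combination -h1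

theorem transv_mem_UU {n : ℕ} (K : Type*) [Field K] (a b : Fin n) (hab : a < b) (t : K) :
    Matrix.SpecialLinearGroup.transvection (ne_of_lt hab) t ∈ UU n K := by
  rw [mem_UU_iff]
  refine ⟨fun x y hyx => ?_, fun x => ?_⟩
  · rw [Matrix.SpecialLinearGroup.transvection_coe, Matrix.add_apply,
      Matrix.one_apply_ne (ne_of_gt hyx), zero_add, Matrix.single_apply]
    rw [if_neg]
    rintro ⟨rfl, rfl⟩
    exact absurd hab (not_lt.mpr (le_of_lt hyx))
  · rw [Matrix.SpecialLinearGroup.transvection_coe, Matrix.add_apply,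
      Matrix.one_apply_eq, Matrix.single_apply]
    rw [if_neg, add_zero]
    rintro ⟨rfl, rfl⟩
    exact absurd hab (lt_irrefl _)

theorem PP_props {n : ℕ} (hn : 3 ≤ n) (K : Type*) [Field K] (i j : Fin n)
    (hij : (i : ℕ) + 1 = (j : ℕ)) (P : Subgroup (SpecialLinearGroup (Fin n) K))
    (hP : ∀ g, g ∈ P ↔ g ∈ UU n K ∧ g.1 i j = 0) :
    (∀ u ∈ UU n K, ∀ x ∈ P, u * x * u⁻¹ ∈ P) ∧
      (∀ c ∈ UU n K, (∀ x ∈ P, c * x = x * c) → c ∈ P) := by
  have hne : i ≠ j := by
    intro e
    rw [e] at hij
    omega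
  refine ⟨fun u hu x hx => ?_, fun c hc hcent => ?_⟩
  · rw [hP] at hx ⊢
    refine ⟨mul_mem (mul_mem hu hx.1) (inv_mem hu), ?_⟩
    rw [entry_mul K i j hij _ _ (mul_mem hu hx.1) (inv_mem hu),
      entry_mul K i j hij _ _ hu hx.1, entry_inv K i j hij u hu, hx.2]
    ring
  · rw [hP]
    refine ⟨hc, ?_⟩
    by_cases hlast : (j : ℕ) + 1 < n
    · -- case (a): `l = j + 1`
      set l : Fin n := ⟨(j : ℕ) + 1, hlast⟩ with hl
      have hjl : j < l := by
        show (j : ℕ) < (j : ℕ) + 1
        omega
      have hil : i ≠ l := by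
        intro e
        have : (i : ℕ) = (j : ℕ) + 1 := by rw [e]
        omega
      have he : Matrix.SpecialLinearGroup.transvection (ne_of_lt hjl) (1 : K) ∈ P := by
        rw [hP]
        refine ⟨transv_mem_UU K j l hjl 1, ?_⟩
        rw [Matrix.SpecialLinearGroup.transvection_coe, Matrix.add_apply,
          Matrix.one_apply_ne hne, zero_add, Matrix.single_apply, if_neg]
        rintro ⟨h1, _⟩
        exact hne h1.symm
      have h1 := hcent _ he
      have h2 := congrArg (fun m : SpecialLinearGroup (Fin n) K => m.1 i l) h1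
      simp only [Matrix.SpecialLinearGroup.coe_mul, SpecialLinearGroup.transvection_coe,
        Matrix.mul_add, Matrix.add_mul, Matrix.mul_one, Matrix.one_mul,
        Matrix.add_apply] at h2
      rw [Matrix.mul_single_apply_same, Matrix.single_mul_apply_of_ne _ _ _ _ _ hne] at h2
      rw [mul_one] at h2
      linear_combination h2
    · -- case (b): `h = i - 1`
      have hj := j.2
      have hi1 : 1 ≤ (i : ℕ) := by omega
      set h : Fin n := ⟨(i : ℕ) - 1, by omega⟩ with hh
      have hhi : h < i := by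
        show (i : ℕ) - 1 < (i : ℕ)
        omega
      have hhj : h ≠ j := by
        intro e
        have : (i : ℕ) - 1 = (j : ℕ) := by rw [← e]
        omega
      have he : Matrix.SpecialLinearGroup.transvection (ne_of_lt hhi) (1 : K) ∈ P := by
        rw [hP]
        refine ⟨transv_mem_UU K h i hhi 1, ?_⟩
        rw [Matrix.SpecialLinearGroup.transvection_coe, Matrix.add_apply,
          Matrix.one_apply_ne hne, zero_add, Matrix.single_apply, if_neg]
        rintro ⟨_, h1⟩
        exact hne h1
      have h1 := hcent _ he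
      have h2 := congrArg (fun m : SpecialLinearGroup (Fin n) K => m.1 h j) h1
      simp only [Matrix.SpecialLinearGroup.coe_mul, SpecialLinearGroup.transvection_coe,
        Matrix.mul_add, Matrix.add_mul, Matrix.mul_one, Matrix.one_mul,
        Matrix.add_apply] at h2
      rw [Matrix.single_mul_apply_same, Matrix.mul_single_apply_of_ne _ _ _ _ _ hne.symm] at h2
      rw [one_mul] at h2
      linear_combination -h2

end Cfsg.Agent.Lib.Helper74.PslB7b
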