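import Mathlib
import Cfsg.Agent.Lib.Helper65.RegUnipC
import Cfsg.Agent.S0836

set_option autoImplicit false

/-!
Regular unipotent pairs: the "square-central conjugator" trick and the generation of `SL_n(F_p)`
by the Jordan block `US` and the corner transvection `x_{n1}(1)`; the conjugate pair over `F_2`.
-/

namespace Cfsg.Agent.Lib.Helper74.RegUnipTwo

open Matrix Cfsg.Agent.Lib.Helper65.RegUnip

/-- `SL_n(F)` is perfect for `n ≥ 3`. -/
theorem commutator_sl_eq_top {F : Type*} [Field F] {n : ℕ} (hn : 3 ≤ n) :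
    commutator (Matrix.SpecialLinearGroup (Fin n) F) = ⊤ := by
  have : Nontrivial (Fin n) := Fin.nontrivial_iff_two_le.mpr (by omega)
  apply Cfsg.Agent.Lib.Helper47.eq_top_of_transvection_mem
  intro i j hij c
  rw [commutator_eq_closure]
  apply Subgroup.subset_closure
  exact Cfsg.Agent.S0836.result n (Or.inl hn) i j hij c _ rfl

/-- If `t²` commutes with `u`, `⟨u, t⟩` is everything and the group is perfect, then already
`u` and `t u t⁻¹` generate. -/
theorem closure_conj_eq_top {G : Type*} [Group G] (hperf : commutator G = ⊤) (u t : G)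
    (ht : Commute (t * t) u) (h : Subgroup.closure ({u, t} : Set G) = ⊤) :
    Subgroup.closure ({u, t * u * t⁻¹} : Set G) = ⊤ := by
  set K := Subgroup.closure ({u, t * u * t⁻¹} : Set G) with hK
  have hu : u ∈ K := Subgroup.subset_closure (by simp)
  have hv : t * u * t⁻¹ ∈ K := Subgroup.subset_closure (by simp)
  have e1 : t * (t * u * t⁻¹) * t⁻¹ = u := by
    have h1 : t * (t * u * t⁻¹) * t⁻¹ = (t * t) * u * (t * t)⁻¹ := by group
    rw [h1, ht.eq, mul_inv_cancel_right]
  have e2 : t⁻¹ * u * t = t * u * t⁻¹ := by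
    have h1 : t⁻¹ * u * t = t⁻¹ * (t * (t * u * t⁻¹) * t⁻¹) * t := by rw [e1]
    rw [h1]
    group
  have e3 : t⁻¹ * (t * u * t⁻¹) * t = u := by group
  have hle1 : ∀ x ∈ K, t * x * t⁻¹ ∈ K := by
    intro x hx
    induction hx using Subgroup.closure_induction with
    | mem y hy =>
      rcases hy with rfl | hy
      · exact hv
      · rw [Set.mem_singleton_iff] at hy
        rw [hy, e1]
        exact hu
    | one => simp
    | mul a b _ _ ha hb =>
      have : t * (a * b) * t⁻¹ = (t * a * t⁻¹) * (t * b * t⁻¹) := by group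
      rw [this]
      exact mul_mem ha hb
    | inv a _ ha =>
      have : t * a⁻¹ * t⁻¹ = (t * a * t⁻¹)⁻¹ := by group
      rw [this]
      exact inv_mem ha
  have hle2 : ∀ x ∈ K, t⁻¹ * x * t ∈ K := by
    intro x hx
    induction hx using Subgroup.closure_induction with
    | mem y hy =>
      rcases hy with rfl | hy
      · rw [e2]
        exact hv
      · rw [Set.mem_singleton_iff] at hy
        rw [hy, e3]
        exact hu
    | one => simp
    | mul a b _ _ ha hb =>
      have : t⁻¹ * (a * b) * t = (t⁻¹ * a * t) * (t⁻¹ * b * t) := by group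
      rw [this]
      exact mul_mem ha hb
    | inv a _ ha =>
      have : t⁻¹ * a⁻¹ * t = (t⁻¹ * a * t)⁻¹ := by group
      rw [this]
      exact inv_mem ha
  have hP : ∀ g : G, (∀ x ∈ K, g * x * g⁻¹ ∈ K) ∧ (∀ x ∈ K, g⁻¹ * x * g ∈ K) := by
    intro g
    have hg : g ∈ Subgroup.closure ({u, t} : Set G) := by rw [h]; trivial
    induction hg using Subgroup.closure_induction with
    | mem y hy =>
      rcases hy with rfl | hy
      · exact ⟨fun x hx => mul_mem (mul_mem hu hx) (inv_mem hu),
          fun x hx => mul_mem (mul_mem (inv_mem hu) hx) hu⟩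
      · rw [Set.mem_singleton_iff] at hy
        rw [hy]
        exact ⟨hle1, hle2⟩
    | one => exact ⟨fun x hx => by simpa using hx, fun x hx => by simpa using hx⟩
    | mul a b _ _ ha hb =>
      refine ⟨fun x hx => ?_, fun x hx => ?_⟩
      · have e : a * b * x * (a * b)⁻¹ = a * (b * x * b⁻¹) * a⁻¹ := by group
        rw [e]
        exact ha.1 _ (hb.1 _ hx)
      · have e : (a * b)⁻¹ * x * (a * b) = b⁻¹ * (a⁻¹ * x * a) * b := by group
        rw [e]
        exact hb.2 _ (ha.2 _ hx)
    | inv a _ ha =>
      refine ⟨fun x hx => ?_, fun x hx => ?_⟩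
      · rw [inv_inv]
        exact ha.2 x hx
      · rw [inv_inv]
        exact ha.1 x hx
  have hnorm : K.Normal := ⟨fun x hx g => (hP g).1 x hx⟩
  have hcyc : ∀ g : G, ∃ m : ℤ, (g : G ⧸ K) = (t : G ⧸ K) ^ m := by
    intro g
    have hg : g ∈ Subgroup.closure ({u, t} : Set G) := by rw [h]; trivial
    induction hg using Subgroup.closure_induction with
    | mem y hy =>
      rcases hy with rfl | hy
      · exact ⟨0, by rw [zpow_zero]; exact (QuotientGroup.eq_one_iff _).mpr hu⟩
      · rw [Set.mem_singleton_iff] at hy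
        exact ⟨1, by rw [hy, zpow_one]⟩
    | one => exact ⟨0, by rw [zpow_zero]; rfl⟩
    | mul a b _ _ ha hb =>
      obtain ⟨m, hm⟩ := ha
      obtain ⟨m', hm'⟩ := hb
      exact ⟨m + m', by rw [QuotientGroup.mk_mul, hm, hm', _root_.zpow_add]⟩
    | inv a _ ha =>
      obtain ⟨m, hm⟩ := ha
      exact ⟨-m, by rw [QuotientGroup.mk_inv, hm, _root_.zpow_neg]⟩
  have hcomm : commutator G ≤ K := by
    rw [← Subgroup.Normal.quotient_commutative_iff_commutator_le]
    refine ⟨⟨fun a b => ?_⟩⟩
    induction a using QuotientGroup.induction_on with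
    | H a =>
      induction b using QuotientGroup.induction_on with
      | H b =>
        obtain ⟨m, hm⟩ := hcyc a
        obtain ⟨m', hm'⟩ := hcyc b
        rw [hm, hm', ← _root_.zpow_add, ← _root_.zpow_add, add_comm]
  rw [eq_top_iff, ← hperf]
  exact hcomm

variable {F : Type*} [Field F] {n : ℕ}

/-- Over a prime field, integer multiples exhaust the scalars, so a single transvection gives its
whole root group. -/
theorem tvIn_smul_of_prime [Fintype F] (hp : (Fintype.card F).Prime)
    {G : Subgroup (Matrix.SpecialLinearGroup (Fin n) F)} {v ψ : Fin n → F} (h : TvIn G v ψ)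
    (c : F) : TvIn G (c • v) ψ := by
  let S : AddSubgroup F :=
    { carrier := {c | TvIn G (c • v) ψ}
      zero_mem' := by
        show TvIn G ((0 : F) • v) ψ
        rw [zero_smul]
        exact tvIn_zero_left G ψ
      add_mem' := by
        intro a b ha hb
        show TvIn G ((a + b) • v) ψ
        rw [add_smul]
        exact TvIn.add_centre ha hb
      neg_mem' := by
        intro a ha
        show TvIn G ((-a) • v) ψ
        rw [neg_smul]
        exact TvIn.neg_centre ha }
  have h1 : (1 : F) ∈ S := by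
    show TvIn G ((1 : F) • v) ψ
    rw [one_smul]
    exact h
  have : Fact (Fintype.card F).Prime := ⟨hp⟩
  have h2 : AddSubgroup.zmultiples (1 : F) = ⊤ :=
    zmultiples_eq_top_of_prime_card (by rw [Nat.card_eq_fintype_card]) one_ne_zero
  have h3 : c ∈ AddSubgroup.zmultiples (1 : F) := by rw [h2]; trivial
  exact (AddSubgroup.zmultiples_le_of_mem h1) h3

theorem Um_mulVec_bv_succ (k : ℕ) (hk : k + 1 < n) :
    Um n F *ᵥ (bv (k + 1) : Fin n → F) = bv (k + 1) + bv k := by
  rw [Um_mulVec, Nm_mulVec_bv_succ k hk]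

/-- Over a prime field, the Jordan block `US` and the corner transvection `x_{n1}(1)` generate
`SL_n`. -/
theorem eq_top_of_US_corner [Fintype F] (hp : (Fintype.card F).Prime) (hn : 2 ≤ n)
    (G : Subgroup (Matrix.SpecialLinearGroup (Fin n) F)) (hu : US n F ∈ G)
    (ht : TvIn G (bv (n - 1)) (bv 0)) : G = ⊤ := by
  have : Nontrivial (Fin n) := Fin.nontrivial_iff_two_le.mpr hn
  -- the first column below the diagonal
  have hcol : ∀ d k : ℕ, k + d = n - 1 → 1 ≤ k → TvIn G (bv k) (bv 0) := by
    intro d
    induction d with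
    | zero =>
      intro k hk _
      have : k = n - 1 := by omega
      rw [this]
      exact ht
    | succ d ih =>
      intro k hk hk1
      have h1 : TvIn G (bv (k + 1)) (bv 0) := ih (k + 1) (by omega) (by omega)
      have h2 : TvIn G ((↑(US n F) : Matrix (Fin n) (Fin n) F) *ᵥ bv (k + 1)) alt := by
        apply TvIn.conj hu
        rw [US_coe, alt_vecMul_Um]
        exact h1
      rw [US_coe, Um_mulVec_bv_succ k (by omega)] at h2
      have hd : (bv 0 : Fin n → F) ⬝ᵥ (bv (k + 1) + bv k) = 0 := by
        rw [dotProduct_add, bv_dot_ne _ _ (by omega), bv_dot_ne _ _ (by omega), add_zero]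
      have h3 := TvIn.comm h1 h2 hd
      have e : (alt : Fin n → F) ⬝ᵥ bv (k + 1) = (-1) ^ (k + 1) := by
        rw [dot_bv (k + 1) (by omega)]
        rfl
      rw [e, ← tvIn_smul_comm] at h3
      have h4 : TvIn G (bv (k + 1) + bv k) (bv 0) := by
        rcases neg_one_pow_eq_or F (k + 1) with h | h
        · rw [h] at h3
          have h5 := h3.neg_centre
          rwa [neg_smul, neg_neg, one_smul] at h5
        · rw [h, neg_neg, one_smul] at h3
          exact h3
      have h5 := h4.sub_centre h1
      rwa [add_sub_cancel_left] at h5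
  have hAx0 : (bv 0 : Fin n → F) ∈ Ax G := by
    intro w hw
    rw [bv_dot 0 (by omega)] at hw
    rw [eq_sum_bv w]
    apply Finset.sum_induction _ (fun x => TvIn G x (bv 0))
    · intro a b ha hb
      exact ha.add_centre hb
    · exact tvIn_zero_left G _
    · intro i _
      by_cases hi : (i : ℕ) = 0
      · have h7 : w i = 0 := by
          rw [← hw]
          congr 1
          exact Fin.ext hi
        rw [h7, zero_smul]
        exact tvIn_zero_left G _
      · exact tvIn_smul_of_prime hp (hcol (n - 1 - (i : ℕ)) i (by have := i.2; omega) (by omega)) _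
  have hAxk : ∀ k : ℕ, (bv k : Fin n → F) ∈ Ax G := by
    intro k
    induction k with
    | zero => exact hAx0
    | succ k ih =>
      have h1 := Ax_vecMul hu ih
      rw [US_coe, vecMul_Um, bv_vecMul_Nm] at h1
      have h2' := (Ax G).sub_mem h1 ih
      rwa [add_sub_cancel_left] at h2'
  apply eq_top_of_Ax
  rw [eq_top_iff]
  intro ψ _
  rw [eq_sum_bv ψ]
  apply Submodule.sum_mem
  intro i _
  apply Submodule.smul_mem
  exact hAxk _

/-- Over `F_2` (`n ≥ 3`): the Jordan block `u` and its conjugate under the involution `x_{n1}(1)`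
generate `SL_n`. -/
theorem conj_pair_char_two [Fintype F] (hn : 3 ≤ n) (h2 : Fintype.card F = 2) :
    ∃ u g : Matrix.SpecialLinearGroup (Fin n) F,
      (IsNilpotent ((u : Matrix (Fin n) (Fin n) F) - 1) ∧
        ((u : Matrix (Fin n) (Fin n) F) - 1) ^ (n - 1) ≠ 0) ∧
      Subgroup.closure ({u, g * u * g⁻¹} : Set (Matrix.SpecialLinearGroup (Fin n) F)) = ⊤ := by
  have hd : (bv 0 : Fin n → F) ⬝ᵥ bv (n - 1) = 0 := bv_dot_ne _ _ (by omega)
  have hp : (Fintype.card F).Prime := by rw [h2]; exact Nat.prime_two
  have : Fact (Nat.Prime 2) := ⟨Nat.prime_two⟩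
  have : CharP F 2 := charP_of_card_eq_prime h2
  refine ⟨US n F, tvSL (bv (n - 1)) (bv 0) hd, ⟨isNilpotent_Um_sub_one, Um_sub_one_pow_ne_zero (by omega)⟩, ?_⟩
  apply closure_conj_eq_top (commutator_sl_eq_top hn)
  · have h0 : (bv 0 : Fin n → F) + bv 0 = 0 := by
      funext i
      exact CharTwo.add_self_eq_zero _
    have h1 : tvSL (bv (n - 1)) (bv 0) hd * tvSL (bv (n - 1)) (bv 0) hd =
        (1 : Matrix.SpecialLinearGroup (Fin n) F) := by
      apply Subtype.ext
      rw [Matrix.SpecialLinearGroup.coe_mul, tvSL_coe, Matrix.SpecialLinearGroup.coe_one, mul_add,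
        mul_one, add_mul, one_mul, vecMulVec_mul_vecMulVec, hd, zero_smul, vecMulVec_zero, add_zero,
        add_assoc, ← vecMulVec_add, h0, vecMulVec_zero, add_zero]
    rw [h1]
    exact Commute.one_left _
  · apply eq_top_of_US_corner hp (by omega)
    · exact Subgroup.subset_closure (by simp)
    · rw [tvIn_iff hd]
      exact Subgroup.subset_closure (by simp)

end Cfsg.Agent.Lib.Helper74.RegUnipTwo
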