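import Mathlib
import Cfsg.Agent.Lib.Helper72.S3Defs

/-!
# S4305 piece S3-HP (poster helper72): case (i), some `c ∈ H ∖ R` is centralised by `f`
-/

set_option autoImplicit false
set_option linter.unusedVariables false

namespace Cfsg.Agent.Lib.Helper74.S3F

open Cfsg.Agent.Lib.Helper72.S3F

universe u

namespace HpAux

variable {V : Type u} [CommGroup V]

theorem fix_anti {B B' : Subgroup (MulAut V)} (h : B ≤ B') : fix B' ≤ fix B :=
  fun v hv b hb => hv b (h hb)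

theorem mem_fix_cm (R : Subgroup (MulAut V)) (g : MulAut V) (v : V) :
    v ∈ fix (cm R g) ↔ ∀ u ∈ R, (u⁻¹ * (g * u * g⁻¹)) v = v := by
  constructor
  · intro h u hu
    exact h _ (Subgroup.subset_closure ⟨u, hu, rfl⟩)
  · intro h b hb
    have hle : cm R g ≤ MulAction.stabilizer (MulAut V) v := by
      rw [cm, Subgroup.closure_le]
      rintro _ ⟨u, hu, rfl⟩
      exact h u hu
    exact hle hb

theorem cm_le (R : Subgroup (MulAut V)) (g : MulAut V)
    (hg : ∀ u ∈ R, g * u * g⁻¹ ∈ R) : cm R g ≤ R := by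
  rw [cm, Subgroup.closure_le]
  rintro _ ⟨u, hu, rfl⟩
  exact R.mul_mem (R.inv_mem hu) (hg u hu)

theorem cm_mul_le (R : Subgroup (MulAut V)) (x y : MulAut V)
    (hy : ∀ u ∈ R, y * u * y⁻¹ ∈ R) : cm R (x * y) ≤ cm R y ⊔ cm R x := by
  rw [cm, Subgroup.closure_le]
  rintro _ ⟨u, hu, rfl⟩
  have e : u⁻¹ * (x * y * u * (x * y)⁻¹) =
      (u⁻¹ * (y * u * y⁻¹)) * ((y * u * y⁻¹)⁻¹ * (x * (y * u * y⁻¹) * x⁻¹)) := by group
  rw [e]
  exact Subgroup.mul_mem _ (Subgroup.mem_sup_left (Subgroup.subset_closure ⟨u, hu, rfl⟩))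
    (Subgroup.mem_sup_right (Subgroup.subset_closure ⟨_, hy u hu, rfl⟩))

theorem map_mem_fix_cm (R : Subgroup (MulAut V)) (a g : MulAut V)
    (ha : ∀ u ∈ R, a⁻¹ * u * a ∈ R) (v : V) (hv : v ∈ fix (cm R g)) :
    a v ∈ fix (cm R (a * g * a⁻¹)) := by
  rw [mem_fix_cm] at hv ⊢
  intro u hu
  have h := hv _ (ha u hu)
  have e : u⁻¹ * (a * g * a⁻¹ * u * (a * g * a⁻¹)⁻¹) * a =
      a * ((a⁻¹ * u * a)⁻¹ * (g * (a⁻¹ * u * a) * g⁻¹)) := by group
  calc (u⁻¹ * (a * g * a⁻¹ * u * (a * g * a⁻¹)⁻¹)) (a v)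
      = (u⁻¹ * (a * g * a⁻¹ * u * (a * g * a⁻¹)⁻¹) * a) v := rfl
    _ = (a * ((a⁻¹ * u * a)⁻¹ * (g * (a⁻¹ * u * a) * g⁻¹))) v := by rw [e]
    _ = a (((a⁻¹ * u * a)⁻¹ * (g * (a⁻¹ * u * a) * g⁻¹)) v) := rfl
    _ = a v := by rw [h]

theorem le_cm_of_cent_trivial [Finite V] (R : Subgroup (MulAut V)) (g : MulAut V)
    (hg : ∀ u ∈ R, g * u * g⁻¹ ∈ R) (h1 : ∀ u ∈ R, g * u * g⁻¹ = u → u = 1) :
    R ≤ cm R g := by
  classical
  let φ : R → R := fun u =>
    ⟨(u : MulAut V)⁻¹ * (g * u * g⁻¹), R.mul_mem (R.inv_mem u.2) (hg u u.2)⟩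
  have hinj : Function.Injective φ := by
    intro u w huw
    have h : (u : MulAut V)⁻¹ * (g * u * g⁻¹) = (w : MulAut V)⁻¹ * (g * w * g⁻¹) :=
      congrArg Subtype.val huw
    have hz : g * ((u : MulAut V) * (w : MulAut V)⁻¹) * g⁻¹ = (u : MulAut V) * (w : MulAut V)⁻¹ := by
      have e2 : g * (u : MulAut V) * g⁻¹ = u * ((w : MulAut V)⁻¹ * (g * w * g⁻¹)) := by
        rw [← h]; group
      have e1 : g * ((u : MulAut V) * (w : MulAut V)⁻¹) * g⁻¹ =
          (g * u * g⁻¹) * (g * w * g⁻¹)⁻¹ := by group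
      rw [e1, e2]; group
    have h3 := h1 _ (R.mul_mem u.2 (R.inv_mem w.2)) hz
    exact Subtype.ext (mul_inv_eq_one.1 h3)
  have hsurj := Finite.surjective_of_injective hinj
  intro r hr
  obtain ⟨u, hu⟩ := hsurj ⟨r, hr⟩
  have h4 : r = (u : MulAut V)⁻¹ * (g * u * g⁻¹) := (congrArg Subtype.val hu).symm
  rw [h4]
  exact Subgroup.subset_closure ⟨u, u.2, rfl⟩

end HpAux

theorem hp (h6 : Reg6cStmt.{u}) (hx : LemXStmt.{u}) (hi : InvStmt.{u}) : HpStmt.{u} := by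
  intro V _ _ p H R f t hA hM hI hMax hex
  obtain ⟨c, hcH, hcR, hfc⟩ := hex
  classical
  have hf3 : f ^ 3 = 1 := hA.s3.f3
  have ht2 : t ^ 2 = 1 := hA.s3.t2
  have htf : t * f * t⁻¹ = f⁻¹ := hA.s3.tf
  have htt : t * t = 1 := by rw [← pow_two]; exact ht2
  have hNf : f ∈ Subgroup.normalizer (R : Set (MulAut V)) :=
    Subgroup.mem_normalizer_fintype hMax.fR
  have hNt : t ∈ Subgroup.normalizer (R : Set (MulAut V)) :=
    Subgroup.mem_normalizer_fintype hMax.tR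
  have hNH : ∀ x ∈ H, x ∈ Subgroup.normalizer (R : Set (MulAut V)) :=
    fun x hx => Subgroup.mem_normalizer_fintype (hMax.nH x hx)
  have hNc := hNH c hcH
  have hN1 : ∀ g ∈ Subgroup.normalizer (R : Set (MulAut V)), ∀ u ∈ R, g * u * g⁻¹ ∈ R :=
    fun g hg u hu => (Subgroup.mem_normalizer_iff.1 hg u).1 hu
  have hN2 : ∀ g ∈ Subgroup.normalizer (R : Set (MulAut V)), ∀ u ∈ R, g⁻¹ * u * g ∈ R :=
    fun g hg u hu => (Subgroup.mem_normalizer_iff''.1 hg u).1 hu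
  -- 1. `R ≠ ⊥`
  have hRne : R ≠ ⊥ := by
    intro hR
    obtain ⟨x, hxH, hxR⟩ := hMax.ne
    apply hxR
    apply hMax.self x hxH
    intro u hu
    rw [hR, Subgroup.mem_bot] at hu
    rw [hu, mul_one, one_mul]
  -- 2. `fix R = ⊥`
  have hfixR : fix R = ⊥ := by
    have hinv : ∀ g ∈ Subgroup.normalizer (R : Set (MulAut V)), ∀ w ∈ fix R, g w ∈ fix R := by
      intro g hg w hw b hb
      have h := hw _ (hN2 g hg b hb)
      calc b (g w) = (g * (g⁻¹ * b * g)) w := by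
            rw [show g * (g⁻¹ * b * g) = b * g by group]; rfl
        _ = g ((g⁻¹ * b * g) w) := rfl
        _ = g w := by rw [h]
    rcases hI (fix R) (fun x hx w hw => hinv x (hNH x hx) w hw) (fun w hw => hinv f hNf w hw)
      (fun w hw => hinv t hNt w hw) with h | h
    · exact h
    · exfalso
      apply hRne
      rw [eq_bot_iff]
      intro u hu
      rw [Subgroup.mem_bot]
      ext v
      have hv : v ∈ fix R := by rw [h]; exact Subgroup.mem_top v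
      exact hv u hu
  -- 3. `C_H(f)` is abelian and inverted by `t`
  have hcomm_fc : Commute f c := mul_inv_eq_iff_eq_mul.1 hfc
  obtain ⟨C, hmemC⟩ : ∃ C : Subgroup (MulAut V), ∀ x, x ∈ C ↔ x ∈ H ∧ Commute f x := by
    refine ⟨H ⊓ Subgroup.centralizer {f}, fun x => ?_⟩
    rw [Subgroup.mem_inf, Subgroup.mem_centralizer_iff]
    constructor
    · rintro ⟨h1, h2⟩
      exact ⟨h1, h2 f rfl⟩
    · rintro ⟨h1, h2⟩
      refine ⟨h1, fun h hh => ?_⟩
      rw [Set.mem_singleton_iff.1 hh]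
      exact h2
  have hcC : c ∈ C := (hmemC c).2 ⟨hcH, hcomm_fc⟩
  have hInv := hi (MulAut V) C t inferInstance ht2
    (fun x hx => by
      obtain ⟨h1, h2⟩ := (hmemC x).1 hx
      refine (hmemC _).2 ⟨hA.tH x h1, ?_⟩
      have h3 : Commute (t * f * t⁻¹) (t * x * t⁻¹) := h2.map (MulAut.conj t)
      rw [htf] at h3
      exact (Commute.inv_left_iff).1 h3)
    (fun x hx hxt => by
      obtain ⟨h1, h2⟩ := (hmemC x).1 hx
      exact hA.fpf x h1 (mul_inv_eq_iff_eq_mul.2 h2) hxt)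
  have htc : t * c * t⁻¹ = c⁻¹ := hInv.1 c hcC
  -- 4. `⟨c⟩ R = H`
  have hK : Subgroup.zpowers c ⊔ R = H := by
    have hKf : ∀ x ∈ Subgroup.zpowers c ⊔ R, f * x * f⁻¹ ∈ Subgroup.zpowers c ⊔ R := by
      have hle : Subgroup.zpowers c ⊔ R ≤
          (Subgroup.zpowers c ⊔ R).comap (MulAut.conj f).toMonoidHom := by
        refine sup_le ?_ ?_
        · rw [Subgroup.zpowers_le]
          show f * c * f⁻¹ ∈ Subgroup.zpowers c ⊔ R
          rw [hfc]
          exact Subgroup.mem_sup_left (Subgroup.mem_zpowers c)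
        · intro x hx
          exact Subgroup.mem_sup_right (hMax.fR x hx)
      exact fun x hx => hle hx
    have hKt : ∀ x ∈ Subgroup.zpowers c ⊔ R, t * x * t⁻¹ ∈ Subgroup.zpowers c ⊔ R := by
      have hle : Subgroup.zpowers c ⊔ R ≤
          (Subgroup.zpowers c ⊔ R).comap (MulAut.conj t).toMonoidHom := by
        refine sup_le ?_ ?_
        · rw [Subgroup.zpowers_le]
          show t * c * t⁻¹ ∈ Subgroup.zpowers c ⊔ R
          rw [htc]
          exact Subgroup.mem_sup_left (Subgroup.inv_mem _ (Subgroup.mem_zpowers c))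
        · intro x hx
          exact Subgroup.mem_sup_right (hMax.tR x hx)
      exact fun x hx => hle hx
    rcases hMax.max _ le_sup_right (sup_le ((Subgroup.zpowers_le).2 hcH) hMax.le) hKf hKt
      with h | h
    · exfalso
      apply hcR
      rw [← h]
      exact Subgroup.mem_sup_left (Subgroup.mem_zpowers c)
    · exact h
  -- 5. `C_R(c) = 1`, `C_R(c^6) = 1`
  have hcen : ∀ u ∈ R, Commute u c → u = 1 := by
    intro u hu huc
    apply hMax.cen u (hMax.le hu)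
    have hle : H ≤ Subgroup.centralizer {u} := by
      rw [← hK]
      refine sup_le ?_ ?_
      · rw [Subgroup.zpowers_le, Subgroup.mem_centralizer_iff]
        intro h hh
        rw [Set.mem_singleton_iff.1 hh]
        exact huc
      · intro x hx
        rw [Subgroup.mem_centralizer_iff]
        intro h hh
        rw [Set.mem_singleton_iff.1 hh]
        exact hMax.comm u hu x hx
    intro y hy
    have h := hle hy
    rw [Subgroup.mem_centralizer_iff] at h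
    exact h u rfl
  obtain ⟨m, hm⟩ : ∃ m : ℕ, (c ^ 6) ^ m = c := by
    apply exists_pow_eq_self_of_coprime
    have hd : orderOf c ∣ Nat.card H := Subgroup.orderOf_dvd_natCard H hcH
    exact (Nat.Coprime.coprime_dvd_left hd hA.cop).symm
  have hcen6 : ∀ u ∈ R, Commute (c ^ 6) u → u = 1 := by
    intro u hu h
    apply hcen u hu
    have h' := (h.pow_left m).symm
    rw [hm] at h'
    exact h'
  -- 6. `R ≤ [R, f]`
  have hRf : R ≤ cm R f := by
    apply HpAux.le_cm_of_cent_trivial R f hMax.fR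
    intro u hu hfu
    apply hcen u hu
    have huC : u ∈ C := (hmemC u).2 ⟨hMax.le hu, mul_inv_eq_iff_eq_mul.1 hfu⟩
    exact hInv.2 u huC c hcC
  -- 7. the decomposition of `V`
  have hdec : ∀ v : V, ∃ w₀ ∈ fix (cm R t), ∃ w₁ ∈ fix (cm R t), ∃ w₂ ∈ fix (cm R t),
      v = w₀ * f w₁ * f (f w₂) := by
    intro v
    obtain ⟨a, ha, w₀, hw₀, w₁, hw₁, w₂, hw₂, hv⟩ :=
      h6 V f t R hA.s3 hM.fpf hMax.comm hMax.fR hMax.tR hMax.cop v
    have ha1 : a = 1 := by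
      have h : a ∈ fix R := HpAux.fix_anti hRf ha
      rw [hfixR, Subgroup.mem_bot] at h
      exact h
    exact ⟨w₀, hw₀, w₁, hw₁, w₂, hw₂, by rw [hv, ha1, one_mul]⟩
  -- 8. the elements `a j = c f^j`
  obtain ⟨a, ha⟩ : ∃ a : Fin 3 → MulAut V, ∀ j, a j = c * f ^ (j : ℕ) := ⟨_, fun _ => rfl⟩
  have haN : ∀ j, a j ∈ Subgroup.normalizer (R : Set (MulAut V)) := by
    intro j
    rw [ha j]
    exact Subgroup.mul_mem _ hNc (Subgroup.pow_mem _ hNf _)
  have hta : ∀ j, t * a j * t⁻¹ = (a j)⁻¹ := by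
    intro j
    have h2 : t * f ^ (j : ℕ) * t⁻¹ = (f ^ (j : ℕ))⁻¹ := by
      have h := map_pow (MulAut.conj t) f (j : ℕ)
      rw [MulAut.conj_apply, MulAut.conj_apply, htf, inv_pow] at h
      exact h
    have h3 : t * (c * f ^ (j : ℕ)) * t⁻¹ = (t * c * t⁻¹) * (t * f ^ (j : ℕ) * t⁻¹) := by group
    rw [ha j, h3, htc, h2, mul_inv_rev]
    exact ((hcomm_fc.pow_left j).inv_inv).eq.symm
  have ha6 : ∀ j, (a j) ^ 6 = c ^ 6 := by
    intro j
    have hf6 : f ^ 6 = 1 := by rw [show 6 = 3 * 2 from rfl, pow_mul, hf3, one_pow]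
    have hfj : (f ^ (j : ℕ)) ^ 6 = 1 := by rw [← pow_mul, mul_comm, pow_mul, hf6, one_pow]
    rw [ha j, (hcomm_fc.pow_left j).symm.mul_pow, hfj, mul_one]
  have hg' : ∀ j, a j * t * (a j)⁻¹ * t = a j * a j := by
    intro j
    have h2 : t * (a j)⁻¹ = a j * t := by
      have h : t * (a j)⁻¹ * t⁻¹ = a j := by
        have e : t * (a j)⁻¹ * t⁻¹ = (t * a j * t⁻¹)⁻¹ := by group
        rw [e, hta j, inv_inv]
      rw [mul_inv_eq_iff_eq_mul] at h
      exact h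
    calc a j * t * (a j)⁻¹ * t = a j * (t * (a j)⁻¹) * t := by group
      _ = a j * (a j * t) * t := by rw [h2]
      _ = a j * a j * (t * t) := by group
      _ = a j * a j := by rw [htt, mul_one]
  have hgN : ∀ j, a j * t * (a j)⁻¹ * t ∈ Subgroup.normalizer (R : Set (MulAut V)) := fun j =>
    Subgroup.mul_mem _ (Subgroup.mul_mem _ (Subgroup.mul_mem _ (haN j) hNt)
      (Subgroup.inv_mem _ (haN j))) hNt
  have hcent : ∀ j, ∀ u ∈ R,
      (a j * t * (a j)⁻¹ * t) * u * (a j * t * (a j)⁻¹ * t)⁻¹ = u → u = 1 := by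
    intro j u hu h
    apply hcen6 u hu
    have h1 : Commute (a j * t * (a j)⁻¹ * t) u := mul_inv_eq_iff_eq_mul.1 h
    have h2 := h1.pow_left 3
    have h3 : (a j * t * (a j)⁻¹ * t) ^ 3 = c ^ 6 := by
      rw [hg' j, ← pow_two, ← pow_mul]
      exact ha6 j
    rw [h3] at h2
    exact h2
  have hsup : ∀ j, R ≤ cm R t ⊔ cm R (a j * t * (a j)⁻¹) := by
    intro j
    have h1 : R ≤ cm R (a j * t * (a j)⁻¹ * t) :=
      HpAux.le_cm_of_cent_trivial R _ (hN1 _ (hgN j)) (hcent j)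
    exact h1.trans (HpAux.cm_mul_le R (a j * t * (a j)⁻¹) t hMax.tR)
  have hspan : (⨆ j : Fin 3, fix (cm R (a j * t * (a j)⁻¹))) = ⊤ := by
    rw [eq_top_iff]
    intro v _
    obtain ⟨w₀, hw₀, w₁, hw₁, w₂, hw₂, hv⟩ := hdec (c⁻¹ v)
    have hv' : v = (a 0) w₀ * (a 1) w₁ * (a 2) w₂ := by
      have h : v = c (c⁻¹ v) := by
        show v = (c * c⁻¹) v
        rw [mul_inv_cancel]
        rfl
      rw [h, hv, map_mul, map_mul, ha 0, ha 1, ha 2]
      simp [pow_two, MulAut.mul_apply]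
    rw [hv']
    exact Subgroup.mul_mem _ (Subgroup.mul_mem _
      (Subgroup.mem_iSup_of_mem 0 (HpAux.map_mem_fix_cm R (a 0) t (hN2 _ (haN 0)) w₀ hw₀))
      (Subgroup.mem_iSup_of_mem 1 (HpAux.map_mem_fix_cm R (a 1) t (hN2 _ (haN 1)) w₁ hw₁)))
      (Subgroup.mem_iSup_of_mem 2 (HpAux.map_mem_fix_cm R (a 2) t (hN2 _ (haN 2)) w₂ hw₂))
  have hdisj : ∀ (i : Unit) (j : Fin 3), fix (cm R t ⊔ cm R (a j * t * (a j)⁻¹)) = ⊥ := by
    intro _ j
    rw [eq_bot_iff, ← hfixR]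
    exact HpAux.fix_anti (hsup j)
  have hB0 : fix (cm R t) = ⊥ :=
    hx V R Unit (Fin 3) (fun _ => cm R t) (fun j => cm R (a j * t * (a j)⁻¹)) hMax.comm hMax.cop
      (fun _ => HpAux.cm_le R t hMax.tR)
      (fun j => HpAux.cm_le R _ (hN1 _ (Subgroup.mul_mem _ (Subgroup.mul_mem _ (haN j) hNt)
        (Subgroup.inv_mem _ (haN j)))))
      hspan hdisj ()
  obtain ⟨v, hv⟩ := hM.nt
  apply hv
  obtain ⟨w₀, hw₀, w₁, hw₁, w₂, hw₂, hv'⟩ := hdec v
  rw [hB0, Subgroup.mem_bot] at hw₀ hw₁ hw₂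
  rw [hv', hw₀, hw₁, hw₂]
  simp

end Cfsg.Agent.Lib.Helper74.S3F
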