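import Mathlib
import Cfsg.Agent.Lib.Helper91.SuU

/-!
# S5172 piece EH1d: an `SL`-congruence-invariant additive subgroup containing `b E_ii`
contains all skew-hermitian matrices
-/

set_option autoImplicit false

namespace Cfsg.Agent.Lib.Helper74.SuEH1d

open Matrix Cfsg.Agent.Lib.Helper91.SpU Cfsg.Agent.Lib.Helper91.SuU

/-- the congruence of `b E_ii` by the transvection `1 + t E_ji` -/
theorem cong_tv_single {l : ℕ} {K : Type*} [Field K] (σ : K →+* K) (i j : Fin l) (_hij : i ≠ j)
    (t b : K) :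
    (Matrix.transvection j i t : Matrix (Fin l) (Fin l) K) * Matrix.single i i b *
        ((Matrix.transvection j i t : Matrix (Fin l) (Fin l) K).map σ)ᵀ
      = Matrix.single i i b + Matrix.single i j (b * σ t) + Matrix.single j i (t * b)
        + Matrix.single j j (t * b * σ t) := by
  have e1 : ((Matrix.transvection j i t : Matrix (Fin l) (Fin l) K).map σ)ᵀ
      = 1 + Matrix.single i j (σ t) := by
    rw [Matrix.transvection, Matrix.map_add _ (map_add σ),
      Matrix.map_one _ (map_zero σ) (map_one σ), Matrix.map_single,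
      Matrix.transpose_add, Matrix.transpose_one, Matrix.transpose_single]
  rw [e1, Matrix.transvection]
  simp only [add_mul, mul_add, one_mul, mul_one, Matrix.single_mul_single_same]
  abel

theorem herm_all (l : ℕ) (K : Type*) [Field K] (σ : K →+* K) (hσ : ∀ x, σ (σ x) = x)
    (htr : ∀ s : K, σ s = s → ∃ t : K, s = t + σ t) (hl : 2 ≤ l)
    (𝒯 : AddSubgroup (Matrix (Fin l) (Fin l) K))
    (hcong : ∀ B ∈ 𝒯, ∀ s : SpecialLinearGroup (Fin l) K,
      (s : Matrix (Fin l) (Fin l) K) * B * ((s : Matrix (Fin l) (Fin l) K).map σ)ᵀ ∈ 𝒯)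
    (i₀ : Fin l) (b : K) (hb0 : b ≠ 0) (hb : σ b = -b) (h0 : Matrix.single i₀ i₀ b ∈ 𝒯) :
    ∀ B : Matrix (Fin l) (Fin l) K, B.map σ = -Bᵀ → B ∈ 𝒯 := by
  -- the basic congruence: for `i ≠ j`, `c E_ii ∈ 𝒯` gives `X(t) ∈ 𝒯`
  have hX : ∀ (i j : Fin l), i ≠ j → ∀ c : K, Matrix.single i i c ∈ 𝒯 → ∀ t : K,
      Matrix.single i j (c * σ t) + Matrix.single j i (t * c)
        + Matrix.single j j (t * c * σ t) ∈ 𝒯 := by
    intro i j hij c hc t
    have h1 := hcong _ hc ⟨Matrix.transvection j i t, Matrix.det_transvection_of_ne j i hij.symm t⟩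
    have h2 : (Matrix.transvection j i t : Matrix (Fin l) (Fin l) K) * Matrix.single i i c *
        ((Matrix.transvection j i t : Matrix (Fin l) (Fin l) K).map σ)ᵀ ∈ 𝒯 := h1
    rw [cong_tv_single σ i j hij t c] at h2
    have h3 := 𝒯.sub_mem h2 hc
    convert h3 using 1
    abel
  -- (i)/(ii): from `c E_ii ∈ 𝒯` to `(t + σ t) c E_jj ∈ 𝒯`
  have hstep : ∀ (i j : Fin l), i ≠ j → ∀ c : K, Matrix.single i i c ∈ 𝒯 → ∀ x : K, σ x = x →
      Matrix.single j j (x * c) ∈ 𝒯 := by
    intro i j hij c hc x hx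
    obtain ⟨t, rfl⟩ := htr x hx
    have h1 := hX i j hij c hc (t + 1)
    have h2 := hX i j hij c hc t
    have h3 := hX i j hij c hc 1
    have h4 := 𝒯.sub_mem (𝒯.sub_mem h1 h2) h3
    convert h4 using 1
    rw [map_add, map_one]
    have e1 : (c * (σ t + 1) : K) = c * σ t + c * 1 := by ring
    have e2 : ((t + 1) * c : K) = t * c + 1 * c := by ring
    have e3 : ((t + 1) * c * (σ t + 1) : K) = t * c * σ t + 1 * c * 1 + (t + σ t) * c := by ring
    rw [e3, e1, e2, Matrix.single_add, Matrix.single_add, Matrix.single_add, Matrix.single_add]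
    abel
  -- some `j₀ ≠ i₀`
  obtain ⟨j₀, hj₀⟩ : ∃ j₀ : Fin l, j₀ ≠ i₀ := by
    by_cases h : i₀ = ⟨0, by omega⟩
    · exact ⟨⟨1, by omega⟩, by rw [h]; intro h'; exact absurd (congrArg Fin.val h') (by simp)⟩
    · exact ⟨⟨0, by omega⟩, fun h' => h h'.symm⟩
  have hone : σ (1 : K) = 1 := map_one σ
  have hj₀b : Matrix.single j₀ j₀ b ∈ 𝒯 := by
    have h := hstep i₀ j₀ hj₀.symm b h0 1 hone
    rwa [one_mul] at h
  -- all `x b E_ii`, `σ x = x`
  have hdiagx : ∀ (i : Fin l) (x : K), σ x = x → Matrix.single i i (x * b) ∈ 𝒯 := by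
    intro i x hx
    by_cases hi : i = j₀
    · rw [hi]
      exact hstep i₀ j₀ hj₀.symm b h0 x hx
    · exact hstep j₀ i (fun h => hi h.symm) b hj₀b x hx
  -- all `b' E_ii`, `σ b' = -b'`
  have hdiag : ∀ (i : Fin l) (b' : K), σ b' = -b' → Matrix.single i i b' ∈ 𝒯 := by
    intro i b' hb'
    have hx : σ (b' / b) = b' / b := by
      rw [map_div₀, hb', hb, neg_div_neg_eq]
    have h := hdiagx i (b' / b) hx
    rwa [div_mul_cancel₀ _ hb0] at h
  -- off-diagonal
  have hoff : ∀ (i j : Fin l), i ≠ j → ∀ c : K,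
      Matrix.single i j c - Matrix.single j i (σ c) ∈ 𝒯 := by
    intro i j hij c
    have h1 := hX i j hij b (hdiag i b hb) (σ (c / b))
    have hsk : σ (σ (c / b) * b * σ (σ (c / b))) = -(σ (c / b) * b * σ (σ (c / b))) := by
      rw [map_mul, map_mul, hσ, hb]
      ring
    have h2 := 𝒯.sub_mem h1 (hdiag j _ hsk)
    convert h2 using 1
    rw [hσ, map_div₀, hb]
    have e1 : b * (c / b) = c := by field_simp
    have e2 : σ c / -b * b = -σ c := by field_simp
    rw [e1, e2, ← Matrix.single_neg]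
    abel
  -- assembly
  intro B hB
  have hBsk : ∀ a c, σ (B a c) = -B c a := by
    intro a c
    have h := congrFun (congrFun hB a) c
    rwa [Matrix.map_apply, Matrix.neg_apply, Matrix.transpose_apply] at h
  obtain ⟨D, hD⟩ : ∃ D : Matrix (Fin l) (Fin l) K, ∀ i j, D i j = if i = j then B i j else 0 :=
    ⟨Matrix.of (fun i j => if i = j then B i j else 0), fun i j => rfl⟩
  obtain ⟨U, hU⟩ : ∃ U : Matrix (Fin l) (Fin l) K, ∀ i j, U i j = if i < j then B i j else 0 :=
    ⟨Matrix.of (fun i j => if i < j then B i j else 0), fun i j => rfl⟩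
  have hdecomp : B = D + (U - (U.map σ)ᵀ) := by
    ext a c
    rw [Matrix.add_apply, Matrix.sub_apply, Matrix.transpose_apply, Matrix.map_apply, hD, hU, hU]
    rcases lt_trichotomy a c with h | h | h
    · rw [if_neg h.ne, if_pos h, if_neg (not_lt.mpr h.le), map_zero]
      ring
    · subst h
      rw [if_pos rfl, if_neg (lt_irrefl _), map_zero]
      ring
    · rw [if_neg h.ne', if_neg (not_lt.mpr h.le), if_pos h, hBsk]
      ring
  have hDmem : D ∈ 𝒯 := by
    rw [matrix_eq_sum_single D]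
    refine 𝒯.sum_mem (fun i _ => 𝒯.sum_mem (fun j _ => ?_))
    rw [hD]
    by_cases hij : i = j
    · subst hij
      rw [if_pos rfl]
      refine hdiag i _ ?_
      rw [hBsk]
    · rw [if_neg hij, Matrix.single_zero]
      exact 𝒯.zero_mem
  have hUmem : U - (U.map σ)ᵀ ∈ 𝒯 := by
    have e : U - (U.map σ)ᵀ
        = ∑ i, ∑ j, (Matrix.single i j (U i j) - Matrix.single j i (σ (U i j))) := by
      have e1 : (U.map σ)ᵀ = ∑ i, ∑ j, Matrix.single j i (σ (U i j)) := by
        ext a c
        rw [Matrix.transpose_apply, Matrix.map_apply, Matrix.sum_apply]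
        simp only [Matrix.sum_apply, Matrix.single_apply]
        rw [Finset.sum_eq_single c]
        · rw [Finset.sum_eq_single a]
          · simp
          · intro x _ hx
            simp [hx]
          · simp
        · intro x _ hx
          refine Finset.sum_eq_zero (fun y _ => ?_)
          simp [hx]
        · simp
      simp only [Finset.sum_sub_distrib]
      rw [← e1, ← matrix_eq_sum_single U]
    rw [e]
    refine 𝒯.sum_mem (fun i _ => 𝒯.sum_mem (fun j _ => ?_))
    rw [hU]
    by_cases hij : i < j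
    · rw [if_pos hij]
      exact hoff i j hij.ne _
    · rw [if_neg hij, map_zero, Matrix.single_zero, Matrix.single_zero, sub_zero]
      exact 𝒯.zero_mem
  rw [hdecomp]
  exact 𝒯.add_mem hDmem hUmem

end Cfsg.Agent.Lib.Helper74.SuEH1d
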